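import Mathlib
import Cfsg.Prelude.Def_GeometricClasses
import Cfsg.Prelude.Def_Classical
import Cfsg.Agent.Helper58.TSDefs

/-! Piece NONSCAL of CALL TS (helper58; rows S5973 + S5987), with the shared helper lemmas. -/

set_option autoImplicit false

namespace Cfsg.Agent.Helper80.TS5973

open Module Cfsg Cfsg.Geo Cfsg.Agent.Helper58.TS
open scoped MatrixGroups

section small

variable {ι : Type} [Fintype ι] [DecidableEq ι] {F : Type*} [Field F]

/-- a nondegenerate quadratic form on a nonzero space takes a nonzero value -/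
theorem ts_exists_ne_zero [Nonempty ι] (Q : (ι → F) → F) (hQ : IsNondegenerateQuadraticForm Q) :
    ∃ u : ι → F, Q u ≠ 0 := by
  by_contra hne
  have h0 : ∀ u : ι → F, Q u = 0 := by
    intro u
    by_contra hu
    exact hne ⟨u, hu⟩
  obtain ⟨i⟩ := (inferInstance : Nonempty ι)
  have hv : (Pi.single i (1 : F) : ι → F) ≠ 0 := by
    intro h
    have h1 := congrFun h i
    rw [Pi.single_eq_same, Pi.zero_apply] at h1
    exact one_ne_zero h1
  obtain ⟨w, hw⟩ := (hQ.nondegenerate _ hv).1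
  apply hw
  rw [QuadraticMap.polar, h0, h0, h0]
  ring

/-- a scalar isometry has square-one scalar -/
theorem ts_scalar_sq [Nonempty ι] (Q : (ι → F) → F) (hQ : IsNondegenerateQuadraticForm Q)
    (y : GL ι F) (hy : y ∈ Cfsg.isometryGroup F Q) (z : F)
    (hz : (y : Matrix ι ι F) = z • (1 : Matrix ι ι F)) : z ^ 2 = 1 := by
  obtain ⟨u, hu⟩ := ts_exists_ne_zero Q hQ
  have h1 : Q ((y : Matrix ι ι F).mulVec u) = Q u := hy u u
  rw [hz, Matrix.smul_mulVec, Matrix.one_mulVec, hQ.smul] at h1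
  have h2 : (z ^ 2 - 1) * Q u = 0 := by rw [sub_mul, one_mul, h1, sub_self]
  rcases mul_eq_zero.mp h2 with h3 | h3
  · exact sub_eq_zero.mp h3
  · exact absurd h3 hu

/-- NONSCAL [S]: an isometry `x ≠ 1` with `x ^ r = 1`, `r` odd, is not scalar
(`x = z • 1` gives `z ^ 2 = 1` and `z ^ r = 1`). -/
theorem ts_nonscalar (Q : (ι → F) → F) (hQ : IsNondegenerateQuadraticForm Q) (r : ℕ) (hr : Odd r)
    (x : GL ι F) (hx : x ∈ Cfsg.isometryGroup F Q) (hxr : x ^ r = 1) (hx1 : x ≠ 1) :
    ∀ z : F, (x : Matrix ι ι F) ≠ z • (1 : Matrix ι ι F) := by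
  intro z hz
  by_cases hι : IsEmpty ι
  · exact hx1 (Units.ext (Subsingleton.elim _ _))
  · haveI : Nonempty ι := not_isEmpty_iff.mp hι
    obtain ⟨i⟩ := (inferInstance : Nonempty ι)
    have hz2 := ts_scalar_sq Q hQ x hx z hz
    have hzr : z ^ r = 1 := by
      have h1 : ((x ^ r : GL ι F) : Matrix ι ι F) = 1 := by rw [hxr]; rfl
      rw [Units.val_pow_eq_pow_val, hz, smul_pow, one_pow] at h1
      have h2 := congrFun (congrFun h1 i) i
      rw [Matrix.smul_apply, Matrix.one_apply_eq, smul_eq_mul, mul_one] at h2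
      exact h2
    obtain ⟨k, hk⟩ := hr
    have hz1 : z = 1 := by
      rw [hk, pow_succ, pow_mul, hz2, one_pow, one_mul] at hzr
      exact hzr
    apply hx1
    apply Units.ext
    rw [hz, hz1, one_smul]
    rfl

end small

end Cfsg.Agent.Helper80.TS5973
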