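import Mathlib
import Cfsg.Agent.Helper15.CharInner

/-!
# Piece P8 of CALL S4460 (helper15): Burnside–Brauer for a product-closed set of irreducible
characters

A set `X` of irreducible characters containing the trivial character, closed under taking
constituents of products, and with trivial common kernel, is all of `Irr(R)`.
-/

set_option autoImplicit false

universe u

open Cfsg

namespace Cfsg.Agent.Helper80

open scoped ComplexConjugate

/-- A complex number with real part `d` and norm at most `d` equals `d`. -/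
theorem cd3BB_eq_of_re {z : ℂ} {d : ℝ} (hre : z.re = d) (hn : ‖z‖ ≤ d) : z = (d : ℂ) := by
  have h1 : ‖z‖ ^ 2 = z.re ^ 2 + z.im ^ 2 := by
    rw [Complex.sq_norm, Complex.normSq_apply]
    ring
  have hd : 0 ≤ d := le_trans (norm_nonneg z) hn
  have h2 : ‖z‖ ^ 2 ≤ d ^ 2 := pow_le_pow_left₀ (norm_nonneg z) hn 2
  have h3 : z.im ^ 2 ≤ 0 := by
    rw [h1, hre] at h2
    linarith
  have h4 : z.im = 0 := by
    have h5 : z.im ^ 2 = 0 := le_antisymm h3 (sq_nonneg _)
    exact pow_eq_zero_iff (two_ne_zero) |>.mp h5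
  apply Complex.ext
  · rw [hre, Complex.ofReal_re]
  · rw [h4, Complex.ofReal_im]

/-- **Piece P8 of CALL S4460.** -/
theorem cd3_burnside_brauer {R : Type u} [Group R] [Fintype R] (X : Set (IrrCharacter R))
    (h1 : ∀ θ : IrrCharacter R, (θ : R → ℂ) = (fun _ => 1) → θ ∈ X)
    (hmul : ∀ θ₁ ∈ X, ∀ θ₂ ∈ X, ∀ η : IrrCharacter R,
      classInner ((θ₁ : R → ℂ) * (θ₂ : R → ℂ)) (η : R → ℂ) ≠ 0 → η ∈ X)
    (hfaith : ∀ x : R, (∀ θ ∈ X, (θ : R → ℂ) x = (θ : R → ℂ) 1) → x = 1)
    (η : IrrCharacter R) : η ∈ X := by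
  classical
  have : Fintype (IrrCharacter R) := Fintype.ofFinite _
  by_contra hη
  obtain ⟨V, hV⟩ : ∃ V : Submodule ℂ (R → ℂ),
      V = Submodule.span ℂ ((fun θ : IrrCharacter R => (θ : R → ℂ)) '' X) := ⟨_, rfl⟩
  have hgen : ∀ θ ∈ X, (θ : R → ℂ) ∈ V := by
    intro θ hθ
    rw [hV]
    exact Submodule.subset_span ⟨θ, hθ, rfl⟩
  -- every element of `V` is orthogonal to `η`
  have horth : ∀ f ∈ V, classInner f (η : R → ℂ) = 0 := by
    intro f hf
    rw [hV] at hf
    refine Submodule.span_induction ?_ ?_ ?_ ?_ hf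
    · rintro _ ⟨θ, hθ, rfl⟩
      rw [Helper15.irr_inner, if_neg]
      rintro rfl
      exact hη hθ
    · unfold classInner
      simp
    · intro a b _ _ ha hb
      rw [Helper15.classInner_add_left, ha, hb, add_zero]
    · intro c a _ ha
      rw [Helper15.classInner_smul_left, ha, mul_zero]
  -- `V` is stable under multiplication by the members of `X`
  have hmulV : ∀ θ ∈ X, ∀ f ∈ V, (θ : R → ℂ) * f ∈ V := by
    intro θ hθ f hf
    have hf' := hf
    rw [hV] at hf'
    refine Submodule.span_induction ?_ ?_ ?_ ?_ hf'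
    · rintro _ ⟨θ₂, hθ₂, rfl⟩
      have hcl : IsClassFunction R ((θ : R → ℂ) * (θ₂ : R → ℂ)) := by
        intro g h
        rw [Pi.mul_apply, Pi.mul_apply,
          Helper15.isClassFunction_of_isChar (Helper15.isChar_of_irr θ.2) g h,
          Helper15.isClassFunction_of_isChar (Helper15.isChar_of_irr θ₂.2) g h]
      rw [Helper15.classFun_eq_sum hcl]
      apply Submodule.sum_mem
      intro ξ _
      by_cases h0 : classInner ((θ : R → ℂ) * (θ₂ : R → ℂ)) (ξ : R → ℂ) = 0
      · rw [h0, zero_smul]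
        exact V.zero_mem
      · exact V.smul_mem _ (hgen ξ (hmul θ hθ θ₂ hθ₂ ξ h0))
    · rw [mul_zero]
      exact V.zero_mem
    · intro a b _ _ ha hb
      rw [mul_add]
      exact V.add_mem ha hb
    · intro c a _ ha
      rw [mul_smul_comm]
      exact V.smul_mem c ha
  -- the sum of the members of `X`
  obtain ⟨Xf, hXf⟩ : ∃ Xf : Finset (IrrCharacter R), Xf = Finset.univ.filter (fun θ => θ ∈ X) :=
    ⟨_, rfl⟩
  have hmemXf : ∀ θ, θ ∈ Xf ↔ θ ∈ X := by
    intro θ
    rw [hXf, Finset.mem_filter]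
    exact ⟨fun h => h.2, fun h => ⟨Finset.mem_univ _, h⟩⟩
  obtain ⟨Φ, hΦ⟩ : ∃ Φ : R → ℂ, Φ = ∑ θ ∈ Xf, (θ : R → ℂ) := ⟨_, rfl⟩
  have hΦx : ∀ x, Φ x = ∑ θ ∈ Xf, (θ : R → ℂ) x := by
    intro x
    rw [hΦ, Finset.sum_apply]
  have hΦmul : ∀ f ∈ V, Φ * f ∈ V := by
    intro f hf
    rw [hΦ, Finset.sum_mul]
    apply Submodule.sum_mem
    intro θ hθ
    exact hmulV θ ((hmemXf θ).mp hθ) f hf
  have hone : (1 : R → ℂ) ∈ V := by
    have h2 := hgen ⟨fun _ => 1, trivial_isIrrCharacter⟩ (h1 _ rfl)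
    exact h2
  have hpow : ∀ k : ℕ, Φ ^ k ∈ V := by
    intro k
    induction k with
    | zero =>
      rw [pow_zero]
      exact hone
    | succ k ih =>
      rw [pow_succ']
      exact hΦmul _ ih
  have hpoly : ∀ f : Polynomial ℂ, (fun x => f.eval (Φ x)) ∈ V := by
    intro f
    have h2 : (fun x => f.eval (Φ x)) = ∑ k ∈ Finset.range (f.natDegree + 1), f.coeff k • Φ ^ k := by
      funext x
      rw [Polynomial.eval_eq_sum_range, Finset.sum_apply]
      apply Finset.sum_congr rfl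
      intro k _
      rw [Pi.smul_apply, Pi.pow_apply, smul_eq_mul]
    rw [h2]
    apply Submodule.sum_mem
    intro k _
    exact V.smul_mem _ (hpow k)
  -- `Φ x = Φ 1` forces `x = 1`
  have hΦeq : ∀ x, Φ x = Φ 1 → x = 1 := by
    intro x hx
    apply hfaith
    intro θ hθ
    have hre : ∀ θ' : IrrCharacter R,
        ((θ' : R → ℂ) x).re ≤ (charDegree (θ' : R → ℂ) : ℝ) := by
      intro θ'
      exact (le_abs_self _).trans ((Complex.abs_re_le_norm _).trans
        (isCharacter_norm_le (Helper15.isChar_of_irr θ'.2) x))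
    have hsum : ∑ θ' ∈ Xf, ((θ' : R → ℂ) x).re = ∑ θ' ∈ Xf, (charDegree (θ' : R → ℂ) : ℝ) := by
      have h2 := congrArg Complex.re hx
      rw [hΦx, hΦx, Complex.re_sum, Complex.re_sum] at h2
      rw [h2]
      apply Finset.sum_congr rfl
      intro θ' _
      rw [irr_one_eq, Complex.natCast_re]
    have heq := (Finset.sum_eq_sum_iff_of_le (fun θ' _ => hre θ')).mp hsum θ ((hmemXf θ).mpr hθ)
    rw [irr_one_eq]
    have h3 := cd3BB_eq_of_re heq (isCharacter_norm_le (Helper15.isChar_of_irr θ.2) x)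
    rw [h3]
    norm_cast
  -- the separating polynomial
  obtain ⟨S, hS⟩ : ∃ S : Finset ℂ, S = (Finset.univ.image Φ).erase (Φ 1) := ⟨_, rfl⟩
  obtain ⟨f, hf⟩ : ∃ f : Polynomial ℂ, f = ∏ a ∈ S, (Polynomial.X - Polynomial.C a) := ⟨_, rfl⟩
  have hfx : ∀ x, x ≠ 1 → f.eval (Φ x) = 0 := by
    intro x hx
    rw [hf, Polynomial.eval_prod]
    have hmem : Φ x ∈ S := by
      rw [hS]
      exact Finset.mem_erase.mpr ⟨fun h => hx (hΦeq x h),
        Finset.mem_image_of_mem Φ (Finset.mem_univ x)⟩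
    apply Finset.prod_eq_zero hmem
    rw [Polynomial.eval_sub, Polynomial.eval_X, Polynomial.eval_C, sub_self]
  have hf1 : f.eval (Φ 1) ≠ 0 := by
    rw [hf, Polynomial.eval_prod, Finset.prod_ne_zero_iff]
    intro a ha
    rw [Polynomial.eval_sub, Polynomial.eval_X, Polynomial.eval_C]
    rw [hS] at ha
    exact sub_ne_zero.mpr (fun h => (Finset.mem_erase.mp ha).1 h.symm)
  have h0 := horth _ (hpoly f)
  unfold classInner at h0
  rw [Finset.sum_eq_single 1] at h0
  · have hcard : ((Nat.card R : ℂ))⁻¹ ≠ 0 := by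
      apply inv_ne_zero
      exact_mod_cast Nat.card_pos.ne'
    have hη1 : conj ((η : R → ℂ) 1) ≠ 0 := by
      intro h
      apply irr_one_ne_zero η
      have h2 := congrArg conj h
      rw [Complex.conj_conj, map_zero] at h2
      exact h2
    rcases mul_eq_zero.mp h0 with h | h
    · exact hcard h
    · rcases mul_eq_zero.mp h with h | h
      · exact hf1 h
      · exact hη1 h
  · intro x _ hx
    change Polynomial.eval (Φ x) f * _ = 0
    rw [hfx x hx, zero_mul]
  · intro h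
    exact absurd (Finset.mem_univ _) h

end Cfsg.Agent.Helper80
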