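import Mathlib
import Cfsg.Prelude.Def_Characters
import Cfsg.Prelude.Def_Blocks
import Cfsg.Agent.Helper80.LinExt
import Cfsg.Agent.Helper80.CharIrr
import Cfsg.Agent.Helper2.TateNormal
import Cfsg.Agent.Helper2.PGroup
import Cfsg.Agent.Helper76.PQOver
import Cfsg.Agent.Helper79.ItoMichler
import Cfsg.Agent.Helper79.Codegree
import Cfsg.Agent.Helper79.Linear
import Cfsg.Agent.Helper15.RamGen
import Cfsg.Agent.Helper15.CharInner

/-!
# A perfect normal subgroup cannot have all "non-trivial-on-R" degrees equal (helper80)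

PIECE P6 of CALL S4460 (helper15): `cd3_not_all_same`.
-/

set_option autoImplicit false

namespace Cfsg.Agent.Helper80

open Cfsg

universe u

/-- If `χ z = χ 1` for a character `χ`, then `χ (z * y) = χ y`. -/
theorem cd3T_char_mul_ker {G : Type u} [Group G] [Finite G] {χ : G → ℂ} (h : IsCharacter G χ)
    (z : G) (hz : χ z = χ 1) (y : G) : χ (z * y) = χ y := by
  obtain ⟨n, ρ, rfl⟩ := h
  have h1 : ρ z = 1 := (rep_char_eq_one_iff ρ z).mp hz
  unfold Representation.character
  rw [map_mul, h1, one_mul]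

/-- A linear constituent `μ` of a function `ψ` is trivial on every `z` with
`ψ (z * y) = ψ y` for all `y`. -/
theorem cd3T_hom_eq_one {P : Type u} [Group P] [Fintype P] (μ : P →* ℂˣ) (ψ : P → ℂ)
    (hne : classInner (fun h : P => ((μ h : ℂˣ) : ℂ)) ψ ≠ 0) (z : P)
    (hz : ∀ y : P, ψ (z * y) = ψ y) : μ z = 1 := by
  have hS : ∑ y : P, ((μ y : ℂˣ) : ℂ) * (starRingEnd ℂ) (ψ y) ≠ 0 := by
    intro h0
    apply hne
    unfold classInner
    rw [h0, mul_zero]
  have h1 : ∑ y : P, ((μ y : ℂˣ) : ℂ) * (starRingEnd ℂ) (ψ y) =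
      ((μ z : ℂˣ) : ℂ) * ∑ y : P, ((μ y : ℂˣ) : ℂ) * (starRingEnd ℂ) (ψ y) := by
    rw [Finset.mul_sum]
    rw [← Equiv.sum_comp (Equiv.mulLeft z)]
    apply Finset.sum_congr rfl
    intro y _
    simp only [Equiv.coe_mulLeft]
    rw [hz y, map_mul, Units.val_mul, mul_assoc]
  have h2 : ((μ z : ℂˣ) : ℂ) = 1 := by
    have h3 : (((μ z : ℂˣ) : ℂ) - 1) *
        ∑ y : P, ((μ y : ℂˣ) : ℂ) * (starRingEnd ℂ) (ψ y) = 0 := by
      rw [sub_mul, one_mul, ← h1, sub_self]
    rcases mul_eq_zero.mp h3 with h4 | h4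
    · exact sub_eq_zero.mp h4
    · exact absurd h4 hS
  exact Units.ext h2

/-- STEP T: under the hypotheses of `cd3_not_all_same`, no prime divisor of `d` divides `|R|`. -/
theorem cd3T_not_dvd {G : Type u} [Group G] [Finite G] (R : Subgroup G) [R.Normal]
    (hperf : commutator R = ⊤) (d : ℕ)
    (h : ∀ χ : IrrCharacter G, (∃ x ∈ R, (χ : G → ℂ) x ≠ (χ : G → ℂ) 1) →
      charDegree (χ : G → ℂ) = d) (p : ℕ) (hp : p.Prime) (hpd : p ∣ d) :
    ¬ p ∣ Nat.card R := by
  classical
  have : Fact p.Prime := ⟨hp⟩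
  have : Fintype G := Fintype.ofFinite G
  let P : Sylow p G := default
  have : Fintype (P : Subgroup G) := Fintype.ofFinite _
  have hfr : R ⊓ (P : Subgroup G) ≤ (frattini P).map (P : Subgroup G).subtype := by
    intro z hz
    have hzP : z ∈ (P : Subgroup G) := hz.2
    have hzR : z ∈ R := hz.1
    have hmem : (⟨z, hzP⟩ : (P : Subgroup G)) ∈ commutator (P : Subgroup G) := by
      apply mem_commutator_of_forall_hom
      intro μ
      set θ : ↥(P : Subgroup G) → ℂ := fun h => ((μ h : ℂˣ) : ℂ) with hθdef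
      have hθ : IsCharacter ↥(P : Subgroup G) θ :=
        Helper79.isCharacter_of_irr (Helper79.isIrrCharacter_of_hom μ)
      have hΨ : IsCharacter G (indFun (P : Subgroup G) θ) := Helper3.isCharacter_indFun _ θ hθ
      have hθ1 : charDegree θ = 1 := by
        unfold charDegree; simp [hθdef]
      have hΨdeg : ¬ p ∣ charDegree (indFun (P : Subgroup G) θ) := by
        rw [Helper79.charDegree_indFun _ hθ, hθ1, mul_one]
        exact P.not_dvd_index
      obtain ⟨χ, hχne, hχdeg⟩ := Helper76.exists_pprime_constituent hΨ hΨdeg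
      have hχd : charDegree (χ : G → ℂ) ≠ d := by
        intro h1; rw [h1] at hχdeg; exact hχdeg hpd
      have hker : ∀ x ∈ R, (χ : G → ℂ) x = (χ : G → ℂ) 1 := by
        intro x hx
        by_contra hne
        exact hχd (h χ ⟨x, hx, hne⟩)
      have hχc : IsCharacter G (χ : G → ℂ) := Helper79.irr_isCharacter χ
      rw [Helper3.frobenius_reciprocity (P : Subgroup G) θ _
        (Helper79.isCharacter_isClassFunction hχc)] at hχne
      apply cd3T_hom_eq_one μ _ hχne
      intro y
      exact cd3T_char_mul_ker hχc z (hker z hzR) y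
    exact ⟨⟨z, hzP⟩, Helper2.commutator_le_frattini_of_isPGroup P.2 hmem, rfl⟩
  obtain ⟨Q, T, hT, hc⟩ := Helper2.hasNormalPComplement_of_normal_inf_sylow_le_frattini P R hfr
  -- `R ⧸ T` is a perfect `p`-group, hence trivial
  have hTtop : T = ⊤ := by
    by_contra hne
    have : Nontrivial (R ⧸ T) := (QuotientGroup.nontrivial_iff).mpr hne
    have hpg : IsPGroup p (R ⧸ T) := by
      obtain ⟨k, hk⟩ := (IsPGroup.iff_card).mp Q.2
      apply IsPGroup.of_card (n := k)
      rw [← Subgroup.index_eq_card, hc.symm.index_eq_card, hk]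
    have : Group.IsNilpotent (R ⧸ T) := hpg.isNilpotent
    have hlt := Group.IsSolvable.commutator_lt_top_of_nontrivial (R ⧸ T)
    have htop : commutator (R ⧸ T) = ⊤ := by
      rw [commutator_def, ← Subgroup.map_top_of_surjective (QuotientGroup.mk' T)
        (QuotientGroup.mk'_surjective T), ← Subgroup.map_commutator, ← commutator_def, hperf]
    exact hlt.ne htop
  have h1 : (Q : Subgroup R).index = Nat.card T := hc.index_eq_card
  rw [hTtop] at h1
  have h2 : Nat.card (⊤ : Subgroup R) = Nat.card R := Subgroup.card_top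
  rw [h2] at h1
  rw [← h1]
  exact Q.not_dvd_index

/-- PIECE P6 of CALL S4460. -/
theorem cd3_not_all_same {G : Type u} [Group G] [Finite G] (R : Subgroup G) [R.Normal]
    (hperf : commutator R = ⊤) (hR : R ≠ ⊥) (d : ℕ)
    (h : ∀ χ : IrrCharacter G, (∃ x ∈ R, (χ : G → ℂ) x ≠ (χ : G → ℂ) 1) →
      charDegree (χ : G → ℂ) = d) : False := by
  classical
  have : Fintype G := Fintype.ofFinite G
  have : Fintype R := Fintype.ofFinite R
  have hT := cd3T_not_dvd R hperf d h
  have hcne : commutator R ≠ ⊥ := by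
    rw [hperf]
    intro h1
    apply hR
    rw [Subgroup.eq_bot_iff_forall]
    intro x hx
    have h2 : (⟨x, hx⟩ : R) ∈ (⊤ : Subgroup R) := Subgroup.mem_top _
    rw [h1, Subgroup.mem_bot] at h2
    exact congrArg Subtype.val h2
  obtain ⟨θ, hθ1⟩ := Helper79.exists_nonlinear_of_commutator_ne_bot hcne
  obtain ⟨χ, hχ, hcon⟩ := Helper79.exists_irr_over_normal R θ.2
  by_cases hk : ∃ x ∈ R, χ x ≠ χ 1
  · have hd : charDegree χ = d := h ⟨χ, hχ⟩ hk
    obtain ⟨k, hk1, -⟩ := Helper15.degree_eq_mul_of_constituent R χ hχ θ θ.2 hcon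
    have hχ1 : χ 1 = (charDegree χ : ℂ) := isCharacter_one_eq (isCharacter_of_irr hχ)
    have hθ1' : (θ : R → ℂ) 1 = (charDegree (θ : R → ℂ) : ℂ) := irr_one_eq θ
    have hdk : d = k * charDegree (θ : R → ℂ) := by
      rw [hχ1, hθ1', hd] at hk1
      exact_mod_cast hk1
    obtain ⟨p, hp, hpθ⟩ := Nat.exists_prime_and_dvd hθ1
    have hpd : p ∣ d := by rw [hdk]; exact Dvd.dvd.mul_left hpθ k
    have hpR : p ∣ Nat.card R :=
      hpθ.trans (Helper79.isIrrCharacter_charDegree_dvd_card θ.2)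
    exact hT p hp hpd hpR
  · push Not at hk
    apply hθ1
    have htriv : IsIrrCharacter R (fun _ => (1 : ℂ)) := trivial_isIrrCharacter
    have heq : (fun n : R => χ n) = (χ 1) • (fun _ : R => (1 : ℂ)) := by
      funext n
      simp [hk n n.2]
    rw [heq, Helper15.classInner_smul_left] at hcon
    have h3 : classInner (fun _ : R => (1 : ℂ)) (θ : R → ℂ) ≠ 0 := right_ne_zero_of_mul hcon
    have h4 : (fun _ : R => (1 : ℂ)) = (θ : R → ℂ) := by
      by_contra hne
      exact h3 (Helper15.irr_inner_ne htriv θ.2 hne)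
    rw [← h4]
    unfold charDegree; simp

end Cfsg.Agent.Helper80
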