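import Mathlib

/-!
# PIECE FSQ of CALL S4278 (helper18): one of `x`, `y`, `x y` is a square in a finite field of odd
order (helper80)
-/

set_option autoImplicit false

namespace Cfsg.Agent.Helper80.G2O

section

variable {F : Type*} [Field F]

/-- PIECE FSQ (finite fields): one of `x`, `y`, `x y` is a square. -/
theorem g2o_sq_cases [Fintype F] (hF : Odd (Fintype.card F)) (x y : Fˣ) :
    (∃ c : Fˣ, x = c ^ 2) ∨ (∃ c : Fˣ, y = c ^ 2) ∨ (∃ c : Fˣ, x * y = c ^ 2) := by
  classical
  have hchar : ringChar F ≠ 2 := by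
    intro h
    have := FiniteField.even_card_iff_char_two.mp h
    rcases hF with ⟨k, hk⟩
    omega
  have key : ∀ a : Fˣ, (a : F) ^ (Fintype.card F / 2) = 1 → ∃ c : Fˣ, a = c ^ 2 := by
    intro a ha
    have h1 : a ^ (Fintype.card F / 2) = 1 := Units.ext (by simpa using ha)
    obtain ⟨c, hc⟩ := (FiniteField.unit_isSquare_iff hchar a).mpr h1
    exact ⟨c, by rw [hc, sq]⟩
  rcases FiniteField.pow_dichotomy hchar (Units.ne_zero x) with hx | hx
  · exact Or.inl (key x hx)
  rcases FiniteField.pow_dichotomy hchar (Units.ne_zero y) with hy | hy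
  · exact Or.inr (Or.inl (key y hy))
  · refine Or.inr (Or.inr (key (x * y) ?_))
    rw [Units.val_mul, mul_pow, hx, hy]
    ring

end

end Cfsg.Agent.Helper80.G2O
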