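import Mathlib
import Cfsg.Prelude.Def_GeometricClasses
import Cfsg.Prelude.Def_Classical
import Cfsg.Agent.Helper35.S88Defs
import Cfsg.Agent.Helper80.TSNONSCAL

/-! Helper piece SCAL for CALL S88 (helper90; row S5988): an isometry `x` with `x ^ r` scalar
(`r` odd) and `x` not scalar: `x' = x` or `x' = -x` has `x' ^ r = 1`, `x' ≠ 1`, and the same
invariant subspaces (so `InvEll` transfers from `x'` to `x`). -/

set_option autoImplicit false

namespace Cfsg.Agent.Helper80.S88

open Module Cfsg Cfsg.Geo Cfsg.Agent.Helper35.S88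
open scoped MatrixGroups

variable {ι : Type} [Fintype ι] [DecidableEq ι] {F : Type*} [Field F]

/-- SCAL for `InvEll`. -/
theorem s88_scal (Q : (ι → F) → F) (hQ : IsNondegenerateQuadraticForm Q) (r : ℕ) (hr : Odd r)
    (x : GL ι F) (hx : x ∈ Cfsg.isometryGroup F Q)
    (hxr : ∃ z : F, ((x ^ r : GL ι F) : Matrix ι ι F) = z • (1 : Matrix ι ι F))
    (hns : ∀ z : F, (x : Matrix ι ι F) ≠ z • (1 : Matrix ι ι F)) :
    ∃ x' : GL ι F, x' ∈ Cfsg.isometryGroup F Q ∧ x' ^ r = 1 ∧ x' ≠ 1 ∧
      (∀ W : Submodule F (ι → F), W.map (Matrix.toLin' (x' : Matrix ι ι F)) ≤ W →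
        W.map (Matrix.toLin' (x : Matrix ι ι F)) ≤ W) ∧
      ∀ m, InvEll Q (x' : Matrix ι ι F) m → InvEll Q (x : Matrix ι ι F) m := by
  obtain ⟨z, hz⟩ := hxr
  have hx1 : x ≠ 1 := by
    intro h
    apply hns 1
    rw [h, one_smul]
    rfl
  by_cases hι : IsEmpty ι
  · exact absurd (Units.ext (Subsingleton.elim _ _)) hx1
  · have : Nonempty ι := not_isEmpty_iff.mp hι
    have hz2 := Cfsg.Agent.Helper80.TS5973.ts_scalar_sq Q hQ (x ^ r)
      ((Cfsg.isometryGroup F Q).pow_mem hx r) z hz
    have hz' : z = 1 ∨ z = -1 := by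
      have h1 : (z - 1) * (z + 1) = 0 := by linear_combination hz2
      rcases mul_eq_zero.mp h1 with h2 | h2
      · exact Or.inl (sub_eq_zero.mp h2)
      · exact Or.inr (eq_neg_of_add_eq_zero_left h2)
    rcases hz' with rfl | rfl
    · refine ⟨x, hx, ?_, hx1, fun W h => h, fun m h => h⟩
      apply Units.ext
      rw [hz, one_smul]
      rfl
    · have hinv : ∀ W : Submodule F (ι → F),
          W.map (Matrix.toLin' ((-x : GL ι F) : Matrix ι ι F)) ≤ W →
          W.map (Matrix.toLin' (x : Matrix ι ι F)) ≤ W := by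
        intro W hW
        rintro _ ⟨w, hw, rfl⟩
        have h1 : Matrix.toLin' ((-x : GL ι F) : Matrix ι ι F) w ∈ W :=
          hW (Submodule.mem_map_of_mem hw)
        rw [Units.val_neg, Matrix.toLin'_apply, Matrix.neg_mulVec] at h1
        rw [Matrix.toLin'_apply]
        have h2 := W.neg_mem h1
        rwa [neg_neg] at h2
      refine ⟨-x, ?_, ?_, ?_, hinv, ?_⟩
      · intro u v
        show Q (((-x : GL ι F) : Matrix ι ι F).mulVec u) = Q u
        rw [Units.val_neg, Matrix.neg_mulVec]
        have h1 : -((x : Matrix ι ι F).mulVec u) = (-1 : F) • ((x : Matrix ι ι F).mulVec u) := by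
          rw [neg_smul, one_smul]
        rw [h1, hQ.smul]
        have h2 : Q ((x : Matrix ι ι F).mulVec u) = Q u := hx u u
        rw [h2]
        ring
      · apply Units.ext
        rw [Units.val_pow_eq_pow_val, Units.val_neg, hr.neg_pow, ← Units.val_pow_eq_pow_val, hz,
          neg_smul, one_smul, neg_neg]
        rfl
      · intro h
        apply hns (-1)
        have h3 : x = -1 := by rw [← neg_neg x, h]
        rw [h3, neg_smul, one_smul]
        rfl
      · rintro m ⟨W, hW1, hW2⟩
        exact ⟨W, hW1, hinv W hW2⟩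

end Cfsg.Agent.Helper80.S88
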