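import Mathlib
import Cfsg.Prelude.Def_GeometricClasses
import Cfsg.Prelude.Def_Classical
import Cfsg.Agent.Helper58.TSDefs
import Cfsg.Agent.Helper47.HTHTIB

/-! Piece TSB of sub-CALL TSR2 (helper90; rows S5973 + S5987). -/

set_option autoImplicit false

namespace Cfsg.Agent.Helper80.TSR2

open Module Cfsg Cfsg.Geo Cfsg.Agent.Helper58.TS
open scoped MatrixGroups

section pieces

variable {ι : Type} [Fintype ι] [DecidableEq ι] {F : Type*} [Field F] [Fintype F]

/-- the polar form of a nondegenerate quadratic form is "hermitian" for `σ = id` -/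
theorem r2_isHerm_polar (Q : (ι → F) → F) (hQ : IsNondegenerateQuadraticForm Q) :
    Cfsg.Agent.Helper90.HT.IsHerm (RingHom.id F) (QuadraticMap.polar Q) where
  add_left := fun u u' v => hQ.polar_bilinear.add_left u u' v
  smul_left := fun a u v => hQ.polar_bilinear.smul_left a u v
  symm := fun u v => by
    rw [RingHom.id_apply]
    exact QuadraticMap.polar_comm Q v u
  invol := fun a => rfl

/-- TSB [S] (bridge to `Helper47.HT5953.ht_bound` with `σ = RingHom.id F`, `h = ph (op_qf Q hQ)`;
`Q = 0` on `U` gives `polar = 0` on `U` in every characteristic). -/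
theorem r2_ts_bound (Q : (ι → F) → F) (hQ : IsNondegenerateQuadraticForm Q)
    (D U : Submodule F (ι → F)) (hD : IsNondegenerateOn (QuadraticMap.polar Q) D) (hU : U ≤ D)
    (hts : ∀ w ∈ U, Q w = 0) : 2 * finrank F U ≤ finrank F D := by
  refine Cfsg.Agent.Helper47.HT5953.ht_bound (RingHom.id F) (QuadraticMap.polar Q)
    (r2_isHerm_polar Q hQ) D U ?_ hU ?_
  · intro v hv h0
    by_contra hne
    obtain ⟨x, hx, hx0⟩ := (hD v hv hne).2
    exact hx0 (h0 x hx)
  · intro u hu v hv
    rw [QuadraticMap.polar, hts u hu, hts v hv, hts (u + v) (U.add_mem hu hv)]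
    ring

end pieces

end Cfsg.Agent.Helper80.TSR2
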