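import Mathlib
import Cfsg.Prelude.Def_GeometricClasses
import Cfsg.Prelude.Def_Classical
import Cfsg.Agent.Helper58.TSDefs
import Cfsg.Agent.Helper10.HTHMAX
import Cfsg.Agent.Helper49.OTISO
import Cfsg.Agent.Helper80.TSR2TSB

/-! Piece SKMAX of sub-CALL TSR2 (helper90; rows S5973 + S5987). -/

set_option autoImplicit false

namespace Cfsg.Agent.Helper80.TSR2

open Module Cfsg Cfsg.Geo Cfsg.Agent.Helper58.TS
open scoped MatrixGroups

section pieces

variable {ι : Type} [Fintype ι] [DecidableEq ι] {F : Type*} [Field F] [Fintype F]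

/-- an isometry of `Q` preserves the polar form -/
theorem r2_polar_pres (Q : (ι → F) → F) (M : Matrix ι ι F) (hM : ∀ v, Q (M.mulVec v) = Q v)
    (u v : ι → F) : QuadraticMap.polar Q (M.mulVec u) (M.mulVec v) = QuadraticMap.polar Q u v := by
  rw [QuadraticMap.polar, QuadraticMap.polar, ← Matrix.mulVec_add, hM, hM, hM]

/-- a vector with `polar Q v v = 0` is singular (`2 ≠ 0`) -/
theorem r2_sing_of_polar (Q : (ι → F) → F) (hQ : IsNondegenerateQuadraticForm Q) (h2 : (2 : F) ≠ 0)
    (v : ι → F) (hv : QuadraticMap.polar Q v v = 0) : Q v = 0 := by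
  have h1 : Q (v + v) = (2 : F) ^ 2 * Q v := by
    rw [← two_smul F v, hQ.smul]
  rw [QuadraticMap.polar, h1] at hv
  have h3 : (2 : F) * Q v = 0 := by linear_combination hv
  rcases mul_eq_zero.mp h3 with h4 | h4
  · exact absurd h4 h2
  · exact h4

/-- SKMAX [M] (`Helper10.HT5953.ht_max` with `σ = id`, `h = ph (op_qf Q hQ)`, `N = 4`, `D = ⊤`:
`2d = 2 dim W + dim U`, `U` invariant without invariant t.s. subspace; if `dim U ≥ 3`, OT ISO
(`Helper49.OTISO.ot_iso`) gives `v ∈ U` singular and `⟨v, M v⟩` is invariant and t.s. because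
`B(v, M v) = B(M v, M M v) = -B(v, M v)`; so `dim U ≤ 2`). -/
theorem r2_skew_max (Q : (ι → F) → F) (hQ : IsNondegenerateQuadraticForm Q) (h2 : (2 : F) ≠ 0)
    (d : ℕ) (hcard : Fintype.card ι = 2 * d) (M : Matrix ι ι F) (hM : ∀ v, Q (M.mulVec v) = Q v)
    (hM2 : M * M = -1) (hm1 : ¬ IsSquare (-1 : F)) :
    ∃ W : Submodule F (ι → F), (∀ w ∈ W, Q w = 0) ∧ W.map (Matrix.toLin' M) ≤ W ∧
      d ≤ finrank F W + 1 := by
  have hh := r2_isHerm_polar Q hQ
  have hB := hQ.polar_bilinear
  have hTT : ∀ v : ι → F, M.mulVec (M.mulVec v) = -v := by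
    intro v
    rw [Matrix.mulVec_mulVec, hM2, Matrix.neg_mulVec, Matrix.one_mulVec]
  have hT4 : (Matrix.toLin' M) ^ 4 = 1 := by
    apply LinearMap.ext
    intro v
    have h4 : (Matrix.toLin' M) ^ 4 = Matrix.toLin' M * (Matrix.toLin' M * (Matrix.toLin' M *
        Matrix.toLin' M)) := by
      simp only [pow_succ, pow_zero, one_mul, mul_assoc]
    rw [h4]
    simp only [Module.End.mul_apply, Matrix.toLin'_apply, Module.End.one_apply]
    rw [hTT, hTT, neg_neg]
  have hN : ((4 : ℕ) : F) ≠ 0 := by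
    have h4 : ((4 : ℕ) : F) = 2 * 2 := by norm_num
    rw [h4]
    exact mul_ne_zero h2 h2
  have hPres : Cfsg.Agent.Helper90.HT.HPres (QuadraticMap.polar Q) (Matrix.toLin' M) := by
    intro u v
    rw [Matrix.toLin'_apply, Matrix.toLin'_apply]
    exact r2_polar_pres Q M hM u v
  have hDtop : Cfsg.Agent.Helper90.HT.HNondegOn (QuadraticMap.polar Q)
      (⊤ : Submodule F (ι → F)) := by
    intro v _ h0
    by_contra hne
    obtain ⟨x, hx0⟩ := (hQ.nondegenerate v hne).2
    exact hx0 (h0 x Submodule.mem_top)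
  obtain ⟨W, U, -, -, hWti, hWT, hUT, hdim, hUmin⟩ :=
    Cfsg.Agent.Helper10.HT5953.ht_max (RingHom.id F) (QuadraticMap.polar Q) hh
      (Matrix.toLin' M) hPres 4 hN hT4 ⊤ le_top hDtop
  refine ⟨W, fun w hw => r2_sing_of_polar Q hQ h2 w (hWti w hw w hw), hWT, ?_⟩
  have htop : finrank F (⊤ : Submodule F (ι → F)) = 2 * d := by
    rw [finrank_top, Module.finrank_pi, hcard]
  have hU2 : finrank F U ≤ 2 := by
    by_contra hU3
    obtain ⟨v, hvU, hv0, hvv⟩ := Cfsg.Agent.Helper49.OT5972.ot_iso (QuadraticMap.polar Q) hh U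
      (by omega)
    have hMvU : M.mulVec v ∈ U := by
      have := hUT (Submodule.mem_map_of_mem hvU)
      rwa [Matrix.toLin'_apply] at this
    -- the polar values
    have h11 : QuadraticMap.polar Q (M.mulVec v) (M.mulVec v) = 0 := by
      rw [r2_polar_pres Q M hM, hvv]
    have h01 : QuadraticMap.polar Q v (M.mulVec v) = 0 := by
      have e1 : QuadraticMap.polar Q v (M.mulVec v) =
          QuadraticMap.polar Q (M.mulVec v) (M.mulVec (M.mulVec v)) :=
        (r2_polar_pres Q M hM v (M.mulVec v)).symm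
      rw [hTT] at e1
      have e2 : QuadraticMap.polar Q (M.mulVec v) (-v) = -QuadraticMap.polar Q (M.mulVec v) v := by
        have := hB.smul_right (-1 : F) (M.mulVec v) v
        rw [neg_smul, one_smul] at this
        rw [this]; ring
      rw [e2, QuadraticMap.polar_comm Q (M.mulVec v) v] at e1
      have e3 : (2 : F) * QuadraticMap.polar Q v (M.mulVec v) = 0 := by linear_combination e1
      rcases mul_eq_zero.mp e3 with e4 | e4
      · exact absurd e4 h2
      · exact e4
    have h10 : QuadraticMap.polar Q (M.mulVec v) v = 0 := by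
      rw [QuadraticMap.polar_comm, h01]
    have hW' := hUmin (Submodule.span F {v, M.mulVec v}) ?_ ?_ ?_
    · have hvW : v ∈ Submodule.span F {v, M.mulVec v} :=
        Submodule.subset_span (Set.mem_insert _ _)
      rw [hW'] at hvW
      exact hv0 ((Submodule.mem_bot F).mp hvW)
    · rw [Submodule.span_le]
      intro x hx
      rcases hx with rfl | hx
      · exact hvU
      · rw [Set.mem_singleton_iff] at hx
        rw [hx]
        exact hMvU
    · intro x hx y hy
      obtain ⟨a, b, rfl⟩ := Submodule.mem_span_pair.mp hx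
      obtain ⟨c, e, rfl⟩ := Submodule.mem_span_pair.mp hy
      rw [hB.add_left, hB.add_right, hB.add_right, hB.smul_left, hB.smul_left, hB.smul_right,
        hB.smul_right, hB.smul_left, hB.smul_left, hB.smul_right, hB.smul_right, hvv, h01, h10, h11]
      ring
    · rw [Submodule.map_span_le]
      intro x hx
      rcases hx with rfl | hx
      · rw [Matrix.toLin'_apply]
        exact Submodule.subset_span (Set.mem_insert_of_mem _ rfl)
      · rw [Set.mem_singleton_iff] at hx
        rw [hx, Matrix.toLin'_apply, hTT]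
        exact Submodule.neg_mem _ (Submodule.subset_span (Set.mem_insert _ _))
  omega

end pieces

end Cfsg.Agent.Helper80.TSR2
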