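import Mathlib
import Cfsg.Agent.Helper27.SameOrderA

/-!
# PIECE ORB of CALL S3431 (helper27): the elements of order `m` whose centraliser in `P` has
`c` elements form a union of `P`-orbits of length `|P| / c` (helper80)
-/

set_option autoImplicit false
set_option linter.unusedSectionVars false
set_option linter.style.haveILetI false

namespace Cfsg.Agent.Helper80

open Cfsg.Agent.Helper27.SO

variable {H : Type*} [Group H] [Finite H]

/-- Conjugating `t` by `p ∈ P` does not change the number of elements of `P` commuting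
with it. -/
theorem nseORB_card_conj (P : Subgroup H) (p : H) (hp : p ∈ P) (t : H) :
    Nat.card {x : H // x ∈ P ∧ Commute x (p * t * p⁻¹)} =
      Nat.card {x : H // x ∈ P ∧ Commute x t} := by
  apply Nat.card_congr
  refine
    { toFun := fun x => ⟨p⁻¹ * x.1 * p, P.mul_mem (P.mul_mem (P.inv_mem hp) x.2.1) hp, ?_⟩
      invFun := fun x => ⟨p * x.1 * p⁻¹, P.mul_mem (P.mul_mem hp x.2.1) (P.inv_mem hp), ?_⟩
      left_inv := ?_
      right_inv := ?_ }
  · have h : x.1 * (p * t * p⁻¹) = (p * t * p⁻¹) * x.1 := x.2.2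
    show p⁻¹ * x.1 * p * t = t * (p⁻¹ * x.1 * p)
    calc p⁻¹ * x.1 * p * t = p⁻¹ * (x.1 * (p * t * p⁻¹)) * p := by group
      _ = p⁻¹ * ((p * t * p⁻¹) * x.1) * p := by rw [h]
      _ = t * (p⁻¹ * x.1 * p) := by group
  · have h : x.1 * t = t * x.1 := x.2.2
    show p * x.1 * p⁻¹ * (p * t * p⁻¹) = (p * t * p⁻¹) * (p * x.1 * p⁻¹)
    calc p * x.1 * p⁻¹ * (p * t * p⁻¹) = p * (x.1 * t) * p⁻¹ := by group
      _ = p * (t * x.1) * p⁻¹ := by rw [h]
      _ = (p * t * p⁻¹) * (p * x.1 * p⁻¹) := by group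
  · intro x
    apply Subtype.ext
    show p * (p⁻¹ * x.1 * p) * p⁻¹ = x.1
    group
  · intro x
    apply Subtype.ext
    show p⁻¹ * (p * x.1 * p⁻¹) * p = x.1
    group

/-- PIECE ORB of CALL S3431. -/
theorem card_centralizer_class_dvd (P : Subgroup H) (m c : ℕ) :
    Nat.card P ∣ c * Nat.card {t : H // orderOf t = m ∧
      Nat.card {x : H // x ∈ P ∧ Commute x t} = c} := by
  classical
  letI : MulAction ↥P {t : H // orderOf t = m ∧ Nat.card {x : H // x ∈ P ∧ Commute x t} = c} :=
    { smul := fun p t => ⟨(p : H) * t.1 * (p : H)⁻¹, by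
        have h1 : orderOf ((p : H) * t.1 * (p : H)⁻¹) = orderOf t.1 := by
          have h := orderOf_injective (MulAut.conj (p : H)).toMonoidHom
            (MulAut.conj (p : H)).injective t.1
          simpa using h
        rw [h1]
        exact t.2.1, by
        rw [nseORB_card_conj P (p : H) p.2 t.1]
        exact t.2.2⟩
      one_smul := by
        intro t
        apply Subtype.ext
        show ((1 : ↥P) : H) * t.1 * ((1 : ↥P) : H)⁻¹ = t.1
        simp
      mul_smul := by
        intro p p' t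
        apply Subtype.ext
        show ((p * p' : ↥P) : H) * t.1 * ((p * p' : ↥P) : H)⁻¹ =
          (p : H) * ((p' : H) * t.1 * (p' : H)⁻¹) * (p : H)⁻¹
        rw [Subgroup.coe_mul]
        group }
  have hsmul : ∀ (p : ↥P)
      (t : {t : H // orderOf t = m ∧ Nat.card {x : H // x ∈ P ∧ Commute x t} = c}),
      ((p • t : {t : H // orderOf t = m ∧ Nat.card {x : H // x ∈ P ∧ Commute x t} = c}) : H) =
        (p : H) * t.1 * (p : H)⁻¹ := fun _ _ => rfl
  have hfin : Fintype {t : H // orderOf t = m ∧ Nat.card {x : H // x ∈ P ∧ Commute x t} = c} :=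
    Fintype.ofFinite _
  -- Burnside's bijection
  have e1 := MulAction.sigmaFixedByEquivOrbitsProdGroup ↥P
    {t : H // orderOf t = m ∧ Nat.card {x : H // x ∈ P ∧ Commute x t} = c}
  -- the other way of counting the pairs
  have e2 : (Σ p : ↥P, MulAction.fixedBy
      {t : H // orderOf t = m ∧ Nat.card {x : H // x ∈ P ∧ Commute x t} = c} p) ≃
      (Σ t : {t : H // orderOf t = m ∧ Nat.card {x : H // x ∈ P ∧ Commute x t} = c},
        {x : H // x ∈ P ∧ Commute x t.1}) :=
    { toFun := fun a => ⟨a.2.1, ⟨(a.1 : H), a.1.2, by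
        have h := a.2.2
        have h1 : (a.1 : H) * a.2.1.1 * (a.1 : H)⁻¹ = a.2.1.1 := by
          have h2 := congrArg Subtype.val (MulAction.mem_fixedBy.mp h)
          rw [hsmul] at h2
          exact h2
        show (a.1 : H) * a.2.1.1 = a.2.1.1 * (a.1 : H)
        calc (a.1 : H) * a.2.1.1 = ((a.1 : H) * a.2.1.1 * (a.1 : H)⁻¹) * (a.1 : H) := by group
          _ = a.2.1.1 * (a.1 : H) := by rw [h1]⟩⟩
      invFun := fun b => ⟨⟨b.2.1, b.2.2.1⟩, ⟨b.1, by
        rw [MulAction.mem_fixedBy]
        apply Subtype.ext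
        rw [hsmul]
        have h : b.2.1 * b.1.1 = b.1.1 * b.2.1 := b.2.2.2
        show b.2.1 * b.1.1 * (b.2.1)⁻¹ = b.1.1
        rw [h]
        group⟩⟩
      left_inv := fun a => rfl
      right_inv := fun b => rfl }
  have hc1 : Nat.card (Σ t : {t : H // orderOf t = m ∧
      Nat.card {x : H // x ∈ P ∧ Commute x t} = c}, {x : H // x ∈ P ∧ Commute x t.1}) =
      c * Nat.card {t : H // orderOf t = m ∧ Nat.card {x : H // x ∈ P ∧ Commute x t} = c} := by
    rw [Nat.card_sigma]
    rw [Finset.sum_congr rfl (fun t _ => t.2.2)]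
    rw [Finset.sum_const, Finset.card_univ, Nat.card_eq_fintype_card, smul_eq_mul, mul_comm]
  have hc2 := Nat.card_congr (e2.symm.trans e1)
  rw [hc1, Nat.card_prod] at hc2
  rw [hc2]
  exact Dvd.intro_left _ rfl

end Cfsg.Agent.Helper80
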