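import Mathlib
import Cfsg.Agent.Helper27.SameOrderA
import Cfsg.Agent.Helper20.NsePAIR
import Cfsg.Agent.Helper80.NseORB

/-!
# PIECE NO81 of CALL S3431 (helper27): no subgroup of order `81` and exponent `3` when there
are `45` involutions and at most `144` elements of order `6` (helper80)
-/

set_option autoImplicit false
set_option linter.unusedSectionVars false
set_option linter.unusedVariables false

namespace Cfsg.Agent.Helper80

open Cfsg.Agent.Helper27.SO

variable {H : Type*} [Group H] [Finite H]

/-- The number of elements of `P` commuting with `t`. -/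
noncomputable def nse81c (P : Subgroup H) (t : H) : ℕ :=
  Nat.card {x : H // x ∈ P ∧ Commute x t}

theorem nse81c_dvd (P : Subgroup H) (t : H) : nse81c P t ∣ Nat.card P := by
  have e : {x : H // x ∈ P ∧ Commute x t} ≃ ↥(P ⊓ Subgroup.centralizer {t}) :=
    Equiv.subtypeEquivRight (fun x => by
      rw [Subgroup.mem_inf, Subgroup.mem_centralizer_iff]
      constructor
      · rintro ⟨h1, h2⟩
        refine ⟨h1, ?_⟩
        intro h hh
        rw [Set.mem_singleton_iff] at hh
        rw [hh]
        exact h2.eq.symm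
      · rintro ⟨h1, h2⟩
        exact ⟨h1, (h2 t rfl).symm⟩)
  have h1 : nse81c P t = Nat.card ↥(P ⊓ Subgroup.centralizer {t}) := Nat.card_congr e
  rw [h1]
  exact Subgroup.card_dvd_of_le inf_le_left

/-- PIECE NO81 of CALL S3431. -/
theorem nse_no_81 (P : Subgroup H) (hP : Nat.card P = 81) (hexp : ∀ g ∈ P, g ^ 3 = 1)
    (h3 : sc H 3 = 80) (h2 : sc H 2 = 45) (h6 : sc H 6 ≤ 144) : False := by
  classical
  have hfinH : Fintype H := Fintype.ofFinite H
  have hfcase : ∀ t : H, nse81c P t = 1 ∨ nse81c P t = 3 ∨ 9 ≤ nse81c P t := by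
    intro t
    have h := nse81c_dvd P t
    have h81 : (81 : ℕ) = 3 ^ 4 := by norm_num
    rw [hP, h81, Nat.dvd_prime_pow Nat.prime_three] at h
    obtain ⟨k, hk, hk'⟩ := h
    rw [hk']
    interval_cases k <;> norm_num
  have hT : Nat.card {t : H // orderOf t = 2} = 45 := h2
  have hle : ∀ c : ℕ, Nat.card {t : H // orderOf t = 2 ∧ nse81c P t = c} ≤ 45 := by
    intro c
    rw [← hT]
    apply Nat.card_le_card_of_injective
      (fun t : {t : H // orderOf t = 2 ∧ nse81c P t = c} =>
        (⟨t.1, t.2.1⟩ : {t : H // orderOf t = 2}))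
    intro t t' h
    have h' := congrArg (fun z : {t : H // orderOf t = 2} => z.1) h
    exact Subtype.ext h'
  -- no involution has trivial centraliser in `P`
  have hne1 : ∀ t : H, orderOf t = 2 → nse81c P t ≠ 1 := by
    intro t ht h1
    have hd : Nat.card P ∣ 1 * Nat.card {t : H // orderOf t = 2 ∧ nse81c P t = 1} :=
      card_centralizer_class_dvd P 2 1
    have hne : Nonempty {t : H // orderOf t = 2 ∧ nse81c P t = 1} := ⟨⟨t, ht, h1⟩⟩
    have hpos : 0 < Nat.card {t : H // orderOf t = 2 ∧ nse81c P t = 1} := Nat.card_pos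
    have hl := hle 1
    rw [hP] at hd
    omega
  -- at most `27` involutions have a centraliser of order `3` in `P`
  have ha3 : Nat.card {t : H // orderOf t = 2 ∧ nse81c P t = 3} ≤ 27 := by
    have hd : Nat.card P ∣ 3 * Nat.card {t : H // orderOf t = 2 ∧ nse81c P t = 3} :=
      card_centralizer_class_dvd P 2 3
    have hl := hle 3
    rw [hP] at hd
    omega
  -- the pairs
  have hpair : sc H (2 * 3) =
      Nat.card {x : H × H // orderOf x.1 = 2 ∧ orderOf x.2 = 3 ∧ Commute x.1 x.2} :=
    Cfsg.Agent.Helper20.sc_mul_eq_card_pairs (by norm_num)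
  have h6' : sc H (2 * 3) ≤ 144 := h6
  rw [hpair] at h6'
  have hinj : Nat.card (Σ t : {t : H // orderOf t = 2},
      {b : {x : H // x ∈ P ∧ Commute x t.1} // b ≠ ⟨1, P.one_mem, Commute.one_left t.1⟩}) ≤
      Nat.card {x : H × H // orderOf x.1 = 2 ∧ orderOf x.2 = 3 ∧ Commute x.1 x.2} := by
    apply Nat.card_le_card_of_injective
      (fun z : (Σ t : {t : H // orderOf t = 2},
        {b : {x : H // x ∈ P ∧ Commute x t.1} // b ≠ ⟨1, P.one_mem, Commute.one_left t.1⟩}) =>
        (⟨(z.1.1, z.2.1.1), z.1.2, by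
          have hne : z.2.1.1 ≠ 1 := by
            intro h
            exact z.2.2 (Subtype.ext h)
          exact orderOf_eq_prime (hexp _ z.2.1.2.1) hne, z.2.1.2.2.symm⟩ :
          {x : H × H // orderOf x.1 = 2 ∧ orderOf x.2 = 3 ∧ Commute x.1 x.2}))
    rintro ⟨t, b⟩ ⟨t', b'⟩ h
    have h0 := congrArg Subtype.val h
    have ht : t = t' := Subtype.ext (congrArg Prod.fst h0)
    subst ht
    have hb : b = b' := Subtype.ext (Subtype.ext (congrArg Prod.snd h0))
    rw [hb]
  rw [Nat.card_sigma] at hinj
  have hfib : ∀ t : {t : H // orderOf t = 2},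
      Nat.card {b : {x : H // x ∈ P ∧ Commute x t.1} //
        b ≠ ⟨1, P.one_mem, Commute.one_left t.1⟩} + 1 = nse81c P t.1 := by
    intro t
    rw [← Finite.card_option]
    exact Nat.card_congr (Equiv.optionSubtypeNe _)
  have hterm : ∀ t : {t : H // orderOf t = 2},
      8 ≤ Nat.card {b : {x : H // x ∈ P ∧ Commute x t.1} //
        b ≠ ⟨1, P.one_mem, Commute.one_left t.1⟩} + 6 * (if nse81c P t.1 = 3 then 1 else 0) := by
    intro t
    have h1 := hfib t
    have h2 := hne1 t.1 t.2
    rcases hfcase t.1 with h | h | h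
    · exact absurd h h2
    · rw [if_pos h]
      omega
    · have : nse81c P t.1 ≠ 3 := by omega
      rw [if_neg this]
      omega
  have hsum := Finset.sum_le_sum (fun t _ => hterm t)
    (s := (Finset.univ : Finset {t : H // orderOf t = 2}))
  rw [Finset.sum_const, Finset.card_univ, Finset.sum_add_distrib, ← Finset.mul_sum,
    ← Finset.card_filter, ← Nat.card_eq_fintype_card, hT] at hsum
  have hfilt : (Finset.univ.filter (fun t : {t : H // orderOf t = 2} => nse81c P t.1 = 3)).card =
      Nat.card {t : H // orderOf t = 2 ∧ nse81c P t = 3} := by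
    rw [← Fintype.card_subtype, ← Nat.card_eq_fintype_card]
    exact Nat.card_congr (Equiv.subtypeSubtypeEquivSubtypeInter (fun t : H => orderOf t = 2)
      (fun t : H => nse81c P t = 3))
  rw [hfilt] at hsum
  simp only [smul_eq_mul] at hsum
  omega

end Cfsg.Agent.Helper80
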