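import Mathlib
import Cfsg.Agent.Helper3.FHDefs

/-!
# Piece P1 of CALL S1142-LA (helper3): spectral idempotents of a real symmetric matrix
-/

set_option autoImplicit false

namespace Cfsg.Agent.Helper80

open Cfsg.Agent.Helper3.FH Real

variable {Ω : Type*} [Fintype Ω] [DecidableEq Ω]

/-- **Piece P1 of CALL S1142-LA.** -/
theorem fh_spectral_idem (z : Matrix Ω Ω ℝ) (hz : z.transpose = z) :
    ∃ (spec : Finset ℝ) (E : ℝ → Matrix Ω Ω ℝ),
      (∀ ζ ∈ spec, ∃ p : Polynomial ℝ, E ζ = Polynomial.aeval z p) ∧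
      (∀ ζ ∈ spec, E ζ * E ζ = E ζ) ∧
      (∀ ζ ∈ spec, z * E ζ = ζ • E ζ) ∧
      (∀ ζ ∈ spec, ∃ μ : ℕ, 0 < μ ∧ (E ζ).trace = μ) ∧
      Polynomial.aeval z (∏ ζ ∈ spec, (Polynomial.X - Polynomial.C ζ)) = 0 := by
  classical
  have hA : z.IsHermitian := by
    rw [Matrix.IsHermitian, Matrix.conjTranspose_eq_transpose_of_trivial]
    exact hz
  obtain ⟨d, hd⟩ : ∃ d : Ω → ℝ, d = hA.eigenvalues := ⟨_, rfl⟩
  obtain ⟨Φ, hΦ⟩ : ∃ Φ : Matrix Ω Ω ℝ ≃⋆ₐ[ℝ] Matrix Ω Ω ℝ,
      Φ = Unitary.conjStarAlgAut ℝ _ hA.eigenvectorUnitary := ⟨_, rfl⟩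
  have hspec : z = Φ (Matrix.diagonal d) := by
    have h := hA.spectral_theorem
    have h2 : (RCLike.ofReal ∘ hA.eigenvalues : Ω → ℝ) = d := by
      rw [hd]
      funext i
      rfl
    rw [h2] at h
    rw [hΦ]
    exact h
  -- trace is invariant under `Φ`
  have htr : ∀ M : Matrix Ω Ω ℝ, (Φ M).trace = M.trace := by
    intro M
    rw [hΦ, Unitary.conjStarAlgAut_apply, Matrix.trace_mul_comm, ← mul_assoc,
      Unitary.coe_star_mul_self, one_mul]
  -- the functional calculus
  have key : ∀ p : Polynomial ℝ,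
      Polynomial.aeval z p = Φ (Matrix.diagonal (fun i => p.eval (d i))) := by
    intro p
    conv_lhs => rw [hspec]
    rw [Polynomial.aeval_algHom_apply]
    congr 1
    have h1 : Matrix.diagonal d = Matrix.diagonalAlgHom ℝ d := rfl
    rw [h1, Polynomial.aeval_algHom_apply]
    change Matrix.diagonal (Polynomial.aeval d p) = _
    congr 1
    funext i
    rw [Polynomial.aeval_pi_apply₂]
    rfl
  obtain ⟨spec, hspecdef⟩ : ∃ spec : Finset ℝ, spec = Finset.univ.image d := ⟨_, rfl⟩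
  have hdmem : ∀ i, d i ∈ spec := by
    intro i
    rw [hspecdef]
    exact Finset.mem_image_of_mem d (Finset.mem_univ i)
  -- values of the Lagrange basis polynomials on the spectrum
  have hL : ∀ ζ ∈ spec, ∀ i, (Lagrange.basis spec id ζ).eval (d i) = if d i = ζ then 1 else 0 := by
    intro ζ hζ i
    split_ifs with h
    · rw [h]
      exact Lagrange.eval_basis_self (v := id) (Set.injOn_id _) hζ
    · exact Lagrange.eval_basis_of_ne (v := id) (fun h' => h h'.symm) (hdmem i)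
  have hE : ∀ ζ ∈ spec, Polynomial.aeval z (Lagrange.basis spec id ζ) =
      Φ (Matrix.diagonal (fun i => if d i = ζ then (1 : ℝ) else 0)) := by
    intro ζ hζ
    rw [key]
    congr 2
    funext i
    exact hL ζ hζ i
  refine ⟨spec, fun ζ => Polynomial.aeval z (Lagrange.basis spec id ζ), ?_, ?_, ?_, ?_, ?_⟩
  · intro ζ _
    exact ⟨_, rfl⟩
  · intro ζ hζ
    change Polynomial.aeval z (Lagrange.basis spec id ζ) * Polynomial.aeval z (Lagrange.basis spec id ζ)
      = Polynomial.aeval z (Lagrange.basis spec id ζ)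
    rw [hE ζ hζ, ← map_mul, Matrix.diagonal_mul_diagonal]
    congr 2
    funext i
    split_ifs <;> norm_num
  · intro ζ hζ
    change z * Polynomial.aeval z (Lagrange.basis spec id ζ)
      = ζ • Polynomial.aeval z (Lagrange.basis spec id ζ)
    rw [hE ζ hζ]
    conv_lhs => rw [hspec]
    rw [← map_mul, Matrix.diagonal_mul_diagonal, ← map_smul, ← Matrix.diagonal_smul]
    congr 2
    funext i
    simp only [Pi.smul_apply, smul_eq_mul]
    split_ifs with h
    · rw [h]
    · rw [mul_zero, mul_zero]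
  · intro ζ hζ
    change ∃ μ : ℕ, 0 < μ ∧ (Polynomial.aeval z (Lagrange.basis spec id ζ)).trace = μ
    rw [hE ζ hζ, htr, Matrix.trace_diagonal]
    refine ⟨(Finset.univ.filter (fun i => d i = ζ)).card, ?_, ?_⟩
    · rw [Finset.card_pos]
      rw [hspecdef, Finset.mem_image] at hζ
      obtain ⟨i, _, hi⟩ := hζ
      exact ⟨i, Finset.mem_filter.mpr ⟨Finset.mem_univ i, hi⟩⟩
    · rw [Finset.sum_boole]
  · rw [key]
    have h0 : (fun i => (∏ ζ ∈ spec, (Polynomial.X - Polynomial.C ζ)).eval (d i)) =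
        fun _ => (0 : ℝ) := by
      funext i
      rw [Polynomial.eval_prod]
      apply Finset.prod_eq_zero (hdmem i)
      rw [Polynomial.eval_sub, Polynomial.eval_X, Polynomial.eval_C, sub_self]
    rw [h0]
    have h1 : Matrix.diagonal (fun _ : Ω => (0 : ℝ)) = 0 := Matrix.diagonal_zero
    rw [h1, map_zero]

end Cfsg.Agent.Helper80
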