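import Mathlib
import Cfsg.Agent.Helper3.FHDefs

/-!
# Piece P2 of CALL S1142-LA (helper3): row sums and Frobenius orthogonality of the reduced
alternating products of a `HeckeCfg`
-/

set_option autoImplicit false

namespace Cfsg.Agent.Helper80

open Cfsg.Agent.Helper3.FH Real

variable {Ω : Type*} [Fintype Ω] [DecidableEq Ω]

theorem fhP2_a_diag (C : HeckeCfg Ω) (x : Ω) : C.a x x = 0 := by
  have h := C.disj_aa 0 1 (by norm_num) (by have := C.hm; omega) x x
  rw [altProd_zero, altProd_one, Matrix.one_apply_eq, one_mul] at h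
  exact h

theorem fhP2_a_sq_entry (C : HeckeCfg Ω) (x y : Ω) : C.a x y * C.a x y = C.a x y := by
  have h := C.zero_one_a 1 (by have := C.hm; omega) x y
  rw [altProd_one] at h
  rcases h with h | h <;> rw [h] <;> norm_num

/-- The row sums of `a` are `s`. -/
theorem fhP2_rowsum_a (C : HeckeCfg Ω) (x : Ω) : ∑ y, C.a x y = (C.s : ℝ) := by
  have h1 : ∑ y, C.a x y = (C.a * C.a) x x := by
    rw [Matrix.mul_apply]
    apply Finset.sum_congr rfl
    intro y _
    have h2 : C.a y x = C.a x y := congrFun (congrFun C.a_symm x) y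
    rw [h2, fhP2_a_sq_entry]
  rw [h1, C.a_sq, Matrix.add_apply, Matrix.smul_apply, Matrix.smul_apply, Matrix.one_apply_eq,
    fhP2_a_diag, smul_eq_mul, smul_eq_mul, mul_one, mul_zero, add_zero]

/-- Constant row sums multiply. -/
theorem fhP2_rowsum_mul (M N : Matrix Ω Ω ℝ) (r r' : ℝ) (hM : ∀ x, ∑ y, M x y = r)
    (hN : ∀ x, ∑ y, N x y = r') (x : Ω) : ∑ y, (M * N) x y = r * r' := by
  simp only [Matrix.mul_apply]
  rw [Finset.sum_comm]
  simp only [← Finset.mul_sum, hN]
  rw [← Finset.sum_mul, hM]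

/-- **Piece P2 of CALL S1142-LA**, row sums. -/
theorem fh_rowsum (C : HeckeCfg Ω) (j : ℕ) (x : Ω) :
    ∑ y, altProd C.a C.b j x y = altProd (C.s : ℝ) (C.t : ℝ) j := by
  induction j generalizing C x with
  | zero =>
    rw [altProd_zero, altProd_zero]
    simp [Matrix.one_apply]
  | succ j ih =>
    rw [altProd_succ, altProd_succ]
    exact fhP2_rowsum_mul _ _ _ _ (fhP2_rowsum_a C) (fun x' => ih C.swap x') x

theorem fhP2_trace (M N : Matrix Ω Ω ℝ) :
    (M.transpose * N).trace = ∑ x, ∑ y, M y x * N y x := by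
  simp only [Matrix.trace, Matrix.diag_apply, Matrix.mul_apply, Matrix.transpose_apply]

/-- **Piece P2 of CALL S1142-LA**, Frobenius orthogonality of the `A_j`. -/
theorem fh_frob_aa (C : HeckeCfg Ω) (i j : ℕ) (hi : i ≤ C.m) (hj : j ≤ C.m) :
    ((altProd C.a C.b i).transpose * altProd C.a C.b j).trace =
      if i = j then (Fintype.card Ω : ℝ) * altProd (C.s : ℝ) (C.t : ℝ) i else 0 := by
  rw [fhP2_trace]
  split_ifs with h
  · subst h
    have h1 : ∀ x y, altProd C.a C.b i y x * altProd C.a C.b i y x = altProd C.a C.b i y x := by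
      intro x y
      rcases C.zero_one_a i hi y x with h | h <;> rw [h] <;> norm_num
    simp only [h1]
    rw [Finset.sum_comm]
    simp only [fh_rowsum]
    rw [Finset.sum_const, Finset.card_univ, nsmul_eq_mul]
  · apply Finset.sum_eq_zero
    intro x _
    apply Finset.sum_eq_zero
    intro y _
    rcases Nat.lt_or_gt_of_ne h with h' | h'
    · exact C.disj_aa i j h' hj y x
    · rw [mul_comm]
      exact C.disj_aa j i h' hi y x

/-- **Piece P2 of CALL S1142-LA**, Frobenius orthogonality of `A_i` and `B_j`. -/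
theorem fh_frob_ab (C : HeckeCfg Ω) (i j : ℕ) (hi1 : 1 ≤ i) (hi : i ≤ C.m) (hj1 : 1 ≤ j)
    (hj : j < C.m) :
    ((altProd C.a C.b i).transpose * altProd C.b C.a j).trace = 0 := by
  rw [fhP2_trace]
  apply Finset.sum_eq_zero
  intro x _
  apply Finset.sum_eq_zero
  intro y _
  exact C.disj_ab i j hi1 hi hj1 hj y x

end Cfsg.Agent.Helper80
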