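import Mathlib
import Cfsg.Prelude.Def_GeometricClasses
import Cfsg.Prelude.Def_Classical
import Cfsg.Agent.Helper80.TSR2TSB

/-! Piece EIGHYP of sub-CALL S88R2 (helper90; row S5988). -/

set_option autoImplicit false

namespace Cfsg.Agent.Helper80.S88R2

open Module Cfsg Cfsg.Geo
open scoped MatrixGroups

section pieces

variable {ι : Type} [Fintype ι] [DecidableEq ι] {F : Type*} [Field F] [Fintype F]

/-- EIGHYP [M] (`s² = -1`): an invariant nondegenerate subspace of an isometry with square `-1` is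
of plus type.  (`W = (W ⊓ ker (M - s)) ⊕ (W ⊓ ker (M + s))` because `2 s ≠ 0`; both summands are
totally singular: `Q v = Q (M v) = s² Q v = - Q v`; `Helper80.TSR2.r2_ts_bound` with `D = W`:
each has dimension `≤ dim W / 2`, so `= dim W / 2`.) -/
theorem r2e_eig_hyp (Q : (ι → F) → F) (hQ : IsNondegenerateQuadraticForm Q) (h2 : (2 : F) ≠ 0)
    (M : Matrix ι ι F) (hM : ∀ v, Q (M.mulVec v) = Q v) (hM2 : M * M = -1) (s : F)
    (hs : s * s = -1) (W : Submodule F (ι → F)) (hW : W.map (Matrix.toLin' M) ≤ W)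
    (hnd : IsNondegenerateOn (QuadraticMap.polar Q) W) : IsPlusTypeOn Q W := by
  have hTT : ∀ v : ι → F, M.mulVec (M.mulVec v) = -v := by
    intro v
    rw [Matrix.mulVec_mulVec, hM2, Matrix.neg_mulVec, Matrix.one_mulVec]
  let E : F → Submodule F (ι → F) := fun c =>
    LinearMap.ker (Matrix.toLin' M - c • (LinearMap.id : (ι → F) →ₗ[F] (ι → F)))
  have hE : ∀ (c : F) (v : ι → F), v ∈ E c ↔ M.mulVec v = c • v := by
    intro c v
    simp only [E, LinearMap.mem_ker, LinearMap.sub_apply, Matrix.toLin'_apply,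
      LinearMap.smul_apply, LinearMap.id_apply, sub_eq_zero]
  have hsing : ∀ c : F, c * c = -1 → ∀ v ∈ E c, Q v = 0 := by
    intro c hc v hv
    have h1 := hM v
    rw [(hE c v).mp hv, hQ.smul] at h1
    have h3 : (2 : F) * Q v = 0 := by linear_combination (-1 : F) * h1 + Q v * hc
    rcases mul_eq_zero.mp h3 with h4 | h4
    · exact absurd h4 h2
    · exact h4
  have hs' : (-s) * (-s) = -1 := by rw [neg_mul_neg, hs]
  have hMW : ∀ w ∈ W, M.mulVec w ∈ W := by
    intro w hw
    have h := hW (Submodule.mem_map_of_mem hw)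
    rwa [Matrix.toLin'_apply] at h
  have hsup : W ≤ (W ⊓ E s) ⊔ (W ⊓ E (-s)) := by
    intro v hv
    have hp : v - s • M.mulVec v ∈ E s := by
      rw [hE, Matrix.mulVec_sub, Matrix.mulVec_smul, hTT, smul_sub, smul_smul, hs]
      simp only [neg_smul, one_smul, smul_neg, sub_neg_eq_add]
      rw [add_comm]
    have hm : v + s • M.mulVec v ∈ E (-s) := by
      rw [hE, Matrix.mulVec_add, Matrix.mulVec_smul, hTT, smul_add, smul_smul, neg_mul, hs]
      simp only [neg_smul, one_smul, smul_neg, neg_neg]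
      rw [add_comm]
    have hpW : v - s • M.mulVec v ∈ W := W.sub_mem hv (W.smul_mem _ (hMW v hv))
    have hmW : v + s • M.mulVec v ∈ W := W.add_mem hv (W.smul_mem _ (hMW v hv))
    have hv' : v = (2 : F)⁻¹ • (v - s • M.mulVec v) + (2 : F)⁻¹ • (v + s • M.mulVec v) := by
      rw [← smul_add]
      have h5 : v - s • M.mulVec v + (v + s • M.mulVec v) = (2 : F) • v := by
        rw [two_smul]; abel
      rw [h5, smul_smul, inv_mul_cancel₀ h2, one_smul]
    rw [hv']
    exact Submodule.add_mem_sup (Submodule.smul_mem _ _ (Submodule.mem_inf.mpr ⟨hpW, hp⟩))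
      (Submodule.smul_mem _ _ (Submodule.mem_inf.mpr ⟨hmW, hm⟩))
  have hb1 := Cfsg.Agent.Helper80.TSR2.r2_ts_bound Q hQ W (W ⊓ E s) hnd inf_le_left
    (fun w hw => hsing s hs w (Submodule.mem_inf.mp hw).2)
  have hb2 := Cfsg.Agent.Helper80.TSR2.r2_ts_bound Q hQ W (W ⊓ E (-s)) hnd inf_le_left
    (fun w hw => hsing (-s) hs' w (Submodule.mem_inf.mp hw).2)
  have hadd := Submodule.finrank_add_le_finrank_add_finrank (W ⊓ E s) (W ⊓ E (-s))
  have hle := Submodule.finrank_mono hsup
  refine ⟨W ⊓ E s, inf_le_left, fun w hw => hsing s hs w (Submodule.mem_inf.mp hw).2, ?_⟩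
  omega

end pieces

end Cfsg.Agent.Helper80.S88R2
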