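import Mathlib
import Cfsg.Prelude.Def_GeometricClasses
import Cfsg.Prelude.Def_Classical
import Cfsg.Agent.Helper6.TSR2SKBASIS
import Cfsg.Agent.Helper33.OType
import Cfsg.Agent.Helper80.TSR2SKMAX

/-! Piece SKND of sub-CALL S88R2 (helper90; row S5988), double by helper80. -/

set_option autoImplicit false

namespace Cfsg.Agent.Helper80.S88R2

open Module Cfsg Cfsg.Geo
open scoped MatrixGroups

section pieces

variable {ι : Type} [Fintype ι] [DecidableEq ι] {F : Type*} [Field F] [Fintype F]

/-- a non-singular line is nondegenerate of dimension 1 -/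
theorem r2e_line_nd (Q : (ι → F) → F) (hQ : IsNondegenerateQuadraticForm Q) (h2 : (2 : F) ≠ 0)
    (x : ι → F) (hx : Q x ≠ 0) :
    IsNondegenerateOn (QuadraticMap.polar Q) (Submodule.span F {x}) ∧
      finrank F (Submodule.span F ({x} : Set (ι → F))) = 1 := by
  have hB := hQ.polar_bilinear
  have hxx : QuadraticMap.polar Q x x = 2 * Q x := by
    have h1 : Q (x + x) = (2 : F) ^ 2 * Q x := by rw [← two_smul F x, hQ.smul]
    rw [QuadraticMap.polar, h1]; ring
  have hx0 : x ≠ 0 := by
    rintro rfl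
    apply hx
    have h := hQ.smul 0 0
    simpa using h
  refine ⟨?_, finrank_span_singleton hx0⟩
  intro w hw hw0
  obtain ⟨c, rfl⟩ := Submodule.mem_span_singleton.mp hw
  have hc : c ≠ 0 := by
    rintro rfl
    exact hw0 (zero_smul _ _)
  have hne : c * (2 * Q x) ≠ 0 := mul_ne_zero hc (mul_ne_zero h2 hx)
  refine ⟨⟨x, Submodule.mem_span_singleton_self x, ?_⟩,
    ⟨x, Submodule.mem_span_singleton_self x, ?_⟩⟩
  · rw [hB.smul_right, hxx]; exact hne
  · rw [hB.smul_left, hxx]; exact hne

/-- SKND [M] (`-1` a nonsquare): invariant nondegenerate subspaces of every even dimension `2 e`,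
`e ≤ d` (the span of `v j, M v j`, `j < e`, for the vectors of `Helper6.TSR2.r2_skew_basis`). -/
theorem r2e_skew_nd (Q : (ι → F) → F) (hQ : IsNondegenerateQuadraticForm Q) (h2 : (2 : F) ≠ 0)
    (d : ℕ) (hcard : Fintype.card ι = 2 * d) (M : Matrix ι ι F) (hM : ∀ v, Q (M.mulVec v) = Q v)
    (hM2 : M * M = -1) (hm1 : ¬ IsSquare (-1 : F)) (e : ℕ) (he : e ≤ d) :
    ∃ W : Submodule F (ι → F), W.map (Matrix.toLin' M) ≤ W ∧
      IsNondegenerateOn (QuadraticMap.polar Q) W ∧ finrank F W = 2 * e := by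
  obtain ⟨v, hv0, hvo⟩ := Cfsg.Agent.Helper6.TSR2.r2_skew_basis Q hQ h2 d hcard M hM hM2 hm1
  have hB := hQ.polar_bilinear
  have hsymm : ∀ x y : ι → F, QuadraticMap.polar Q x y = QuadraticMap.polar Q y x :=
    fun x y => QuadraticMap.polar_comm Q x y
  have hTT : ∀ x : ι → F, M.mulVec (M.mulVec x) = -x := by
    intro x
    rw [Matrix.mulVec_mulVec, hM2, Matrix.neg_mulVec, Matrix.one_mulVec]
  have hpres := Cfsg.Agent.Helper80.TSR2.r2_polar_pres Q M hM
  have h01 : ∀ x : ι → F, QuadraticMap.polar Q x (M.mulVec x) = 0 := by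
    intro x
    have e1 : QuadraticMap.polar Q x (M.mulVec x) =
        QuadraticMap.polar Q (M.mulVec x) (M.mulVec (M.mulVec x)) := (hpres x (M.mulVec x)).symm
    rw [hTT] at e1
    have e2 : QuadraticMap.polar Q (M.mulVec x) (-x) = -QuadraticMap.polar Q (M.mulVec x) x := by
      have h := hB.smul_right (-1 : F) (M.mulVec x) x
      rw [neg_smul, one_smul] at h
      rw [h]; ring
    rw [e2, hsymm (M.mulVec x) x] at e1
    have e3 : (2 : F) * QuadraticMap.polar Q x (M.mulVec x) = 0 := by linear_combination e1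
    rcases mul_eq_zero.mp e3 with e4 | e4
    · exact absurd e4 h2
    · exact e4
  have hp0 : ∀ y : ι → F, QuadraticMap.polar Q 0 y = 0 := by
    intro y
    have h := hB.smul_left (0 : F) 0 y
    simpa using h
  have key : ∀ e : ℕ, e ≤ d → ∃ W : Submodule F (ι → F), W.map (Matrix.toLin' M) ≤ W ∧
      IsNondegenerateOn (QuadraticMap.polar Q) W ∧ finrank F W = 2 * e ∧
      ∀ a ∈ W, ∀ j : Fin d, e ≤ j.val → QuadraticMap.polar Q a (v j) = 0 ∧
        QuadraticMap.polar Q a (M.mulVec (v j)) = 0 := by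
    intro e
    induction e with
    | zero =>
      intro _
      refine ⟨⊥, ?_, ?_, ?_, ?_⟩
      · rw [Submodule.map_bot]
      · intro w hw hw0
        exact absurd ((Submodule.mem_bot F).mp hw) hw0
      · rw [finrank_bot]
      · intro a ha j _
        rw [(Submodule.mem_bot F).mp ha]
        exact ⟨hp0 _, hp0 _⟩
    | succ e ih =>
      intro he
      obtain ⟨W, hWinv, hWnd, hWdim, hWo⟩ := ih (by omega)
      obtain ⟨j₀, hj₀v⟩ : ∃ j₀ : Fin d, j₀.val = e := ⟨⟨e, by omega⟩, rfl⟩
      have hQM : Q (M.mulVec (v j₀)) ≠ 0 := by rw [hM]; exact hv0 j₀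
      obtain ⟨hL1nd, hL1dim⟩ := r2e_line_nd Q hQ h2 (v j₀) (hv0 j₀)
      obtain ⟨hL2nd, hL2dim⟩ := r2e_line_nd Q hQ h2 (M.mulVec (v j₀)) hQM
      have hL12 : AreOrthogonalFor (QuadraticMap.polar Q) (Submodule.span F {v j₀})
          (Submodule.span F {M.mulVec (v j₀)}) := by
        intro a ha b hb
        obtain ⟨c1, rfl⟩ := Submodule.mem_span_singleton.mp ha
        obtain ⟨c2, rfl⟩ := Submodule.mem_span_singleton.mp hb
        rw [hB.smul_left, hB.smul_right, h01, mul_zero, mul_zero]
      have hPnd := Cfsg.Agent.Helper33.OType.nondeg_sup Q hQ _ _ hL1nd hL2nd hL12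
      have hPdim := Cfsg.Agent.Helper33.OType.finrank_sup_of_orth Q _ _ hL1nd hL12
      have hPmem : ∀ b ∈ Submodule.span F {v j₀} ⊔ Submodule.span F {M.mulVec (v j₀)},
          ∃ c1 c2 : F, b = c1 • v j₀ + c2 • M.mulVec (v j₀) := by
        intro b hb
        obtain ⟨b1, hb1, b2, hb2, rfl⟩ := Submodule.mem_sup.mp hb
        obtain ⟨c1, rfl⟩ := Submodule.mem_span_singleton.mp hb1
        obtain ⟨c2, rfl⟩ := Submodule.mem_span_singleton.mp hb2
        exact ⟨c1, c2, rfl⟩
      have hWP : AreOrthogonalFor (QuadraticMap.polar Q) W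
          (Submodule.span F {v j₀} ⊔ Submodule.span F {M.mulVec (v j₀)}) := by
        intro a ha b hb
        obtain ⟨c1, c2, rfl⟩ := hPmem b hb
        obtain ⟨h1, h2'⟩ := hWo a ha j₀ (by omega)
        rw [hB.add_right, hB.smul_right, hB.smul_right, h1, h2', mul_zero, mul_zero, add_zero]
      refine ⟨W ⊔ (Submodule.span F {v j₀} ⊔ Submodule.span F {M.mulVec (v j₀)}), ?_, ?_, ?_, ?_⟩
      · rw [Submodule.map_sup, Submodule.map_sup]
        refine sup_le (hWinv.trans le_sup_left) (le_trans ?_ le_sup_right)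
        refine sup_le ?_ ?_
        · rw [Submodule.map_span_le]
          intro x hx
          rw [Set.mem_singleton_iff] at hx
          rw [hx, Matrix.toLin'_apply]
          exact Submodule.mem_sup_right (Submodule.mem_span_singleton_self _)
        · rw [Submodule.map_span_le]
          intro x hx
          rw [Set.mem_singleton_iff] at hx
          rw [hx, Matrix.toLin'_apply, hTT]
          exact Submodule.mem_sup_left
            (Submodule.neg_mem _ (Submodule.mem_span_singleton_self _))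
      · exact Cfsg.Agent.Helper33.OType.nondeg_sup Q hQ _ _ hWnd hPnd hWP
      · rw [Cfsg.Agent.Helper33.OType.finrank_sup_of_orth Q _ _ hWnd hWP, hWdim, hPdim, hL1dim,
          hL2dim]
        ring
      · intro a ha j hj
        obtain ⟨a1, ha1, b, hb, rfl⟩ := Submodule.mem_sup.mp ha
        obtain ⟨c1, c2, rfl⟩ := hPmem b hb
        have hjne : j ≠ j₀ := by
          intro h
          rw [h, hj₀v] at hj
          omega
        obtain ⟨h1, h2'⟩ := hWo a1 ha1 j (by omega)
        obtain ⟨h3, h4⟩ := hvo j j₀ hjne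
        obtain ⟨h5, h6⟩ := hvo j₀ j (Ne.symm hjne)
        constructor
        · rw [hB.add_left, hB.add_left, hB.smul_left, hB.smul_left, h1, h5,
            hsymm (M.mulVec (v j₀)) (v j), h4]
          ring
        · rw [hB.add_left, hB.add_left, hB.smul_left, hB.smul_left, h2', h6, hpres, h5]
          ring
  obtain ⟨W, h1, h2', h3, -⟩ := key e he
  exact ⟨W, h1, h2', h3⟩

end pieces

end Cfsg.Agent.Helper80.S88R2
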