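import Mathlib
import Cfsg.Prelude.Def_GeometricClasses
import Cfsg.Agent.Helper66.O12N2

/-!
# Piece N2s of CALL S5871 (helper97)

`Ω(Q)` does not stabilise a non-degenerate decomposition into at least three blocks (blocks of
dimension 1 or 2 allowed), in dimension at least 5.
-/

set_option autoImplicit false
open Cfsg Cfsg.Geo Matrix

namespace Cfsg.Agent.Helper80

variable {ι : Type} [Fintype ι] [DecidableEq ι] {F : Type*} [Field F]

/-- **Piece N2s of CALL S5871.** -/
theorem o12p_notOmega_decomp_small [Fintype F] (Q : (ι → F) → F) (hQ : IsNondegenerateQuadraticForm Q)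
    (hn : 5 ≤ Fintype.card ι) {t k : ℕ} (ht : 3 ≤ t) (D : Fin t → Submodule F (ι → F))
    (hD : IsNondegenerateMDecomposition (QuadraticMap.polar Q) k D) :
    ¬ omegaGL Q ≤ decompositionStabilizer D := by
  classical
  intro hle
  have hbil := hQ.polar_bilinear
  -- `t * k = card ι`
  have hcard : t * k = Fintype.card ι := by
    have hint := DirectSum.isInternal_submodule_of_iSupIndep_of_iSup_eq_top hD.decomp.indep
      hD.decomp.iSup_eq_top
    have e := LinearEquiv.ofBijective (DirectSum.coeLinearMap D) hint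
    have h1 := e.finrank_eq
    rw [Module.finrank_directSum, Module.finrank_fintype_fun_eq_card] at h1
    rw [← h1]
    simp [hD.decomp.finrank_eq]
  obtain ⟨i0, -⟩ : ∃ i : Fin t, i = ⟨0, by omega⟩ := ⟨_, rfl⟩
  obtain ⟨W, hW⟩ : ∃ W : Submodule F (ι → F), W = ⨆ (j) (_ : j ≠ i0), D j := ⟨_, rfl⟩
  have hdisj : Disjoint (D i0) W := by
    rw [hW]
    exact hD.decomp.indep i0
  have hsup : D i0 ⊔ W = ⊤ := by
    rw [hW, ← iSup_split_single, hD.decomp.iSup_eq_top]
  have hcompl : IsCompl (D i0) W := ⟨hdisj, codisjoint_iff.mpr hsup⟩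
  have hfr : Module.finrank F (D i0) + Module.finrank F W = Fintype.card ι := by
    rw [Submodule.finrank_add_eq_of_isCompl hcompl, Module.finrank_fintype_fun_eq_card]
  have hW3 : 3 ≤ Module.finrank F W := by
    rw [hD.decomp.finrank_eq] at hfr
    have h3k : 3 * k ≤ t * k := Nat.mul_le_mul_right k ht
    omega
  -- `W` is orthogonal to `D i0`
  have horth : ∀ w ∈ W, ∀ x ∈ D i0, QuadraticMap.polar Q w x = 0 := by
    let Wp : Submodule F (ι → F) :=
      { carrier := {w | ∀ x ∈ D i0, QuadraticMap.polar Q w x = 0}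
        add_mem' := by
          intro a b ha hb x hx
          rw [hbil.add_left, ha x hx, hb x hx, add_zero]
        zero_mem' := by
          intro x _
          have h1 := hbil.smul_left 0 0 x
          rw [zero_smul, zero_mul] at h1
          exact h1
        smul_mem' := by
          intro c a ha x hx
          rw [hbil.smul_left, ha x hx, mul_zero] }
    have hle' : W ≤ Wp := by
      rw [hW]
      refine iSup₂_le ?_
      intro j hj w hw x hx
      exact hD.orthogonal j i0 hj w hw x hx
    intro w hw x hx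
    exact hle' hw x hx
  -- a singular vector in `W`
  obtain ⟨u, huW, hu0, hQu⟩ := Helper45.exists_sing_in (Helper98.op_qf Q hQ) W hW3
  have hQu' : Q u = 0 := hQu
  -- a hyperbolic-like pair in `D i0`
  have hD0 : D i0 ≠ ⊥ := by
    intro h
    have h1 := hD.decomp.finrank_eq i0
    rw [h, finrank_bot] at h1
    have h2 := hD.decomp.pos
    omega
  obtain ⟨b, hbD, hb0⟩ := (Submodule.ne_bot_iff _).mp hD0
  obtain ⟨-, x, hxD, hbx⟩ := hD.nondegenerate i0 b hbD hb0
  have hub : QuadraticMap.polar Q u b = 0 := horth u huW b hbD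
  have hux : QuadraticMap.polar Q u x = 0 := horth u huW x hxD
  obtain ⟨E, hEΩ, hE⟩ := Helper66.o12_eichler Q hQ hn u b hQu' hub
  obtain ⟨σ, hσ⟩ := hle hEΩ
  have hEx : (E : Matrix ι ι F) *ᵥ x = x + (QuadraticMap.polar Q b x) • u := by
    rw [hE, hux, mul_zero, sub_zero, zero_smul, sub_zero]
  have hmem : x + (QuadraticMap.polar Q b x) • u ∈ D (σ i0) := by
    rw [← hEx, ← hσ i0]
    exact ⟨x, hxD, by rw [Matrix.toLin'_apply]⟩
  by_cases hσ0 : σ i0 = i0
  · rw [hσ0] at hmem
    have h1 : (QuadraticMap.polar Q b x) • u ∈ D i0 := by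
      have h2 := (D i0).sub_mem hmem hxD
      rwa [add_sub_cancel_left] at h2
    have h3 : u ∈ D i0 := by
      have h4 := (D i0).smul_mem (QuadraticMap.polar Q b x)⁻¹ h1
      rwa [smul_smul, inv_mul_cancel₀ hbx, one_smul] at h4
    exact hu0 (Submodule.disjoint_def.mp hdisj u h3 huW)
  · have h1 : D (σ i0) ≤ W := by
      rw [hW]
      exact le_iSup₂ (f := fun j (_ : j ≠ i0) => D j) (σ i0) hσ0
    have h2 : x ∈ W := by
      have h3 := W.sub_mem (h1 hmem) (W.smul_mem (QuadraticMap.polar Q b x) huW)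
      rwa [add_sub_cancel_right] at h3
    have hx0 : x = 0 := Submodule.disjoint_def.mp hdisj x hxD h2
    apply hbx
    rw [hx0]
    have h4 := hbil.smul_right 0 b 0
    rw [zero_smul, zero_mul] at h4
    exact h4

end Cfsg.Agent.Helper80
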