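import Mathlib
import Cfsg.Agent.Lead.LWDefs

/-!
# PIECE C0 of CALL S0747 (lead): a `2`-subgroup of maximal order among those contained in the
pointwise stabiliser of some `(k+1)`-set (helper80)
-/

set_option autoImplicit false
set_option linter.unusedSectionVars false

namespace Cfsg.Agent.Helper80.LWC0

open Cfsg.Agent.Lead.LW

variable {α : Type*} [Fintype α] [DecidableEq α]

-- PIECE C0
theorem exists_maxQ (G : Subgroup (Equiv.Perm α)) (k : ℕ) (hkn : k < Fintype.card α) :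
    ∃ Q : Subgroup (Equiv.Perm α), MaxQ G k Q := by
  classical
  obtain ⟨Δ₀, -, hΔ₀⟩ := Finset.exists_subset_card_eq (s := (Finset.univ : Finset α))
    (n := k + 1) (by rw [Finset.card_univ]; omega)
  have hne : ({Q : Subgroup (Equiv.Perm α) | IsPGroup 2 Q ∧
      ∃ Δ₀ : Finset α, Δ₀.card = k + 1 ∧ Q ≤ pstab G Δ₀}).Nonempty :=
    ⟨⊥, IsPGroup.of_bot, Δ₀, hΔ₀, bot_le⟩
  obtain ⟨Q, hQ, hmax⟩ := Set.exists_max_image _
    (fun Q : Subgroup (Equiv.Perm α) => Nat.card Q) (Set.toFinite _) hne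
  exact ⟨Q, hQ.1, hQ.2, fun Δ' Q' hΔ' hQ' hp => hmax Q' ⟨hp, Δ', hΔ', hQ'⟩⟩

end Cfsg.Agent.Helper80.LWC0
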