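import Mathlib

/-!
# Shared lemmas for the pieces BADE1 / BADE4 of CALL S5965 (helper90): counting in multisets of
eigenvalues, roots of unity in finite fields (helper80)
-/

set_option autoImplicit false

namespace Cfsg.Agent.Helper80.SFRCount

open Finset

/-- equality of the multisets of values gives equality of the fibre cardinalities -/
theorem sfr_count_eq {ι α : Type*} [Fintype ι] [DecidableEq α] (f f' : ι → α)
    (h : (Finset.univ : Finset ι).val.map f' = (Finset.univ : Finset ι).val.map f) (v : α) :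
    (Finset.univ.filter fun i => f' i = v).card = (Finset.univ.filter fun i => f i = v).card := by
  have h1 := congrArg (Multiset.count v) h
  rw [Multiset.count_map, Multiset.count_map] at h1
  have e1 : ∀ g : ι → α, Multiset.card (Multiset.filter (fun a => v = g a) (Finset.univ : Finset ι).val) =
      (Finset.univ.filter fun i => g i = v).card := by
    intro g
    rw [Finset.card_def, Finset.filter_val]
    congr 1
    apply Multiset.filter_congr
    intro x _
    exact eq_comm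
  rw [e1, e1] at h1
  exact h1

section field

variable {F : Type*} [Field F] [Fintype F]

omit [Fintype F] in
/-- a root of unity of prime order `r` fixed by `t ↦ t ^ q₀` forces `r ∣ q₀ - 1` -/
theorem sfr_zeta_dvd (r : ℕ) [Fact r.Prime] (ζ : F) (hζ : ζ ^ r = 1) (hζ1 : ζ ≠ 1) (q₀ : ℕ)
    (hq₀ : 0 < q₀) (h : ζ ^ q₀ = ζ) : r ∣ q₀ - 1 := by
  have hζ0 : ζ ≠ 0 := by
    rintro rfl
    rw [zero_pow (Fact.out : r.Prime).ne_zero] at hζ
    exact zero_ne_one hζ
  have h1 : ζ ^ (q₀ - 1) = 1 := by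
    have h2 : ζ ^ (q₀ - 1) * ζ = 1 * ζ := by
      rw [← pow_succ, Nat.sub_add_cancel hq₀, h, one_mul]
    exact mul_right_cancel₀ hζ0 h2
  have ho : orderOf ζ = r := orderOf_eq_prime hζ hζ1
  rw [← ho]
  exact orderOf_dvd_of_pow_eq_one h1

/-- an element of order `r` in a finite field with `r ∣ q - 1` -/
theorem sfr_exists_zeta (r : ℕ) [Fact r.Prime] (hr : r ∣ Fintype.card F - 1) :
    ∃ ζ : F, ζ ^ r = 1 ∧ ζ ≠ 1 := by
  classical
  have hcard : Nat.card Fˣ = Fintype.card F - 1 := by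
    rw [Nat.card_eq_fintype_card, Fintype.card_units]
  obtain ⟨u, hu⟩ := exists_prime_orderOf_dvd_card' (G := Fˣ) r (hcard ▸ hr)
  refine ⟨(u : F), ?_, ?_⟩
  · have : u ^ r = 1 := by rw [← hu, pow_orderOf_eq_one]
    have h2 := congrArg (fun v : Fˣ => (v : F)) this
    simpa using h2
  · intro h1
    have : u = 1 := Units.ext (by simpa using h1)
    rw [this, orderOf_one] at hu
    exact (Fact.out : r.Prime).one_lt.ne hu

/-- `ζ⁻¹` is an `n`-th power when `v_r(n) < v_r(q - 1)` -/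
theorem sfr_exists_mu_zeta (r : ℕ) [Fact r.Prime] (n : ℕ) (hn : n ≠ 0)
    (hv : padicValNat r n < padicValNat r (Fintype.card F - 1)) :
    ∃ μ ζ : F, μ ≠ 0 ∧ ζ ^ r = 1 ∧ ζ ≠ 1 ∧ μ ^ n * ζ = 1 := by
  classical
  have hr : r.Prime := Fact.out
  obtain ⟨g, hg⟩ := IsCyclic.exists_generator (α := Fˣ)
  have hcard : Nat.card Fˣ = Fintype.card F - 1 := by
    rw [Nat.card_eq_fintype_card, Fintype.card_units]
  have hog : orderOf g = Fintype.card F - 1 := by
    rw [orderOf_eq_card_of_forall_mem_zpowers hg, hcard]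
  set N := Fintype.card F - 1 with hN
  have hN0 : N ≠ 0 := by
    intro h0
    rw [h0] at hv
    simp at hv
  obtain ⟨d, u, v, hdN, hdn, hd0, hb⟩ : ∃ (d : ℕ) (u v : ℤ), d ∣ N ∧ d ∣ n ∧ d ≠ 0 ∧
      (d : ℤ) = (n : ℤ) * u + (N : ℤ) * v :=
    ⟨Nat.gcd n N, Nat.gcdA n N, Nat.gcdB n N, Nat.gcd_dvd_right n N, Nat.gcd_dvd_left n N,
      fun h => hn (Nat.gcd_eq_zero_iff.mp h).1, Nat.gcd_eq_gcd_ab n N⟩
  obtain ⟨N', hN'⟩ := hdN
  have hN'0 : N' ≠ 0 := by
    rintro rfl
    rw [mul_zero] at hN'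
    exact hN0 hN'
  have hvd : padicValNat r d ≤ padicValNat r n := by
    have h1 : r ^ padicValNat r d ∣ n := dvd_trans pow_padicValNat_dvd hdn
    exact (padicValNat_dvd_iff_le hn).mp h1
  have hrN' : r ∣ N' := by
    apply dvd_of_one_le_padicValNat
    have h1 : padicValNat r N = padicValNat r d + padicValNat r N' := by
      rw [hN']
      exact padicValNat.mul hd0 hN'0
    omega
  obtain ⟨N'', hN''⟩ := hrN'
  have hN''0 : N'' ≠ 0 := by
    rintro rfl
    rw [mul_zero] at hN''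
    exact hN'0 hN''
  have hNeq : N = d * N'' * r := by
    calc N = d * N' := hN'
      _ = d * N'' * r := by rw [hN'']; ring
  -- `g ^ d` is an `n`-th power
  have hw : (g ^ u) ^ n = g ^ d := by
    have h1 : (g ^ (d : ℤ) : Fˣ) = g ^ ((n : ℤ) * u) := by
      rw [hb, zpow_add, zpow_mul (g) (N : ℤ), zpow_natCast g N, ← hog, pow_orderOf_eq_one, one_zpow,
        mul_one]
    rw [zpow_natCast] at h1
    rw [h1, ← zpow_natCast (g ^ u) n, ← zpow_mul, mul_comm]
  obtain ⟨ζ, hζ⟩ : ∃ ζ : Fˣ, ζ = g ^ (d * N'') := ⟨_, rfl⟩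
  obtain ⟨μ, hμ⟩ : ∃ μ : Fˣ, μ = ((g ^ u)⁻¹) ^ N'' := ⟨_, rfl⟩
  have hζr : ζ ^ r = 1 := by
    rw [hζ, ← pow_mul, ← hNeq, ← hog, pow_orderOf_eq_one]
  have hζ1 : ζ ≠ 1 := by
    rw [hζ]
    apply pow_ne_one_of_lt_orderOf (Nat.mul_ne_zero hd0 hN''0)
    rw [hog, hNeq]
    have h3 : 0 < d * N'' := Nat.pos_of_ne_zero (Nat.mul_ne_zero hd0 hN''0)
    have h2 := hr.two_le
    calc d * N'' < d * N'' * 2 := by omega
      _ ≤ d * N'' * r := Nat.mul_le_mul_left _ h2
  have hμn : μ ^ n * ζ = 1 := by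
    rw [hμ, ← pow_mul, mul_comm N'' n, pow_mul, inv_pow, hw, hζ, pow_mul, inv_pow, inv_mul_cancel]
  refine ⟨(μ : F), (ζ : F), Units.ne_zero μ, ?_, ?_, ?_⟩
  · have h2 := congrArg (fun v : Fˣ => (v : F)) hζr
    simpa using h2
  · intro h1
    exact hζ1 (Units.ext (by simpa using h1))
  · have h2 := congrArg (fun v : Fˣ => (v : F)) hμn
    simpa using h2

end field

end Cfsg.Agent.Helper80.SFRCount
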