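import Mathlib
import Cfsg.Prelude.Def_GeometricClasses

/-!
# Piece INT of CALL S5877 (helper35)

For `g, x ∈ GL_n(F)` and `γ = x⁻¹ g x g⁻¹`: the intersection of the fixed spaces of `γ` and of
`g γ g⁻¹` has dimension at least `2 dim Eig(g, c) - n`.
-/

set_option autoImplicit false
open Cfsg Cfsg.Geo Matrix Module

namespace Cfsg.Agent.Helper80

/-- **Piece INT of CALL S5877.** -/
theorem c6e_inter {F : Type*} [Field F] {n : ℕ} (g x : GL (Fin n) F) (c : F) :
    2 * finrank F (Module.End.eigenspace (Matrix.toLin' (g : Matrix (Fin n) (Fin n) F)) c) ≤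
      n + finrank F
        ((Module.End.eigenspace
            (Matrix.toLin' ((x⁻¹ * g * x * g⁻¹ : GL (Fin n) F) : Matrix (Fin n) (Fin n) F)) 1 ⊓
          Module.End.eigenspace
            (Matrix.toLin' ((g * (x⁻¹ * g * x * g⁻¹) * g⁻¹ : GL (Fin n) F) :
              Matrix (Fin n) (Fin n) F)) 1 : Submodule F (Fin n → F))) := by
  classical
  -- cancellation rules for the action of `GL` on vectors
  have hcancel : ∀ (a : GL (Fin n) F) (v : Fin n → F),
      (a⁻¹ : GL (Fin n) F).val *ᵥ (a.val *ᵥ v) = v := by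
    intro a v
    rw [Matrix.mulVec_mulVec, ← Units.val_mul, inv_mul_cancel, Units.val_one, Matrix.one_mulVec]
  have hcancel' : ∀ (a : GL (Fin n) F) (v : Fin n → F),
      a.val *ᵥ ((a⁻¹ : GL (Fin n) F).val *ᵥ v) = v := by
    intro a v
    rw [Matrix.mulVec_mulVec, ← Units.val_mul, mul_inv_cancel, Units.val_one, Matrix.one_mulVec]
  by_cases hc : c = 0
  · have h0 : Module.End.eigenspace (Matrix.toLin' (g : Matrix (Fin n) (Fin n) F)) c = ⊥ := by
      rw [Submodule.eq_bot_iff]
      intro w hw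
      rw [Module.End.mem_eigenspace_iff, hc, zero_smul, Matrix.toLin'_apply] at hw
      have h1 := hcancel g w
      rw [hw, Matrix.mulVec_zero] at h1
      exact h1.symm
    rw [h0, finrank_bot]
    omega
  · obtain ⟨W, hW⟩ : ∃ W : Submodule F (Fin n → F),
        W = Module.End.eigenspace (Matrix.toLin' (g : Matrix (Fin n) (Fin n) F)) c := ⟨_, rfl⟩
    rw [← hW]
    have hmemW : ∀ w : Fin n → F, w ∈ W ↔ g.val *ᵥ w = c • w := by
      intro w
      rw [hW, Module.End.mem_eigenspace_iff, Matrix.toLin'_apply]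
    have hinj : Function.Injective
        (Matrix.toLin' ((x⁻¹ : GL (Fin n) F) : Matrix (Fin n) (Fin n) F)) := by
      intro v v' hvv
      rw [Matrix.toLin'_apply, Matrix.toLin'_apply] at hvv
      have h1 := congrArg (fun y => x.val *ᵥ y) hvv
      simp only [hcancel'] at h1
      exact h1
    obtain ⟨W', hW'⟩ : ∃ W' : Submodule F (Fin n → F),
        W' = W.map (Matrix.toLin' ((x⁻¹ : GL (Fin n) F) : Matrix (Fin n) (Fin n) F)) := ⟨_, rfl⟩
    have hfr : finrank F W' = finrank F W := by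
      rw [hW']
      exact (Submodule.equivMapOfInjective _ hinj W).finrank_eq.symm
    have hginv : ∀ w : Fin n → F, g.val *ᵥ w = c • w →
        (g⁻¹ : GL (Fin n) F).val *ᵥ w = c⁻¹ • w := by
      intro w hw
      have h1 := hcancel g w
      rw [hw, Matrix.mulVec_smul] at h1
      calc (g⁻¹ : GL (Fin n) F).val *ᵥ w
          = c⁻¹ • (c • ((g⁻¹ : GL (Fin n) F).val *ᵥ w)) := by
            rw [smul_smul, inv_mul_cancel₀ hc, one_smul]
        _ = c⁻¹ • w := by rw [h1]
    have hle : W ⊓ W' ≤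
        (Module.End.eigenspace
            (Matrix.toLin' ((x⁻¹ * g * x * g⁻¹ : GL (Fin n) F) : Matrix (Fin n) (Fin n) F)) 1 ⊓
          Module.End.eigenspace
            (Matrix.toLin' ((g * (x⁻¹ * g * x * g⁻¹) * g⁻¹ : GL (Fin n) F) :
              Matrix (Fin n) (Fin n) F)) 1 : Submodule F (Fin n → F)) := by
      intro w hw
      obtain ⟨hw1, hw2⟩ := Submodule.mem_inf.mp hw
      have hgw : g.val *ᵥ w = c • w := (hmemW w).mp hw1
      rw [hW'] at hw2
      obtain ⟨w₁, hw₁W, hw₁⟩ := hw2
      rw [Matrix.toLin'_apply] at hw₁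
      have hxw : x.val *ᵥ w = w₁ := by
        rw [← hw₁, hcancel']
      have hgw₁ : g.val *ᵥ w₁ = c • w₁ := (hmemW w₁).mp hw₁W
      -- `γ w = w`
      have hγ : ((x⁻¹ * g * x * g⁻¹ : GL (Fin n) F) : Matrix (Fin n) (Fin n) F) *ᵥ w = w := by
        rw [Units.val_mul, Units.val_mul, Units.val_mul, ← Matrix.mulVec_mulVec,
          ← Matrix.mulVec_mulVec, ← Matrix.mulVec_mulVec, hginv w hgw, Matrix.mulVec_smul, hxw,
          Matrix.mulVec_smul, hgw₁, smul_smul, inv_mul_cancel₀ hc, one_smul, hw₁]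
      refine Submodule.mem_inf.mpr ⟨?_, ?_⟩
      · rw [Module.End.mem_eigenspace_iff, Matrix.toLin'_apply, one_smul]
        exact hγ
      · rw [Module.End.mem_eigenspace_iff, Matrix.toLin'_apply, one_smul]
        rw [Units.val_mul, Units.val_mul, ← Matrix.mulVec_mulVec, ← Matrix.mulVec_mulVec,
          hginv w hgw, Matrix.mulVec_smul, hγ, Matrix.mulVec_smul, hgw, smul_smul,
          inv_mul_cancel₀ hc, one_smul]
    have h1 := Submodule.finrank_sup_add_finrank_inf_eq W W'
    have h2 : finrank F ↥(W ⊔ W') ≤ n := by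
      have h3 := Submodule.finrank_le (W ⊔ W')
      rw [Module.finrank_fintype_fun_eq_card, Fintype.card_fin] at h3
      exact h3
    have h3 := Submodule.finrank_mono hle
    omega

end Cfsg.Agent.Helper80
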