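import Mathlib
import Cfsg.Agent.Helper65.R3Defs

/-!
# PIECE F of CALL S2113 (helper65): a biadditive pairing with a non-additive twist vanishes
(helper80)
-/

set_option autoImplicit false

namespace Cfsg.Agent.Helper80

open scoped commutatorElement
open Cfsg.Agent.Helper65

/-- PIECE F (field lemma, pure Mathlib). A biadditive pairing with `β t b = β 1 (φ t * b)` vanishes
as soon as `φ` is not additive somewhere. -/
theorem r3_pair {K : Type*} [Field K] {A : Type*} [CommGroup A] (β : K → K → A) (φ : K → K)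
    (hl : ∀ a a' b, β (a + a') b = β a b * β a' b) (hr : ∀ a b b', β a (b + b') = β a b * β a b')
    (hφ : ∀ t, t ≠ 0 → ∀ b, β t b = β 1 (φ t * b))
    (hw : ∃ t s : K, t ≠ 0 ∧ s ≠ 0 ∧ t + s ≠ 0 ∧ φ (t + s) ≠ φ t + φ s) : ∀ a b, β a b = 1 := by
  obtain ⟨t, s, ht, hs, hts, hne⟩ := hw
  have g0 : β 1 0 = 1 := by
    have := hr 1 0 0
    rw [add_zero] at this
    exact mul_eq_left.mp this.symm
  have gneg : ∀ b, β 1 (-b) = (β 1 b)⁻¹ := by
    intro b
    have := hr 1 b (-b)
    rw [add_neg_cancel, g0] at this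
    exact eq_inv_of_mul_eq_one_right this.symm
  have gkey : ∀ b, β 1 ((φ (t + s) - (φ t + φ s)) * b) = 1 := by
    intro b
    have e1 : β 1 (φ (t + s) * b) = β 1 (φ t * b) * β 1 (φ s * b) := by
      rw [← hφ (t + s) hts, ← hφ t ht, ← hφ s hs, hl]
    have e2 : (φ (t + s) - (φ t + φ s)) * b = φ (t + s) * b + (-(φ t * b) + -(φ s * b)) := by ring
    rw [e2, hr, hr, gneg, gneg, e1]
    rw [mul_mul_mul_comm, mul_inv_cancel, mul_inv_cancel, one_mul]
  have gall : ∀ b, β 1 b = 1 := by
    intro b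
    have hc : φ (t + s) - (φ t + φ s) ≠ 0 := sub_ne_zero.mpr hne
    have h1 := gkey (b / (φ (t + s) - (φ t + φ s)))
    have e : (φ (t + s) - (φ t + φ s)) * (b / (φ (t + s) - (φ t + φ s))) = b := by
      field_simp
    rwa [e] at h1
  intro a b
  by_cases ha : a = 0
  · subst ha
    have := hl 0 0 b
    rw [add_zero] at this
    exact mul_eq_left.mp this.symm
  · rw [hφ a ha, gall]

end Cfsg.Agent.Helper80
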