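import Mathlib

/-! Piece HYP of CALL S2316 (helper44): the number of hyperplanes of `W'` not containing a given
non-zero vector `r ∈ W'` is `q ^ (dim W' - 1)`. -/

set_option autoImplicit false
open Classical

namespace Cfsg.Agent.Helper80.SPUHYP

open Matrix

variable {F : Type*} [Field F] [Fintype F] {m : ℕ}

/-- the number of linear functionals with value `1` at a non-zero vector -/
theorem hyp_card_dual {U : Type*} [AddCommGroup U] [Module F U] [Finite U] (u : U) (hu : u ≠ 0) :
    Nat.card {φ : Module.Dual F U // φ u = 1} = Fintype.card F ^ (Module.finrank F U - 1) := by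
  obtain ⟨φ₀, hφ₀⟩ : ∃ φ₀ : Module.Dual F U, φ₀ u = 1 := by
    by_contra hne
    apply hu
    rw [← Module.forall_dual_apply_eq_zero_iff F u]
    intro φ
    by_contra hφ
    exact hne ⟨(φ u)⁻¹ • φ, by rw [LinearMap.smul_apply, smul_eq_mul, inv_mul_cancel₀ hφ]⟩
  have e : {φ : Module.Dual F U // φ u = 1} ≃ LinearMap.ker (Module.Dual.eval F U u) :=
    { toFun := fun φ => ⟨φ.1 - φ₀, by
        rw [LinearMap.mem_ker, Module.Dual.eval_apply, LinearMap.sub_apply, φ.2, hφ₀, sub_self]⟩
      invFun := fun ψ => ⟨ψ.1 + φ₀, by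
        have h := ψ.2
        rw [LinearMap.mem_ker, Module.Dual.eval_apply] at h
        rw [LinearMap.add_apply, h, hφ₀, zero_add]⟩
      left_inv := fun φ => by
        apply Subtype.ext
        simp
      right_inv := fun ψ => by
        apply Subtype.ext
        simp }
  rw [Nat.card_congr e, Module.natCard_eq_pow_finrank (K := F), Nat.card_eq_fintype_card]
  congr 1
  have h1 := LinearMap.finrank_range_add_finrank_ker (Module.Dual.eval F U u)
  have h2 : LinearMap.range (Module.Dual.eval F U u) = ⊤ := by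
    rw [LinearMap.range_eq_top]
    intro c
    exact ⟨c • φ₀, by rw [Module.Dual.eval_apply, LinearMap.smul_apply, hφ₀, smul_eq_mul, mul_one]⟩
  rw [h2, finrank_top, Module.finrank_self, Subspace.dual_finrank_eq] at h1
  omega

/-- kernels of functionals with value `1` at `r` are complements of the line of `r` -/
theorem hyp_mem {V : Type*} [AddCommGroup V] [Module F V] (W' : Submodule F V) (r : V)
    (hr : r ∈ W') (φ : Module.Dual F W') (hφ : φ ⟨r, hr⟩ = 1) :
    r ∉ (LinearMap.ker φ).map W'.subtype ∧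
      (LinearMap.ker φ).map W'.subtype ⊔ Submodule.span F {r} = W' := by
  constructor
  · intro h
    obtain ⟨x, hx, hxr⟩ := Submodule.mem_map.mp h
    have e : x = ⟨r, hr⟩ := Subtype.ext hxr
    rw [e, LinearMap.mem_ker, hφ] at hx
    exact one_ne_zero hx
  · apply le_antisymm
    · exact sup_le (Submodule.map_subtype_le W' _)
        ((Submodule.span_singleton_le_iff_mem r W').2 hr)
    · intro x hx
      have e : x = (x - φ ⟨x, hx⟩ • r) + φ ⟨x, hx⟩ • r := (sub_add_cancel _ _).symm
      rw [e]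
      apply Submodule.add_mem_sup
      · refine Submodule.mem_map.mpr ⟨(⟨x, hx⟩ : W') - φ ⟨x, hx⟩ • (⟨r, hr⟩ : W'), ?_, rfl⟩
        rw [LinearMap.mem_ker, map_sub, map_smul, hφ, smul_eq_mul, mul_one, sub_self]
      · exact Submodule.smul_mem _ _ (Submodule.mem_span_singleton_self r)

theorem hyp_inj {V : Type*} [AddCommGroup V] [Module F V] (W' : Submodule F V) (r : V)
    (hr : r ∈ W') (φ₁ φ₂ : Module.Dual F W') (h1 : φ₁ ⟨r, hr⟩ = 1) (h2 : φ₂ ⟨r, hr⟩ = 1)
    (h : (LinearMap.ker φ₁).map W'.subtype = (LinearMap.ker φ₂).map W'.subtype) : φ₁ = φ₂ := by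
  have hker : LinearMap.ker φ₁ = LinearMap.ker φ₂ :=
    Submodule.map_injective_of_injective (f := W'.subtype)
      (fun a b hab => Subtype.ext hab) h
  ext x
  have hx : x - φ₁ x • (⟨r, hr⟩ : W') ∈ LinearMap.ker φ₁ := by
    rw [LinearMap.mem_ker, map_sub, map_smul, h1, smul_eq_mul, mul_one, sub_self]
  rw [hker, LinearMap.mem_ker, map_sub, map_smul, h2, smul_eq_mul, mul_one, sub_eq_zero] at hx
  exact hx.symm

theorem hyp_surj {V : Type*} [AddCommGroup V] [Module F V] (W' : Submodule F V) (r : V)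
    (hr : r ∈ W') (W : Submodule F V) (hrW : r ∉ W) (hW : W ⊔ Submodule.span F {r} = W') :
    ∃ φ : Module.Dual F W', φ ⟨r, hr⟩ = 1 ∧ (LinearMap.ker φ).map W'.subtype = W := by
  have hWle : W ≤ W' := by
    rw [← hW]
    exact le_sup_left
  have hx : (⟨r, hr⟩ : W') ∉ W.comap W'.subtype := fun h => hrW h
  obtain ⟨f, hf, hpf⟩ := Submodule.exists_dual_map_eq_bot_of_notMem hx inferInstance
  have hfp : ∀ x ∈ W.comap W'.subtype, f x = 0 := by
    intro x hx
    have h1 : f x ∈ (W.comap W'.subtype).map f := Submodule.mem_map_of_mem hx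
    rw [hpf, Submodule.mem_bot] at h1
    exact h1
  refine ⟨(f ⟨r, hr⟩)⁻¹ • f, ?_, ?_⟩
  · rw [LinearMap.smul_apply, smul_eq_mul, inv_mul_cancel₀ hf]
  · have hker : LinearMap.ker ((f ⟨r, hr⟩)⁻¹ • f) = W.comap W'.subtype := by
      ext x
      rw [LinearMap.mem_ker, LinearMap.smul_apply, smul_eq_mul]
      constructor
      · intro h0
        have hfx : f x = 0 := by
          rcases mul_eq_zero.mp h0 with h1 | h1
          · exact absurd (inv_eq_zero.mp h1) hf
          · exact h1
        have hxW : (x : V) ∈ W ⊔ Submodule.span F {r} := by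
          rw [hW]
          exact x.2
        obtain ⟨w, hw, z, hz, hwz⟩ := Submodule.mem_sup.mp hxW
        obtain ⟨c, rfl⟩ := Submodule.mem_span_singleton.mp hz
        have e : x = (⟨w, hWle hw⟩ : W') + c • (⟨r, hr⟩ : W') := Subtype.ext hwz.symm
        have hw' : (⟨w, hWle hw⟩ : W') ∈ W.comap W'.subtype := hw
        rw [e, map_add, map_smul, hfp _ hw', zero_add, smul_eq_mul] at hfx
        have hc : c = 0 := by
          rcases mul_eq_zero.mp hfx with h1 | h1
          · exact h1
          · exact absurd h1 hf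
        rw [e, hc, zero_smul, add_zero]
        exact hw'
      · intro hxp
        rw [hfp x hxp, mul_zero]
    rw [hker, Submodule.map_comap_subtype, inf_eq_right.mpr hWle]

/-- HYP: the number of hyperplanes of `W'` not containing a given non-zero vector `r ∈ W'`. -/
theorem spu_hyp {V : Type*} [AddCommGroup V] [Module F V] [Finite V] (W' : Submodule F V) (r : V)
    (hr : r ∈ W') (hr0 : r ≠ 0) :
    Nat.card {W : Submodule F V // r ∉ W ∧ W ⊔ Submodule.span F {r} = W'} =
      Fintype.card F ^ (Module.finrank F W' - 1) := by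
  have hr'0 : (⟨r, hr⟩ : W') ≠ 0 := fun h => hr0 (congrArg Subtype.val h)
  rw [← hyp_card_dual (⟨r, hr⟩ : W') hr'0]
  symm
  apply Nat.card_congr
  refine Equiv.ofBijective
    (fun φ : {φ : Module.Dual F W' // φ ⟨r, hr⟩ = 1} =>
      (⟨(LinearMap.ker φ.1).map W'.subtype, hyp_mem W' r hr φ.1 φ.2⟩ :
        {W : Submodule F V // r ∉ W ∧ W ⊔ Submodule.span F {r} = W'})) ⟨?_, ?_⟩
  · intro φ₁ φ₂ h
    exact Subtype.ext (hyp_inj W' r hr φ₁.1 φ₂.1 φ₁.2 φ₂.2 (congrArg Subtype.val h))
  · rintro ⟨W, hrW, hW⟩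
    obtain ⟨φ, hφ1, hφ2⟩ := hyp_surj W' r hr W hrW hW
    exact ⟨⟨φ, hφ1⟩, Subtype.ext hφ2⟩

end Cfsg.Agent.Helper80.SPUHYP
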