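import Mathlib
import Cfsg.Agent.Helper13.TKDefs

set_option autoImplicit false

/-! Piece CAYLEY of CALL S5956 (helper13): the Cayley transform of a skew nilpotent, with
kernels. -/

namespace Cfsg.Agent.Helper80.TI5956

open Module Polynomial
open Cfsg.Agent.Helper42.SpForm Cfsg.Agent.Helper42.SpGroup Cfsg.Agent.Helper42.SpModels
open Cfsg.Agent.Helper13.TIsp Cfsg.Agent.Helper90.BG
open Cfsg.Agent.Helper11.TI5955 Cfsg.Agent.Helper58.TI5955 Cfsg.Agent.Helper59.TI5955
open Cfsg.Agent.Helper51.TI5955 Cfsg.Agent.Helper70.TI5955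
open Cfsg.Agent.Helper39.TI5961 Cfsg.Agent.Helper58.TI5961 Cfsg.Agent.Helper59.TI5961
open Cfsg.Agent.Helper60.TI5961 Cfsg.Agent.Helper31.TI5961 Cfsg.Agent.Helper19.TI5961

section xf

variable {F : Type*} [Field F]

/-- CAYLEY (case a): the Cayley transform `U = (1 + N) * (1 - N)⁻¹` of a skew nilpotent `N`;
`U - 1 = 2 • N * (1 - N)⁻¹` (redo `Cfsg.Agent.Helper42.SpModels.exists_cayley` keeping the kernels). -/
theorem cayley_ker {V : Type*} [AddCommGroup V] [Module F V] (B : LinearMap.BilinForm F V)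
    (N : Module.End F V) (p : ℕ) [Fact p.Prime] [CharP F p] (h2 : (2 : F) ≠ 0) (hN : N ^ p = 0)
    (hskew : ∀ x y, B (N x) y = - B x (N y)) :
    ∃ U : Module.End F V, Preserves B U ∧ U ^ p = 1 ∧
      ∀ k : ℕ, LinearMap.ker ((U - 1) ^ k) = LinearMap.ker (N ^ k) := by
  have hp : p.Prime := Fact.out
  obtain ⟨r, hrdef⟩ : ∃ r : F[X], r = ∑ i ∈ Finset.range p, X ^ i := ⟨_, rfl⟩
  have hr : (1 - X) * r = 1 - X ^ p := by
    rw [hrdef]
    exact mul_neg_geom_sum X p
  obtain ⟨R, hRdef⟩ : ∃ R : Module.End F V, R = aeval N r := ⟨_, rfl⟩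
  have hR1 : (1 - N) * R = 1 := by
    have h := congrArg (aeval N) hr
    simp only [map_mul, map_sub, map_one, aeval_X, map_pow, hN, sub_zero] at h
    rw [hRdef]
    exact h
  have hcomm : Commute N R := by
    have h := (Commute.all (X : F[X]) r).map (aeval N)
    rw [aeval_X] at h
    rw [hRdef]
    exact h
  have hU1 : (1 + N) * R - 1 = (2 : F) • (N * R) := by
    have h3 : (1 + N) - (1 - N) = (2 : F) • N := by
      rw [two_smul]
      abel
    calc (1 + N) * R - 1 = (1 + N) * R - (1 - N) * R := by rw [hR1]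
      _ = ((1 + N) - (1 - N)) * R := (sub_mul _ _ _).symm
      _ = (2 : F) • (N * R) := by rw [h3, smul_mul_assoc]
  refine ⟨(1 + N) * R, ?_, ?_, ?_⟩
  · intro x y
    have hx : (1 - N) (R x) = x := by
      rw [← Module.End.mul_apply, hR1, Module.End.one_apply]
    have hy : (1 - N) (R y) = y := by
      rw [← Module.End.mul_apply, hR1, Module.End.one_apply]
    rw [Module.End.mul_apply, Module.End.mul_apply]
    conv_rhs => rw [← hx, ← hy]
    simp only [LinearMap.add_apply, LinearMap.sub_apply, Module.End.one_apply, map_add, map_sub,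
      hskew]
    ring
  · have hu : ((1 + X) * r - 1 : F[X]) = C 2 * X * r - X ^ p := by
      have : (C 2 : F[X]) = 2 := map_ofNat C 2
      rw [this]
      linear_combination hr
    have hpow : (((1 + X) * r) ^ p - 1 : F[X])
        = C (2 ^ p) * X ^ p * r ^ p - (X ^ p) ^ p := by
      rw [← one_pow p, ← sub_pow_char, one_pow, hu, sub_pow_char, mul_pow, mul_pow, ← C_pow]
    have h1 := congrArg (aeval N) hpow
    simp only [map_sub, map_pow, map_mul, map_add, aeval_X, aeval_C, map_one, hN,
      zero_pow hp.pos.ne', sub_zero, mul_zero, zero_mul] at h1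
    rw [← hRdef] at h1
    exact sub_eq_zero.mp h1
  · intro k
    have hUk : ((1 + N) * R - 1) ^ k = (2 : F) ^ k • (N ^ k * R ^ k) := by
      rw [hU1, _root_.smul_pow, hcomm.mul_pow]
    have hRk : (1 - N) ^ k * R ^ k = 1 := by
      have hc : Commute (1 - N) R := (Commute.one_left R).sub_left hcomm
      rw [← hc.mul_pow, hR1, one_pow]
    have h2k : (2 : F) ^ k ≠ 0 := pow_ne_zero _ h2
    have hc2 : N ^ k * R ^ k = R ^ k * N ^ k := (hcomm.pow_pow k k).eq
    ext x
    rw [LinearMap.mem_ker, LinearMap.mem_ker, hUk, LinearMap.smul_apply,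
      smul_eq_zero_iff_right h2k]
    constructor
    · intro h
      have h' : (R ^ k) ((N ^ k) x) = 0 := by
        rw [← Module.End.mul_apply, ← hc2]
        exact h
      calc (N ^ k) x = ((1 - N) ^ k * R ^ k) ((N ^ k) x) := by
            rw [hRk, Module.End.one_apply]
        _ = 0 := by rw [Module.End.mul_apply, h', map_zero]
    · intro h
      rw [hc2, Module.End.mul_apply, h, map_zero]

end xf

end Cfsg.Agent.Helper80.TI5956
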