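import Mathlib

set_option autoImplicit false
open Matrix Polynomial

/-! Piece NEVEN of CALL S5981 (helper98). -/

namespace Cfsg.Agent.Helper80.THNEVEN

variable {F : Type*} [Field F] [Fintype F]

/-- NEVEN -/
theorem nsq_even {n : ℕ} (z : F) (hz : ¬ IsSquare z) (x : Matrix (Fin n) (Fin n) F)
    (hx : x * x = z • (1 : Matrix (Fin n) (Fin n) F)) : Even n := by
  by_contra hodd
  rw [Nat.not_even_iff_odd] at hodd
  obtain ⟨k, rfl⟩ := hodd
  have hz0 : z ≠ 0 := by
    rintro rfl
    exact hz ⟨0, by simp⟩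
  have hdet : x.det * x.det = z ^ (2 * k + 1) := by
    have h := congrArg Matrix.det hx
    rw [Matrix.det_mul, Matrix.det_smul, Matrix.det_one, mul_one, Fintype.card_fin] at h
    exact h
  apply hz
  refine ⟨x.det / z ^ k, ?_⟩
  have hzk : z ^ k ≠ 0 := pow_ne_zero _ hz0
  rw [div_mul_div_comm, hdet, eq_div_iff (mul_ne_zero hzk hzk)]
  ring

end Cfsg.Agent.Helper80.THNEVEN
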