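import Mathlib

/-! Piece ARB (pure arithmetic) of CALL OT = S5972 (helper43). -/

set_option autoImplicit false

namespace Cfsg.Agent.Helper80.OT5972

/-- ARB (pure arithmetic; `(2d+1) % c` is odd because `c` is even) -/
theorem ot_arith_b (i c d m a : ℕ) (hi0 : 0 < i) (hc : c = if Even i then i else 2 * i)
    (ha : a ≤ m) (hdvd : i ∣ m - a) (h2a : 2 * a ≤ (2 * d + 1) % c) :
    2 * (m % i) < (2 * d + 1) % c := by
  have hce : Even c := by
    by_cases hev : Even i
    · rw [hc, if_pos hev]
      exact hev
    · rw [hc, if_neg hev]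
      exact even_two_mul i
  obtain ⟨c', hc'⟩ := hce
  have hR : (2 * d + 1) % c % 2 = 1 := by
    have h := Nat.div_add_mod (2 * d + 1) c
    have h3 : c * ((2 * d + 1) / c) = 2 * (c' * ((2 * d + 1) / c)) := by
      rw [hc']
      ring
    rw [h3] at h
    omega
  obtain ⟨t, ht⟩ := hdvd
  have hm : m = a + i * t := by omega
  have hmi : m % i = a % i := by rw [hm, Nat.add_mul_mod_self_left]
  have hai := Nat.mod_le a i
  omega

end Cfsg.Agent.Helper80.OT5972
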