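import Mathlib

/-! Piece ARF (pure arithmetic) of CALL OT = S5972 (helper43). -/

set_option autoImplicit false

namespace Cfsg.Agent.Helper80.OT5972

/-- ARF (pure arithmetic) -/
theorem ot_arith_f (i c d m j : ℕ) (hi0 : 0 < i) (hc : c = if Even i then i else 2 * i)
    (hj : j < m) (hmd : m ≤ d) (hdvd : i ∣ 2 * (d - j)) :
    c ≤ 2 * d + 1 ∧ (2 * d + 1) % c < 2 * m := by
  have hcd : c ∣ 2 * (d - j) := by
    by_cases hev : Even i
    · rw [hc, if_pos hev]
      exact hdvd
    · rw [hc, if_neg hev]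
      have hodd : Odd i := Nat.not_even_iff_odd.mp hev
      have hcop : Nat.Coprime i 2 := Nat.coprime_two_right.mpr hodd
      have h1 : i ∣ d - j := hcop.dvd_of_dvd_mul_left hdvd
      exact Nat.mul_dvd_mul_left 2 h1
  have hpos : 0 < 2 * (d - j) := by omega
  have hle : c ≤ 2 * (d - j) := Nat.le_of_dvd hpos hcd
  constructor
  · omega
  · obtain ⟨t, ht⟩ := hcd
    have e : 2 * d + 1 = (2 * j + 1) + c * t := by omega
    rw [e, Nat.add_mul_mod_self_left]
    have h3 := Nat.mod_le (2 * j + 1) c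
    omega

end Cfsg.Agent.Helper80.OT5972
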