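import Mathlib

/-! Piece B1A (pure arithmetic) of CALL OT = S5972 (helper43). -/

set_option autoImplicit false

namespace Cfsg.Agent.Helper80.OT5972

/-- B1A (pure arithmetic) -/
theorem ot_b1_arith (r i c d m e u b₀ : ℕ) (hr2 : 2 < r) (hi0 : 0 < i) (hir : i ∣ r - 1)
    (hc : c = if Even i then i else 2 * i) (hdim : 2 * d + 1 = e + i * u)
    (ho : Odd i → u = 2 * b₀) (he : u ≤ 2 * b₀ + (r - 1) / i) (hb : 2 * b₀ ≤ u) (hmd : m ≤ d)
    (h1 : 2 * (m % i) < (2 * d + 1) % c)
    (h2 : Odd i ∨ (r - 1) / i + 2 * (m / i) ≤ (2 * d + 1) / i) :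
    ∃ b m₀ : ℕ, b ≤ b₀ ∧ 2 * m₀ + 1 ≤ e ∧ m = i * b + m₀ := by
  have hm := Nat.div_add_mod m i
  by_cases hM : m / i ≤ b₀
  · refine ⟨m / i, m % i, hM, ?_, hm.symm⟩
    have hmod : (2 * d + 1) % c ≤ e := by
      by_cases hev : Even i
      · rw [hc, if_pos hev, hdim, Nat.add_mul_mod_self_left]
        exact Nat.mod_le _ _
      · rw [hc, if_neg hev, hdim, ho (Nat.not_even_iff_odd.mp hev)]
        have e1 : e + i * (2 * b₀) = e + 2 * i * b₀ := by ring
        rw [e1, Nat.add_mul_mod_self_left]
        exact Nat.mod_le _ _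
    omega
  · have hM' : b₀ < m / i := Nat.lt_of_not_le hM
    have h5 : i * b₀ ≤ i * (m / i) := Nat.mul_le_mul_left i hM'.le
    refine ⟨b₀, m - i * b₀, le_rfl, ?_, ?_⟩
    · by_cases hev : Even i
      · have h2' : (r - 1) / i + 2 * (m / i) ≤ (2 * d + 1) / i := by
          rcases h2 with h | h
          · exact absurd hev (Nat.not_even_iff_odd.mpr h)
          · exact h
        have h1' : 2 * (m % i) < (2 * d + 1) % i := by
          rw [hc, if_pos hev] at h1
          exact h1
        have hD := Nat.div_add_mod (2 * d + 1) i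
        have h3 : i * ((r - 1) / i) + 2 * (i * (m / i)) ≤ i * ((2 * d + 1) / i) := by
          have h6 := Nat.mul_le_mul_left i h2'
          calc i * ((r - 1) / i) + 2 * (i * (m / i)) = i * ((r - 1) / i + 2 * (m / i)) := by ring
            _ ≤ i * ((2 * d + 1) / i) := h6
        have h4 : i * u ≤ 2 * (i * b₀) + i * ((r - 1) / i) := by
          have h6 := Nat.mul_le_mul_left i he
          calc i * u ≤ i * (2 * b₀ + (r - 1) / i) := h6
            _ = 2 * (i * b₀) + i * ((r - 1) / i) := by ring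
        omega
      · have hodd := Nat.not_even_iff_odd.mp hev
        have hu := ho hodd
        rw [hu] at hdim
        have e1 : i * (2 * b₀) = 2 * (i * b₀) := by ring
        rw [e1] at hdim
        omega
    · omega

end Cfsg.Agent.Helper80.OT5972
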