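import Mathlib
import Cfsg.Agent.Helper43.OTDefs

/-! Piece HYP of CALL OT = S5972 (helper43): a normal-form orthogonal basis of even length with
square last value spans a hyperbolic space when `-1` is a square. -/

set_option autoImplicit false

namespace Cfsg.Agent.Helper80.OT5972

open Module Polynomial Cfsg.Agent.Helper90.HT Cfsg.Agent.Helper43.OT
open Cfsg.Agent.Helper43.C3O (gm)

universe u

theorem hyp_lin2 {F : Type*} [Field F] {V : Type*} [AddCommGroup V] [Module F V]
    (Q : QuadraticForm F V) (x₁ x₂ y₁ y₂ : F) (u₁ u₂ v₁ v₂ : V) :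
    ph Q (x₁ • u₁ + x₂ • u₂) (y₁ • v₁ + y₂ • v₂) =
      x₁ * y₁ * ph Q u₁ v₁ + x₁ * y₂ * ph Q u₁ v₂ + x₂ * y₁ * ph Q u₂ v₁ +
        x₂ * y₂ * ph Q u₂ v₂ := by
  have hh := isHerm_ph Q
  rw [hh.add_left, hh.smul_left, hh.smul_left, hh.add_right, hh.add_right, hh.smul_right,
    hh.smul_right, hh.smul_right, hh.smul_right]
  simp only [RingHom.id_apply]
  ring

theorem hyp_lin1 {F : Type*} [Field F] {V : Type*} [AddCommGroup V] [Module F V]
    (Q : QuadraticForm F V) (x₁ x₂ : F) (u₁ u₂ v : V) :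
    ph Q (x₁ • u₁ + x₂ • u₂) v = x₁ * ph Q u₁ v + x₂ * ph Q u₂ v := by
  have hh := isHerm_ph Q
  rw [hh.add_left, hh.smul_left, hh.smul_left]

/-- the even index -/
def hypEv (t : ℕ) (k : Fin (t + 1)) : Fin (2 * t + 1 + 1) := ⟨2 * k.val, by omega⟩

/-- the odd index -/
def hypOd (t : ℕ) (k : Fin (t + 1)) : Fin (2 * t + 1 + 1) := ⟨2 * k.val + 1, by omega⟩

theorem hyp_ev_ne_od (t : ℕ) (k l : Fin (t + 1)) : hypEv t k ≠ hypOd t l := by
  intro h
  have h1 := congrArg Fin.val h
  simp only [hypEv, hypOd] at h1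
  omega

theorem hyp_ev_ne_ev (t : ℕ) {k l : Fin (t + 1)} (hkl : k ≠ l) : hypEv t k ≠ hypEv t l := by
  intro h
  have h1 := congrArg Fin.val h
  simp only [hypEv] at h1
  exact hkl (Fin.ext (by omega))

theorem hyp_od_ne_od (t : ℕ) {k l : Fin (t + 1)} (hkl : k ≠ l) : hypOd t k ≠ hypOd t l := by
  intro h
  have h1 := congrArg Fin.val h
  simp only [hypOd] at h1
  exact hkl (Fin.ext (by omega))

theorem hyp_ev_ne_last (t : ℕ) (k : Fin (t + 1)) : hypEv t k ≠ Fin.last (2 * t + 1) := by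
  intro h
  have h1 := congrArg Fin.val h
  simp only [hypEv, Fin.val_last] at h1
  omega

section quad

variable {F : Type*} [Field F] [Fintype F] {V : Type*} [AddCommGroup V] [Module F V]
  [FiniteDimensional F V]

omit [Fintype F] [FiniteDimensional F V] in
/-- HYP: a normal-form basis of even length with square last value spans a hyperbolic space when
`-1` is a square (`b_{2k} + ι b_{2k+1}`, last pair `c b_{s-1} + ι b_s`). -/
theorem ot_hyp (Q : QuadraticForm F V) (h2 : (2 : F) ≠ 0) (s : ℕ) (hs : Odd s)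
    (b : Fin (s + 1) → V) (hli : LinearIndependent F b)
    (hbo : ∀ j l, j ≠ l → ph Q (b j) (b l) = 0) (hb1 : ∀ j, j ≠ Fin.last s → ph Q (b j) (b j) = 1)
    (hδsq : IsSquare (ph Q (b (Fin.last s)) (b (Fin.last s))))
    (hδ0 : ph Q (b (Fin.last s)) (b (Fin.last s)) ≠ 0) (hm1 : IsSquare (-1 : F)) :
    ∃ A : Submodule F V, A ≤ Submodule.span F (Set.range b) ∧ HTI (ph Q) A ∧
      2 * finrank F A = s + 1 := by
  classical
  obtain ⟨t, rfl⟩ := hs
  have hh := isHerm_ph Q
  have hB0 : ∀ j, ph Q (b j) (b j) ≠ 0 := by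
    intro j
    by_cases hj : j = Fin.last (2 * t + 1)
    · rw [hj]
      exact hδ0
    · rw [hb1 j hj]
      exact one_ne_zero
  have hBsq : ∀ j, ∃ γ : F, ph Q (b j) (b j) = γ * γ := by
    intro j
    by_cases hj : j = Fin.last (2 * t + 1)
    · rw [hj]
      exact hδsq
    · exact ⟨1, by rw [hb1 j hj, one_mul]⟩
  choose γ hγ using hBsq
  obtain ⟨ι, hι⟩ := hm1
  have hι0 : ι ≠ 0 := by
    intro h
    rw [h, mul_zero] at hι
    exact one_ne_zero (neg_eq_zero.mp hι)
  have hBev : ∀ k, ph Q (b (hypEv t k)) (b (hypEv t k)) = 1 :=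
    fun k => hb1 _ (hyp_ev_ne_last t k)
  let a : Fin (t + 1) → V := fun k => γ (hypOd t k) • b (hypEv t k) + ι • b (hypOd t k)
  have haa : ∀ k l, ph Q (a k) (a l) = 0 := by
    intro k l
    show ph Q (γ (hypOd t k) • b (hypEv t k) + ι • b (hypOd t k))
      (γ (hypOd t l) • b (hypEv t l) + ι • b (hypOd t l)) = 0
    rw [hyp_lin2]
    by_cases hkl : k = l
    · subst hkl
      rw [hbo _ _ (hyp_ev_ne_od t k k), hbo _ _ (hyp_ev_ne_od t k k).symm, hBev k]
      have e1 := hγ (hypOd t k)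
      linear_combination (-(γ (hypOd t k) * γ (hypOd t k))) * hι + (ι * ι) * e1
    · rw [hbo _ _ (hyp_ev_ne_ev t hkl), hbo _ _ (hyp_ev_ne_od t k l),
        hbo _ _ (hyp_ev_ne_od t l k).symm, hbo _ _ (hyp_od_ne_od t hkl)]
      ring
  have hind : LinearIndependent F a := by
    rw [Fintype.linearIndependent_iff]
    intro g hg k
    have h0 : ph Q (∑ i, g i • a i) (b (hypOd t k)) = 0 := by
      rw [hg]
      exact hh.zero_left _
    rw [hh.sum_left] at h0
    have h1 : ∀ i ∈ (Finset.univ : Finset (Fin (t + 1))), i ≠ k →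
        ph Q (g i • a i) (b (hypOd t k)) = 0 := by
      intro i _ hik
      rw [hh.smul_left]
      show g i * ph Q (γ (hypOd t i) • b (hypEv t i) + ι • b (hypOd t i)) (b (hypOd t k)) = 0
      rw [hyp_lin1, hbo _ _ (hyp_ev_ne_od t i k), hbo _ _ (hyp_od_ne_od t hik)]
      ring
    rw [Finset.sum_eq_single k h1 (fun hk => absurd (Finset.mem_univ k) hk)] at h0
    rw [hh.smul_left] at h0
    have h3 : ph Q (a k) (b (hypOd t k)) = ι * ph Q (b (hypOd t k)) (b (hypOd t k)) := by
      show ph Q (γ (hypOd t k) • b (hypEv t k) + ι • b (hypOd t k)) (b (hypOd t k)) = _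
      rw [hyp_lin1, hbo _ _ (hyp_ev_ne_od t k k)]
      ring
    rw [h3] at h0
    rcases mul_eq_zero.mp h0 with h4 | h4
    · exact h4
    · rcases mul_eq_zero.mp h4 with h5 | h5
      · exact absurd h5 hι0
      · exact absurd h5 (hB0 _)
  refine ⟨Submodule.span F (Set.range a), ?_, ?_, ?_⟩
  · rw [Submodule.span_le]
    rintro _ ⟨k, rfl⟩
    exact Submodule.add_mem _
      (Submodule.smul_mem _ _ (Submodule.subset_span ⟨hypEv t k, rfl⟩))
      (Submodule.smul_mem _ _ (Submodule.subset_span ⟨hypOd t k, rfl⟩))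
  · have hstep : ∀ k, ∀ v ∈ Submodule.span F (Set.range a), ph Q (a k) v = 0 := by
      intro k v hv
      refine Submodule.span_induction (p := fun v _ => ph Q (a k) v = 0) ?_ ?_ ?_ ?_ hv
      · rintro _ ⟨l, rfl⟩
        exact haa k l
      · exact hh.zero_right _
      · intro x y _ _ hx hy
        rw [hh.add_right, hx, hy, add_zero]
      · intro c x _ hx
        rw [hh.smul_right, hx, mul_zero]
    intro u hu v hv
    refine Submodule.span_induction (p := fun u _ => ph Q u v = 0) ?_ ?_ ?_ ?_ hu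
    · rintro _ ⟨k, rfl⟩
      exact hstep k v hv
    · exact hh.zero_left _
    · intro x y _ _ hx hy
      rw [hh.add_left, hx, hy, add_zero]
    · intro c x _ hx
      rw [hh.smul_left, hx, mul_zero]
  · rw [finrank_span_eq_card hind, Fintype.card_fin]
    ring

end quad

end Cfsg.Agent.Helper80.OT5972
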