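import Mathlib
import Cfsg.Agent.Helper45.StDefs

set_option autoImplicit false

/-! Piece BE0 of CALL S2547 (helper45). -/

universe u

namespace Cfsg.Agent.Helper80.StBE0

open Cfsg Cfsg.Agent.Helper13 Cfsg.Agent.Helper95.SpBN Cfsg.Agent.Helper45 Cfsg.Agent.Helper45.St

variable {ι : Type} [Fintype ι] [DecidableEq ι] {F : Type u} [Field F]
  {Q : QuadraticForm F (ι → F)} {m : ℕ} {L R : Fin m → ι}

-- === PIECE BE0 ===
theorem p_BE0 (H : HypPairs Q m L R) (hB : BCrit Q L R) (i₀ : Fin m) (hi₀ : (i₀ : ℕ) = 0)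
    (b : ι → F) (hb : QuadraticMap.polar ⇑Q (ev L R F (Sum.inl i₀)) b = 0) :
    eichO Q (ev L R F (Sum.inl i₀)) b (ev_quad H _) hb ∈ borelO Q L := by
  apply hB
  intro j
  rw [mv_eichO]
  unfold Helper44.eich
  have hne : (Sum.inl j : Fin m ⊕ Fin m) ≠ tauP m (Sum.inl i₀) := by
    rw [tauP_inl]
    exact Sum.inl_ne_inr
  rw [polar_ev_ev H, if_neg hne, zero_smul, sub_zero]
  intro c hc
  rw [Pi.add_apply, Pi.smul_apply, ev_apply, ev_apply] at hc
  by_cases h1 : c = idx L R (Sum.inl j)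
  · exact ⟨j, Nat.lt_succ_self _, h1⟩
  · by_cases h2 : c = idx L R (Sum.inl i₀)
    · exact ⟨i₀, by omega, h2⟩
    · rw [if_neg h1, if_neg h2, smul_zero, add_zero] at hc
      exact absurd rfl hc

end Cfsg.Agent.Helper80.StBE0
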