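import Mathlib
import Cfsg.Agent.Lead.LWDefs
import Cfsg.Agent.Helper64.LW2Defs

/-!
# PIECE AR of CALL S0745 (helper64): the arithmetic of the Livingstone–Wagner exceptional cases
(helper80)
-/

set_option autoImplicit false

namespace Cfsg.Agent.Helper80.LW2AR

open Cfsg.Agent.Lead.LW Cfsg.Agent.Helper64.LW2

variable {α : Type*} [Fintype α] [DecidableEq α]

-- PIECE AR
theorem lw_arith (m n r s : ℕ) (hm : 1 ≤ m) (hm3 : m ≤ 3) (hr : 2 ≤ r) (hs : Odd s)
    (hn : r * s + m = n) (h1 : r ∣ (m + 1).factorial)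
    (h2 : r * (r * s - 1) ∣ (m + 2).factorial)
    (hx1 : s ≤ m + 1 → r * s ∣ (m + 1).factorial)
    (hx2 : ¬ (m = 3 ∧ n = 7 ∧ s = 1)) (hx3 : ¬ (m = 3 ∧ n = 24 ∧ s = 7)) :
    (r = 2 ∧ s = 1) ∨ (m = 2 ∧ r = 3 ∧ s = 1) ∨ (m = 3 ∧ r = 3 ∧ s = 1) ∨
      (m = 3 ∧ r = 6 ∧ s = 1) ∨ (m = 3 ∧ r = 2 ∧ s = 3) := by
  subst hn
  have hs1 : 1 ≤ s := hs.pos
  have hle1 : r ≤ (m + 1).factorial := Nat.le_of_dvd (Nat.factorial_pos _) h1
  have hpos : 0 < r * (r * s - 1) := by
    have : 2 ≤ r * s := by nlinarith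
    exact Nat.mul_pos (by omega) (by omega)
  have hle2 : r * (r * s - 1) ≤ (m + 2).factorial := Nat.le_of_dvd (Nat.factorial_pos _) h2
  interval_cases m
  · have e1 : (1 + 1).factorial = 2 := rfl
    have e2 : (1 + 2).factorial = 6 := rfl
    rw [e1] at hle1
    rw [e2] at hle2
    interval_cases r <;> (have hsb : s ≤ 30 := by omega) <;> interval_cases s <;>
      revert hs h1 h2 hx1 hx2 hx3 <;> decide
  · have e1 : (2 + 1).factorial = 6 := rfl
    have e2 : (2 + 2).factorial = 24 := rfl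
    rw [e1] at hle1
    rw [e2] at hle2
    interval_cases r <;> (have hsb : s ≤ 30 := by omega) <;> interval_cases s <;>
      revert hs h1 h2 hx1 hx2 hx3 <;> decide
  · have e1 : (3 + 1).factorial = 24 := rfl
    have e2 : (3 + 2).factorial = 120 := rfl
    rw [e1] at hle1
    rw [e2] at hle2
    interval_cases r <;> (have hsb : s ≤ 30 := by omega) <;> interval_cases s <;>
      revert hs h1 h2 hx1 hx2 hx3 <;> decide

end Cfsg.Agent.Helper80.LW2AR
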