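import Mathlib
import Cfsg.Agent.Helper65.R3Defs
import Cfsg.Agent.Helper80.R3F

/-!
# Helper lemmas for the pieces A2 / A3 of CALL S2113 (helper65): commutator pairings with values
in the kernel of a central extension (helper80)
-/

set_option autoImplicit false

namespace Cfsg.Agent.Helper80

open scoped commutatorElement
open Cfsg.Agent.Helper65

section

variable {K : Type*} [Field K] {G : Type*} [Group G] {Γ : Type*} [Group Γ]

theorem r3h_comm_mul_left (x x' y : Γ) : ⁅x * x', y⁆ = x * ⁅x', y⁆ * x⁻¹ * ⁅x, y⁆ := by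
  simp only [commutatorElement_def]
  group

theorem r3h_comm_mul_right (x y y' : Γ) : ⁅x, y * y'⁆ = ⁅x, y⁆ * (y * ⁅x, y'⁆ * y⁻¹) := by
  simp only [commutatorElement_def]
  group

theorem r3h_comm_conj (τ x y : Γ) : τ * ⁅x, y⁆ * τ⁻¹ = ⁅τ * x * τ⁻¹, τ * y * τ⁻¹⁆ := by
  simp only [commutatorElement_def]
  group

theorem r3h_conj_central (S : R3 K G Γ) {k : Γ} (hk : k ∈ S.σ.ker) (g : Γ) : g * k * g⁻¹ = k := by
  rw [S.ker_comm hk g]
  group

theorem r3h_torus (S : R3 K G Γ) {x y : Γ} (hk : ⁅x, y⁆ ∈ S.σ.ker) (τ : Γ) :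
    ⁅x, y⁆ = ⁅τ * x * τ⁻¹, τ * y * τ⁻¹⁆ := by
  rw [← r3h_comm_conj, r3h_conj_central S hk]

theorem r3h_comm_mem_ker (S : R3 K G Γ) {x y : Γ} (h : S.σ x * S.σ y = S.σ y * S.σ x) :
    ⁅x, y⁆ ∈ S.σ.ker := by
  rw [MonoidHom.mem_ker, map_commutatorElement, commutatorElement_eq_one_iff_mul_comm]
  exact h

/-- A commutator pairing of two families of lifts, with values in the kernel, biadditive modulo
the kernel and with a non-additive torus twist, is trivial. -/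
theorem r3h_pairing (S : R3 K G Γ) (p q : K → Γ)
    (hker : ∀ v t, ⁅p v, q t⁆ ∈ S.σ.ker)
    (hpadd : ∀ v v' t, ⁅p (v + v'), q t⁆ = ⁅p v * p v', q t⁆)
    (hqadd : ∀ v t t', ⁅p v, q (t + t')⁆ = ⁅p v, q t * q t'⁆)
    (φ : K → K) (hinv : ∀ v, v ≠ 0 → ∀ b, ⁅p v, q b⁆ = ⁅p 1, q (φ v * b)⁆)
    (hw : ∃ t s : K, t ≠ 0 ∧ s ≠ 0 ∧ t + s ≠ 0 ∧ φ (t + s) ≠ φ t + φ s) :
    ∀ v t, ⁅p v, q t⁆ = 1 := by
  have hc : ∀ v t, ⁅p v, q t⁆ ∈ Subgroup.center Γ := fun v t => S.hcen (hker v t)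
  let _ : CommGroup (Subgroup.center Γ) :=
    { (inferInstance : Group (Subgroup.center Γ)) with
      mul_comm := fun a b => Subtype.ext (Subgroup.mem_center_iff.mp b.2 a.1) }
  have key := r3_pair (A := Subgroup.center Γ) (fun v t => ⟨⁅p v, q t⁆, hc v t⟩) φ ?_ ?_ ?_ hw
  · intro v t
    have h1 := congrArg Subtype.val (key v t)
    exact h1
  · intro v v' t
    apply Subtype.ext
    show ⁅p (v + v'), q t⁆ = ⁅p v, q t⁆ * ⁅p v', q t⁆
    rw [hpadd, r3h_comm_mul_left, r3h_conj_central S (hker v' t)]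
    exact (S.ker_comm (hker v' t) _).symm
  · intro v t t'
    apply Subtype.ext
    show ⁅p v, q (t + t')⁆ = ⁅p v, q t⁆ * ⁅p v, q t'⁆
    rw [hqadd, r3h_comm_mul_right, r3h_conj_central S (hker v t')]
  · intro v hv b
    apply Subtype.ext
    exact hinv v hv b

end

end Cfsg.Agent.Helper80
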