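import Mathlib
import Cfsg.Agent.Helper65.R3Defs
import Cfsg.Agent.Helper80.R3Pairing

/-!
# PIECE A2 of CALL S2113 (helper65): lifts of `U₂` commute with lifts of `U₃` (helper80)
-/

set_option autoImplicit false
set_option linter.unusedVariables false

namespace Cfsg.Agent.Helper80

open scoped commutatorElement
open Cfsg.Agent.Helper65

section
variable {K : Type*} [Field K] [Fintype K] [CharP K 3] {G : Type*} [Group G] {Γ : Type*} [Group Γ]

/-- PIECE A2 (uses A1, F): lifts of `U₂` commute with lifts of `U₃`. -/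
theorem r3_A2 (S : R3 K G Γ) (hq : 9 < Fintype.card K)
    (hA1 : ∀ x y : Γ, (∃ v, S.σ x = S.X 0 0 v) → (∃ v, S.σ y = S.X 0 0 v) → x * y = y * x) :
    ∀ x y : Γ, (∃ u v, S.σ x = S.X 0 u v) → (∃ v, S.σ y = S.X 0 0 v) → x * y = y * x := by
  classical
  choose b hb using fun u : K => S.hsec 0 u 0
  choose c hc using fun v : K => S.hsec 0 0 v
  have hL0 : ∀ z : K, z ≠ 0 → S.L z ≠ 0 := fun z hz => (map_ne_zero S.L).mpr hz
  have hker : ∀ v u, ⁅c v, b u⁆ ∈ S.σ.ker := by
    intro v u
    apply r3h_comm_mem_ker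
    rw [hc, hb, S.X_mul0, S.X_mul0]
    simp
  have key : ∀ v u, ⁅c v, b u⁆ = 1 := by
    apply r3h_pairing S c b hker ?_ ?_ (fun t => t * (S.L t)⁻¹) ?_ ?_
    · intro v v' u
      apply S.comm_congr _ rfl
      rw [map_mul, hc, hc, hc, S.X_mul0]
      simp
    · intro v u u'
      apply S.comm_congr rfl
      rw [map_mul, hb, hb, hb, S.X_mul0]
      simp
    · intro v hv u
      obtain ⟨τ, hτ⟩ := S.htor v hv
      symm
      rw [r3h_torus S (hker 1 _) τ]
      apply S.comm_congr
      · rw [map_mul, map_mul, map_inv, hτ, hc, S.conj_η0 hv, hc]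
        congr 1 <;> simp
      · rw [map_mul, map_mul, map_inv, hτ, hb, S.conj_η0 hv, hb]
        have hLv := hL0 v hv
        congr 1
        · field_simp
        · simp
    · have h11 : (1 : K) + 1 ≠ 0 := by
        intro h
        have h2 : ((2 : ℕ) : K) = 0 := by
          push_cast
          rw [← h]
          ring
        have := (CharP.cast_eq_zero_iff K 3 2).mp h2
        omega
      refine ⟨1, 1, one_ne_zero, one_ne_zero, h11, ?_⟩
      simp only [map_add, map_one, inv_one, mul_one]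
      rw [mul_inv_cancel₀ h11]
      intro h
      exact one_ne_zero (by linear_combination -h : (1 : K) = 0)
  intro x y ⟨u, v, hx⟩ ⟨v', hy⟩
  rw [← commutatorElement_eq_one_iff_mul_comm]
  have e1 : ⁅x, y⁆ = ⁅b u * c v, c v'⁆ := by
    apply S.comm_congr
    · rw [hx, map_mul, hb, hc, S.X_mul0]
      simp
    · rw [hy, hc]
  have e2 : ⁅c v, c v'⁆ = 1 :=
    commutatorElement_eq_one_iff_mul_comm.mpr (hA1 _ _ ⟨v, hc v⟩ ⟨v', hc v'⟩)
  have e3 : ⁅b u, c v'⁆ = 1 := by
    rw [← commutatorElement_inv, key, inv_one]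
  rw [e1, r3h_comm_mul_left, e2, e3]
  group

end

end Cfsg.Agent.Helper80
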