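import Mathlib
import Cfsg.Agent.Helper65.R3Defs
import Cfsg.Agent.Helper80.R3Pairing

/-!
# PIECE A3 of CALL S2113 (helper65): lifts of `U` commute with lifts of `U₃` (helper80)
-/

set_option autoImplicit false
set_option linter.unusedVariables false

namespace Cfsg.Agent.Helper80

open scoped commutatorElement
open Cfsg.Agent.Helper65

section
variable {K : Type*} [Field K] [Fintype K] [CharP K 3] {G : Type*} [Group G] {Γ : Type*} [Group Γ]

omit [CharP K 3] in
/-- an element on which `L` is not the cube map -/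
theorem r3h_exists_not_cube (S : R3 K G Γ) (hq : 9 < Fintype.card K) :
    ∃ c : K, S.L c ≠ c ^ 3 := by
  classical
  by_contra hcon
  have hall : ∀ c : K, S.L c = c ^ 3 := by
    intro c
    by_contra h
    exact hcon ⟨c, h⟩
  obtain ⟨g, hg⟩ := IsCyclic.exists_generator (α := Kˣ)
  have hog : orderOf g = Fintype.card K - 1 := by
    rw [orderOf_eq_card_of_forall_mem_zpowers hg, Nat.card_eq_fintype_card, Fintype.card_units]
  have h9 : ((g : K) ^ 3) ^ 3 = (g : K) ^ 3 := by
    have := S.hLL (g : K)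
    rw [hall, hall] at this
    exact this
  have h6 : (g : K) ^ 6 = 1 := by
    have hg3 : (g : K) ^ 3 ≠ 0 := pow_ne_zero 3 (Units.ne_zero g)
    apply mul_left_cancel₀ hg3
    rw [mul_one, ← pow_add]
    rw [← pow_mul] at h9
    exact h9
  have h6' : g ^ 6 = 1 := Units.ext (by simpa using h6)
  have hle : orderOf g ≤ 6 := Nat.le_of_dvd (by norm_num) (orderOf_dvd_of_pow_eq_one h6')
  omega

/-- PIECE A3 (uses A2, F): lifts of `U` commute with lifts of `U₃`. -/
theorem r3_A3 (S : R3 K G Γ) (hq : 9 < Fintype.card K)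
    (hA2 : ∀ x y : Γ, (∃ u v, S.σ x = S.X 0 u v) → (∃ v, S.σ y = S.X 0 0 v) → x * y = y * x) :
    ∀ x y : Γ, (∃ t u v, S.σ x = S.X t u v) → (∃ v, S.σ y = S.X 0 0 v) → x * y = y * x := by
  classical
  choose a ha using fun t : K => S.hsec t 0 0
  choose c hc using fun v : K => S.hsec 0 0 v
  have hL0 : ∀ z : K, z ≠ 0 → S.L z ≠ 0 := fun z hz => (map_ne_zero S.L).mpr hz
  have h3 : (3 : K) = 0 := by
    have := CharP.cast_eq_zero K 3
    exact_mod_cast this
  have hker : ∀ v t, ⁅c v, a t⁆ ∈ S.σ.ker := by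
    intro v t
    apply r3h_comm_mem_ker
    rw [hc, ha, S.X_mul0, S.X_0mul]
    simp
  have key : ∀ v t, ⁅c v, a t⁆ = 1 := by
    apply r3h_pairing S c a hker ?_ ?_ (fun v => S.L v * (v ^ 2)⁻¹) ?_ ?_
    · intro v v' t
      apply S.comm_congr _ rfl
      rw [map_mul, hc, hc, hc, S.X_mul0]
      simp
    · intro v t t'
      obtain ⟨w, hw⟩ := S.hsec 0 (0 + 0 - t * S.L t')
        (0 + 0 - t' * 0 + t * t' * S.L t' - t ^ 2 * S.L t')
      have e1 : ⁅c v, a t * a t'⁆ = ⁅c v, a (t + t') * w⁆ := by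
        apply S.comm_congr rfl
        rw [map_mul, map_mul, ha, ha, ha, hw, S.hX, ← S.X_split]
      have e2 : ⁅c v, w⁆ = 1 :=
        commutatorElement_eq_one_iff_mul_comm.mpr (hA2 w (c v) ⟨_, _, hw⟩ ⟨v, hc v⟩).symm
      rw [e1, r3h_comm_mul_right, e2]
      group
    · intro v hv b
      obtain ⟨τ, hτ⟩ := S.htor v hv
      symm
      rw [r3h_torus S (hker 1 _) τ]
      have hLv := hL0 v hv
      apply S.comm_congr
      · rw [map_mul, map_mul, map_inv, hτ, hc, S.conj_η0 hv, hc]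
        congr 1 <;> simp
      · rw [map_mul, map_mul, map_inv, hτ, ha, S.hη v hv, ha]
        congr 1
        · field_simp
        · simp
        · simp
    · obtain ⟨c₀, hc₀⟩ := r3h_exists_not_cube S hq
      have hc0 : c₀ ≠ 0 := by
        rintro rfl
        apply hc₀
        rw [map_zero]
        ring
      have hc1 : c₀ ≠ 1 := by
        rintro rfl
        apply hc₀
        rw [map_one]
        ring
      have h1c : 1 + c₀ ≠ 0 := by
        intro h
        have hcm : c₀ = -1 := by linear_combination h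
        apply hc₀
        rw [hcm, map_neg, map_one]
        ring
      refine ⟨1, c₀, one_ne_zero, hc0, h1c, ?_⟩
      simp only [map_add, map_one, one_pow, inv_one, mul_one]
      intro h
      have heq : (1 + S.L c₀) * c₀ ^ 2 = (c₀ ^ 2 + S.L c₀) * (1 + c₀) ^ 2 := by
        calc (1 + S.L c₀) * c₀ ^ 2
            = ((1 + S.L c₀) * ((1 + c₀) ^ 2)⁻¹) * ((1 + c₀) ^ 2 * c₀ ^ 2) := by field_simp
          _ = (1 + S.L c₀ * (c₀ ^ 2)⁻¹) * ((1 + c₀) ^ 2 * c₀ ^ 2) := by rw [h]
          _ = (c₀ ^ 2 + S.L c₀) * (1 + c₀) ^ 2 := by field_simp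
      have hprod : (c₀ - 1) * (c₀ ^ 3 - S.L c₀) = 0 := by
        linear_combination (-1 : K) * heq - (c₀ ^ 3 + c₀ * S.L c₀) * h3
      rcases mul_eq_zero.mp hprod with h' | h'
      · exact hc1 (sub_eq_zero.mp h')
      · exact hc₀ (sub_eq_zero.mp h').symm
  intro x y ⟨t, u, v, hx⟩ ⟨v', hy⟩
  rw [← commutatorElement_eq_one_iff_mul_comm]
  obtain ⟨w, hw⟩ := S.hsec 0 u v
  have e1 : ⁅x, y⁆ = ⁅a t * w, c v'⁆ := by
    apply S.comm_congr
    · rw [hx, map_mul, ha, hw, ← S.X_split]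
    · rw [hy, hc]
  have e2 : ⁅w, c v'⁆ = 1 :=
    commutatorElement_eq_one_iff_mul_comm.mpr (hA2 w (c v') ⟨u, v, hw⟩ ⟨v', hc v'⟩)
  have e3 : ⁅a t, c v'⁆ = 1 := by
    rw [← commutatorElement_inv, key, inv_one]
  rw [e1, r3h_comm_mul_left, e2, e3]
  group

end

end Cfsg.Agent.Helper80
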