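import Mathlib

/-! Piece GEN of CALL S2412A (helper65): a generator of the multiplicative group of `F`. -/

set_option autoImplicit false

namespace Cfsg.Agent.Helper80

variable {F : Type*} [Field F] [Fintype F] {q n : ℕ}

/-- GEN: a generator of the multiplicative group of `F`. -/
theorem sug_gen (hF : Fintype.card F = q ^ 2) :
    ∃ rho : F, rho ≠ 0 ∧ (∀ x : F, x ≠ 0 → ∃ i : ℕ, x = rho ^ i) ∧
      (∀ m : ℕ, rho ^ m = 1 → (q ^ 2 - 1) ∣ m) := by
  classical
  obtain ⟨g, hg⟩ := IsCyclic.exists_generator (α := Fˣ)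
  have hord : orderOf g = q ^ 2 - 1 := by
    rw [orderOf_eq_card_of_forall_mem_zpowers hg, Nat.card_eq_fintype_card, Fintype.card_units,
      hF]
  refine ⟨(g : F), g.ne_zero, ?_, ?_⟩
  · intro x hx
    have h1 := hg (Units.mk0 x hx)
    rw [← mem_powers_iff_mem_zpowers] at h1
    obtain ⟨i, hi⟩ := h1
    refine ⟨i, ?_⟩
    have h2 := congrArg Units.val hi
    simpa using h2.symm
  · intro m hm
    rw [← hord]
    apply orderOf_dvd_of_pow_eq_one
    apply Units.ext
    simpa using hm

end Cfsg.Agent.Helper80
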