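import Mathlib

set_option autoImplicit false
open Matrix Polynomial

/-! Piece OMEGA of CALL S5981 (helper98). -/

namespace Cfsg.Agent.Helper80.THOMEGA

variable {F : Type*} [Field F] [Fintype F]

/-- OMEGA -/
theorem exists_omega (r : ℕ) (hr : r.Prime) (hd : r ∣ Fintype.card F - 1) :
    ∃ ω : F, ω ≠ 1 ∧ ω ^ r = 1 := by
  classical
  haveI : Fact r.Prime := ⟨hr⟩
  have hd' : r ∣ Fintype.card Fˣ := by
    rw [Fintype.card_units]
    exact hd
  obtain ⟨u, hu⟩ := exists_prime_orderOf_dvd_card r hd'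
  refine ⟨(u : F), ?_, ?_⟩
  · intro h
    have h1 : u = 1 := Units.ext h
    rw [h1, orderOf_one] at hu
    exact hr.one_lt.ne hu
  · have h1 : u ^ r = 1 := by
      rw [← hu]
      exact pow_orderOf_eq_one u
    have h2 := congrArg (fun w : Fˣ => (w : F)) h1
    simpa using h2

end Cfsg.Agent.Helper80.THOMEGA
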