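import Mathlib
import Cfsg.Prelude.Def_GeometricClasses
import Cfsg.Agent.Helper69.E4Def
import Cfsg.Agent.Helper66.E4BASE1
import Cfsg.Agent.Helper66.E4BASE2

/-!
# PIECE F7 of CALL S6000 (helper69): an element of the normaliser of `E4 ι` whose `r`-th power
is scalar, `r ≥ 7` prime, is scalar (helper80)
-/

set_option autoImplicit false

namespace Cfsg.Agent.Helper80

open Cfsg.Agent.Helper69 Cfsg.Agent.Helper66
open scoped Matrix

/-- The fixed-point congruence for the conjugation action of an element `g` normalising the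
finite subgroup `E`, with `g ^ r` centralising `E`: `|E| ≡ |C_E(g)|` modulo the prime `r`. -/
theorem e4F7_card_modEq {G : Type*} [Group G] (E : Subgroup G) [Finite E] (g : G)
    (hg : g ∈ Subgroup.normalizer (E : Set G)) (r : ℕ) (hr : r.Prime)
    (hc : ∀ e ∈ E, g ^ r * e = e * g ^ r) :
    Nat.card E ≡ Nat.card ↥(E ⊓ Subgroup.centralizer {g}) [MOD r] := by
  classical
  have hfact : Fact r.Prime := ⟨hr⟩
  let ψ : MulAut ↥E := E.normalizerMonoidHom ⟨g, hg⟩
  have hψ : ∀ e : ↥E, ((ψ e : ↥E) : G) = g * (e : G) * g⁻¹ := fun e => rfl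
  have hψr : ψ ^ r = 1 := by
    have h1 : ψ ^ r = E.normalizerMonoidHom (⟨g, hg⟩ ^ r) := (map_pow _ _ _).symm
    rw [h1]
    apply MulEquiv.ext
    intro e
    apply Subtype.ext
    have hpow : (((⟨g, hg⟩ : ↥(Subgroup.normalizer (E : Set G))) ^ r :
        ↥(Subgroup.normalizer (E : Set G))) : G) = g ^ r := rfl
    show (((⟨g, hg⟩ : ↥(Subgroup.normalizer (E : Set G))) ^ r :
        ↥(Subgroup.normalizer (E : Set G))) : G) * (e : G) *
        (((⟨g, hg⟩ : ↥(Subgroup.normalizer (E : Set G))) ^ r :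
        ↥(Subgroup.normalizer (E : Set G))) : G)⁻¹ = (e : G)
    rw [hpow, hc e e.2, mul_inv_cancel_right]
  have hpg : IsPGroup r ↥(Subgroup.zpowers ψ) := by
    rintro ⟨γ, hγ⟩
    obtain ⟨m, rfl⟩ := Subgroup.mem_zpowers_iff.1 hγ
    refine ⟨1, ?_⟩
    apply Subtype.ext
    rw [pow_one, Subgroup.coe_pow, Subgroup.coe_one]
    show (ψ ^ m) ^ r = 1
    rw [← zpow_natCast, ← zpow_mul, mul_comm, zpow_mul, zpow_natCast, hψr, one_zpow]
  have hmod := hpg.card_modEq_card_fixedPoints ↥E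
  have hfixeq : Nat.card (MulAction.fixedPoints ↥(Subgroup.zpowers ψ) ↥E) =
      Nat.card ↥(E ⊓ Subgroup.centralizer {g}) := by
    apply Nat.card_congr
    refine
      { toFun := fun e => ⟨(e.1 : G), Subgroup.mem_inf.mpr ⟨e.1.2, ?_⟩⟩
        invFun := fun d => ⟨⟨(d : G), (Subgroup.mem_inf.mp d.2).1⟩, ?_⟩
        left_inv := fun e => rfl
        right_inv := fun d => rfl }
    · rw [Subgroup.mem_centralizer_singleton_iff]
      have he : ψ e.1 = e.1 := e.2 ⟨ψ, Subgroup.mem_zpowers ψ⟩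
      have h2 := congrArg Subtype.val he
      rw [hψ] at h2
      calc (e.1 : G) * g = (g * (e.1 : G) * g⁻¹) * g := by rw [h2]
        _ = g * (e.1 : G) := by group
    · have hd : (d : G) * g = g * (d : G) :=
        Subgroup.mem_centralizer_singleton_iff.mp (Subgroup.mem_inf.mp d.2).2
      have he : ψ ⟨(d : G), (Subgroup.mem_inf.mp d.2).1⟩ = ⟨(d : G), (Subgroup.mem_inf.mp d.2).1⟩ := by
        apply Subtype.ext
        rw [hψ]
        show g * (d : G) * g⁻¹ = (d : G)
        rw [← hd, mul_inv_cancel_right]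
      intro γ
      obtain ⟨γ, hγ⟩ := γ
      have h1 : Subgroup.zpowers ψ ≤ MulAction.stabilizer (MulAut ↥E)
          (⟨(d : G), (Subgroup.mem_inf.mp d.2).1⟩ : ↥E) :=
        Subgroup.zpowers_le.2 (MulAction.mem_stabilizer_iff.2 he)
      exact MulAction.mem_stabilizer_iff.1 (h1 hγ)
  rw [hfixeq] at hmod
  exact hmod

theorem e4F7_no_prime (r : ℕ) (hr : r.Prime) (hr7 : 7 ≤ r) : ¬ r ∣ 480 := by
  intro h
  have h1 : r ∣ 2 ^ 5 * (3 * 5) := h
  rcases (Nat.Prime.dvd_mul hr).1 h1 with h2 | h2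
  · have h4 := Nat.le_of_dvd (by norm_num) (hr.dvd_of_dvd_pow h2)
    omega
  · rcases (Nat.Prime.dvd_mul hr).1 h2 with h3 | h3
    · have h4 := Nat.le_of_dvd (by norm_num) h3
      omega
    · have h4 := Nat.le_of_dvd (by norm_num) h3
      omega

theorem e4F7_prime_56 (r : ℕ) (hr : r.Prime) (hr7 : 7 ≤ r) (h : r ∣ 56) : r = 7 := by
  have h1 : r ∣ 2 ^ 3 * 7 := h
  rcases (Nat.Prime.dvd_mul hr).1 h1 with h2 | h2
  · have h4 := Nat.le_of_dvd (by norm_num) (hr.dvd_of_dvd_pow h2)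
    omega
  · exact (Nat.prime_dvd_prime_iff_eq hr (by norm_num)).mp h2

/-- Scalar matrices are central. -/
theorem e4F7_comm_scalar {F : Type*} [Field F] (s : GL (Fin 4) F) (c : F)
    (hs : (s : Matrix (Fin 4) (Fin 4) F) = c • (1 : Matrix (Fin 4) (Fin 4) F))
    (e : GL (Fin 4) F) : s * e = e * s := by
  apply Units.ext
  rw [Units.val_mul, Units.val_mul, hs, Matrix.smul_mul, Matrix.mul_smul, one_mul, mul_one]

/-- Two elements of `E4 ι` commute or anticommute. -/
theorem e4F7_comm_or_anti {F : Type*} [Field F] (ι : F) (hι : ι ^ 2 = -1)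
    (x c : GL (Fin 4) F) (hx : x ∈ E4 ι) (hc : c ∈ E4 ι) :
    (x : Matrix (Fin 4) (Fin 4) F) * (c : Matrix (Fin 4) (Fin 4) F) =
        (c : Matrix (Fin 4) (Fin 4) F) * (x : Matrix (Fin 4) (Fin 4) F) ∨
      (x : Matrix (Fin 4) (Fin 4) F) * (c : Matrix (Fin 4) (Fin 4) F) =
        -((c : Matrix (Fin 4) (Fin 4) F) * (x : Matrix (Fin 4) (Fin 4) F)) := by
  obtain ⟨a, b1, c1, d1, e1, hx'⟩ := (e4_mem_iff ι hι x).mp hx
  obtain ⟨a', b2, c2, d2, e2, hc'⟩ := (e4_mem_iff ι hι c).mp hc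
  rw [hx', hc', e4_normal_mul ι hι, e4_normal_mul ι hι]
  have e1' : a + a' + (2 * (c1 * b2) + 2 * (e1 * d2)) = 2 * (c1 * b2 + e1 * d2) + (a + a') := by
    ring
  have e2' : a' + a + (2 * (c2 * b1) + 2 * (e2 * d1)) = 2 * (c2 * b1 + e2 * d1) + (a + a') := by
    ring
  have p1 : ι ^ (a + a' + (2 * (c1 * b2) + 2 * (e1 * d2))) =
      (-1) ^ (c1 * b2 + e1 * d2) * ι ^ (a + a') := by
    rw [e1', pow_add, pow_mul, hι]
  have p2 : ι ^ (a' + a + (2 * (c2 * b1) + 2 * (e2 * d1))) =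
      (-1) ^ (c2 * b1 + e2 * d1) * ι ^ (a + a') := by
    rw [e2', pow_add, pow_mul, hι]
  rw [p1, p2, Nat.add_comm b2 b1, Nat.add_comm c2 c1, Nat.add_comm d2 d1, Nat.add_comm e2 e1]
  rcases neg_one_pow_eq_or F (c1 * b2 + e1 * d2) with h | h <;>
    rcases neg_one_pow_eq_or F (c2 * b1 + e2 * d1) with h' | h' <;>
    rw [h, h'] <;> simp

/-- The case `|C_{E4}(g)| = 8`, `r = 7` is impossible. -/
theorem e4F7_no_eight {F : Type*} [Field F] (h2 : (2 : F) ≠ 0) (ι : F) (hι : ι ^ 2 = -1)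
    (g : GL (Fin 4) F)
    (hgN : g ∈ Subgroup.normalizer ((E4 ι : Subgroup (GL (Fin 4) F)) : Set (GL (Fin 4) F)))
    (hg7 : ∀ e : GL (Fin 4) F, g ^ 7 * e = e * g ^ 7)
    (hI4 : orderOf (e4gI ι hι) = 4)
    (h8 : Nat.card ↥(E4 ι ⊓ Subgroup.centralizer {g}) = 8) : False := by
  classical
  have hcard : Nat.card (E4 ι) = 64 := e4_card h2 ι hι
  have hfin : Finite ↥(E4 ι) := Nat.finite_of_card_ne_zero (by rw [hcard]; norm_num)
  have hfinD : Finite ↥(E4 ι ⊓ Subgroup.centralizer {g}) :=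
    Nat.finite_of_card_ne_zero (by rw [h8]; norm_num)
  have hZD : Subgroup.zpowers (e4gI ι hι) ≤ E4 ι ⊓ Subgroup.centralizer {g} := by
    rw [Subgroup.zpowers_le]
    exact Subgroup.mem_inf.mpr ⟨e4gI_mem ι hι, Subgroup.mem_centralizer_singleton_iff.mpr
      (e4F7_comm_scalar _ ι rfl g)⟩
  have hZcard : Nat.card (Subgroup.zpowers (e4gI ι hι)) = 4 := by
    rw [Nat.card_zpowers, hI4]
  -- an element of `D` outside the scalars
  obtain ⟨c, hcD, hcZ⟩ : ∃ c ∈ E4 ι ⊓ Subgroup.centralizer {g},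
      c ∉ Subgroup.zpowers (e4gI ι hι) := by
    by_contra hcon
    push Not at hcon
    have hle : E4 ι ⊓ Subgroup.centralizer {g} ≤ Subgroup.zpowers (e4gI ι hι) := hcon
    have hfinZ : Finite ↥(Subgroup.zpowers (e4gI ι hι)) :=
      Nat.finite_of_card_ne_zero (by rw [hZcard]; norm_num)
    have h1 := Subgroup.card_le_of_le hle
    rw [h8, hZcard] at h1
    omega
  have hcE : c ∈ E4 ι := (Subgroup.mem_inf.mp hcD).1
  have hcg : c * g = g * c := Subgroup.mem_centralizer_singleton_iff.mp (Subgroup.mem_inf.mp hcD).2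
  -- `c` is not scalar
  have hgIk : ∀ k : ℕ, ((e4gI ι hι ^ k : GL (Fin 4) F) : Matrix (Fin 4) (Fin 4) F) =
      ι ^ k • (1 : Matrix (Fin 4) (Fin 4) F) := by
    intro k
    rw [Units.val_pow_eq_pow_val]
    show (ι • (1 : Matrix (Fin 4) (Fin 4) F)) ^ k = _
    rw [smul_pow, one_pow]
  have hcns : ∀ s : F, (c : Matrix (Fin 4) (Fin 4) F) ≠ s • (1 : Matrix (Fin 4) (Fin 4) F) := by
    intro s hs
    apply hcZ
    have hkey : ∀ k : ℕ, s = ι ^ k → c ∈ Subgroup.zpowers (e4gI ι hι) := by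
      intro k hk
      have : c = e4gI ι hι ^ k := by
        apply Units.ext
        rw [hgIk, hs, hk]
      rw [this]
      exact Subgroup.npow_mem_zpowers _ k
    have hsq := e4_sq ι hι c hcE
    rw [hs, smul_pow, one_pow] at hsq
    rcases hsq with h | h
    · have h1 : s ^ 2 = 1 := by
        have := congrFun (congrFun h 0) 0
        simpa using this
      have h3 : (s - 1) * (s + 1) = 0 := by linear_combination h1
      rcases mul_eq_zero.mp h3 with h4 | h4
      · exact hkey 0 (by rw [pow_zero]; linear_combination h4)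
      · exact hkey 2 (by rw [hι]; linear_combination h4)
    · have h1 : s ^ 2 = -1 := by
        have := congrFun (congrFun h 0) 0
        simpa using this
      have h3 : (s - ι) * (s + ι) = 0 := by linear_combination h1 - hι
      rcases mul_eq_zero.mp h3 with h4 | h4
      · exact hkey 1 (by rw [pow_one]; linear_combination h4)
      · exact hkey 3 (by
          have : ι ^ 3 = -ι := by
            have : ι ^ 3 = ι ^ 2 * ι := by ring
            rw [this, hι]; ring
          rw [this]; linear_combination h4)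
  -- an element of `E4 ι` not commuting with `c`
  obtain ⟨a₀, ha₀E, ha₀⟩ : ∃ a₀ ∈ E4 ι, ¬ (c * a₀ = a₀ * c) := by
    by_contra hcon
    push Not at hcon
    have hv : ∀ u : GL (Fin 4) F, u ∈ E4 ι →
        (c : Matrix (Fin 4) (Fin 4) F) * (u : Matrix (Fin 4) (Fin 4) F) =
          (u : Matrix (Fin 4) (Fin 4) F) * (c : Matrix (Fin 4) (Fin 4) F) := by
      intro u hu
      have := congrArg Units.val (hcon u hu)
      rwa [Units.val_mul, Units.val_mul] at this
    obtain ⟨s, hs⟩ := e4_scalar_of_commute h2 (c : Matrix (Fin 4) (Fin 4) F)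
      (hv _ (e4gX1_mem ι)) (hv _ (e4gZ1_mem ι)) (hv _ (e4gX2_mem ι)) (hv _ (e4gZ2_mem ι))
    exact hcns s hs
  -- products of two elements not commuting with `c` commute with `c`
  have hF1 : ∀ x ∈ E4 ι, ∀ y ∈ E4 ι, ¬ (c * x = x * c) → ¬ (c * y = y * c) →
      c * (x * y) = (x * y) * c := by
    intro x hx y hy hxc hyc
    have hx' : (x : Matrix (Fin 4) (Fin 4) F) * (c : Matrix (Fin 4) (Fin 4) F) =
        -((c : Matrix (Fin 4) (Fin 4) F) * (x : Matrix (Fin 4) (Fin 4) F)) := by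
      rcases e4F7_comm_or_anti ι hι x c hx hcE with h | h
      · exfalso
        apply hxc
        apply Units.ext
        rw [Units.val_mul, Units.val_mul]
        exact h.symm
      · exact h
    have hy' : (y : Matrix (Fin 4) (Fin 4) F) * (c : Matrix (Fin 4) (Fin 4) F) =
        -((c : Matrix (Fin 4) (Fin 4) F) * (y : Matrix (Fin 4) (Fin 4) F)) := by
      rcases e4F7_comm_or_anti ι hι y c hy hcE with h | h
      · exfalso
        apply hyc
        apply Units.ext
        rw [Units.val_mul, Units.val_mul]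
        exact h.symm
      · exact h
    apply Units.ext
    rw [Units.val_mul, Units.val_mul, Units.val_mul]
    symm
    calc (x : Matrix (Fin 4) (Fin 4) F) * (y : Matrix (Fin 4) (Fin 4) F) *
          (c : Matrix (Fin 4) (Fin 4) F)
        = (x : Matrix (Fin 4) (Fin 4) F) *
          ((y : Matrix (Fin 4) (Fin 4) F) * (c : Matrix (Fin 4) (Fin 4) F)) := by
          rw [mul_assoc]
      _ = -((x : Matrix (Fin 4) (Fin 4) F) * (c : Matrix (Fin 4) (Fin 4) F) *
          (y : Matrix (Fin 4) (Fin 4) F)) := by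
          rw [hy', mul_neg, mul_assoc]
      _ = (c : Matrix (Fin 4) (Fin 4) F) * ((x : Matrix (Fin 4) (Fin 4) F) *
          (y : Matrix (Fin 4) (Fin 4) F)) := by
          rw [hx', neg_mul, neg_neg, mul_assoc]
  -- the centraliser of `c` in `E4 ι` has index `2`
  have hKle : E4 ι ⊓ Subgroup.centralizer {c} ≤ E4 ι := inf_le_left
  have hmemK : ∀ u : ↥(E4 ι), u ∈ (E4 ι ⊓ Subgroup.centralizer {c}).subgroupOf (E4 ι) ↔
      c * (u : GL (Fin 4) F) = (u : GL (Fin 4) F) * c := by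
    intro u
    rw [Subgroup.mem_subgroupOf, Subgroup.mem_inf, Subgroup.mem_centralizer_singleton_iff]
    constructor
    · intro h
      exact h.2.symm
    · intro h
      exact ⟨u.2, h.symm⟩
  have hidx : ((E4 ι ⊓ Subgroup.centralizer {c}).subgroupOf (E4 ι)).index = 2 := by
    rw [Subgroup.index_eq_two_iff]
    refine ⟨⟨a₀, ha₀E⟩, ?_⟩
    intro b
    rw [hmemK, hmemK]
    by_cases hb : c * (b : GL (Fin 4) F) = (b : GL (Fin 4) F) * c
    · right
      refine ⟨hb, ?_⟩
      intro hba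
      apply ha₀
      have h1 : c * ((b : GL (Fin 4) F) * a₀) = (b : GL (Fin 4) F) * a₀ * c := hba
      have h3 : (b : GL (Fin 4) F) * (c * a₀) = (b : GL (Fin 4) F) * (a₀ * c) := by
        rw [← mul_assoc, ← hb, mul_assoc, h1, mul_assoc]
      exact mul_left_cancel h3
    · left
      exact ⟨hF1 _ b.2 _ ha₀E hb ha₀, hb⟩
  have hKcard : Nat.card ↥(E4 ι ⊓ Subgroup.centralizer {c}) = 32 := by
    have h1 := ((E4 ι ⊓ Subgroup.centralizer {c}).subgroupOf (E4 ι)).card_mul_index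
    rw [hidx, hcard, Nat.card_congr (Subgroup.subgroupOfEquivOfLe hKle).toEquiv] at h1
    omega
  have hfinK : Finite ↥(E4 ι ⊓ Subgroup.centralizer {c}) :=
    Nat.finite_of_card_ne_zero (by rw [hKcard]; norm_num)
  -- `g` normalises it
  have hgK : g ∈ Subgroup.normalizer
      ((E4 ι ⊓ Subgroup.centralizer {c} : Subgroup (GL (Fin 4) F)) : Set (GL (Fin 4) F)) := by
    rw [Subgroup.mem_normalizer_iff]
    intro u
    rw [Subgroup.mem_inf, Subgroup.mem_inf, Subgroup.mem_centralizer_singleton_iff,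
      Subgroup.mem_centralizer_singleton_iff, ← (Subgroup.mem_normalizer_iff.mp hgN) u]
    have hgc : g⁻¹ * c = c * g⁻¹ := by
      calc g⁻¹ * c = g⁻¹ * (c * g) * g⁻¹ := by group
        _ = g⁻¹ * (g * c) * g⁻¹ := by rw [hcg]
        _ = c * g⁻¹ := by group
    constructor
    · rintro ⟨hu, huc⟩
      refine ⟨hu, ?_⟩
      calc g * u * g⁻¹ * c = g * u * (g⁻¹ * c) := by group
        _ = g * (u * c) * g⁻¹ := by rw [hgc]; group
        _ = g * (c * u) * g⁻¹ := by rw [huc]
        _ = (g * c) * u * g⁻¹ := by group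
        _ = c * (g * u * g⁻¹) := by rw [← hcg]; group
    · rintro ⟨hu, huc⟩
      refine ⟨hu, ?_⟩
      have h1 : g * (u * c) * g⁻¹ = g * (c * u) * g⁻¹ := by
        calc g * (u * c) * g⁻¹ = g * u * (c * g⁻¹) := by group
          _ = g * u * g⁻¹ * c := by rw [← hgc]; group
          _ = c * (g * u * g⁻¹) := huc
          _ = (c * g) * u * g⁻¹ := by group
          _ = g * (c * u) * g⁻¹ := by rw [hcg]; group
      exact mul_left_cancel (mul_right_cancel h1)
  have hmodK := e4F7_card_modEq (E4 ι ⊓ Subgroup.centralizer {c}) g hgK 7 (by norm_num)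
    (fun e _ => hg7 e)
  -- the fixed points in `K` are all of `D`
  have hDK : E4 ι ⊓ Subgroup.centralizer {g} ≤ Subgroup.centralizer {c} := by
    have hM4 : 4 ∣ Nat.card ↥((E4 ι ⊓ Subgroup.centralizer {g}) ⊓ Subgroup.centralizer {c}) := by
      have hZM : Subgroup.zpowers (e4gI ι hι) ≤
          (E4 ι ⊓ Subgroup.centralizer {g}) ⊓ Subgroup.centralizer {c} := by
        refine le_inf hZD ?_
        rw [Subgroup.zpowers_le, Subgroup.mem_centralizer_singleton_iff]
        exact e4F7_comm_scalar _ ι rfl c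
      have := Subgroup.card_dvd_of_le hZM
      rwa [hZcard] at this
    have hM8 : Nat.card ↥((E4 ι ⊓ Subgroup.centralizer {g}) ⊓ Subgroup.centralizer {c}) ∣ 8 := by
      have := Subgroup.card_dvd_of_le
        (inf_le_left : (E4 ι ⊓ Subgroup.centralizer {g}) ⊓ Subgroup.centralizer {c} ≤
          E4 ι ⊓ Subgroup.centralizer {g})
      rwa [h8] at this
    have hMne : Nat.card ↥((E4 ι ⊓ Subgroup.centralizer {g}) ⊓ Subgroup.centralizer {c}) ≠ 4 := by
      intro h4
      have hZM : Subgroup.zpowers (e4gI ι hι) ≤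
          (E4 ι ⊓ Subgroup.centralizer {g}) ⊓ Subgroup.centralizer {c} := by
        refine le_inf hZD ?_
        rw [Subgroup.zpowers_le, Subgroup.mem_centralizer_singleton_iff]
        exact e4F7_comm_scalar _ ι rfl c
      have hfinM : Finite ↥((E4 ι ⊓ Subgroup.centralizer {g}) ⊓ Subgroup.centralizer {c}) :=
        Nat.finite_of_card_ne_zero (by rw [h4]; norm_num)
      have heq := Subgroup.eq_of_le_of_card_ge hZM (by rw [h4, hZcard])
      apply hcZ
      rw [heq]
      exact Subgroup.mem_inf.mpr ⟨hcD, Subgroup.mem_centralizer_singleton_iff.mpr rfl⟩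
    have hM : Nat.card ↥((E4 ι ⊓ Subgroup.centralizer {g}) ⊓ Subgroup.centralizer {c}) = 8 := by
      have hle := Nat.le_of_dvd (by norm_num) hM8
      obtain ⟨k, hk⟩ := hM4
      rw [hk] at hM8 hMne hle ⊢
      have hk2 : k ≤ 2 := by omega
      interval_cases k
      · simp at hM8
      · exact absurd rfl hMne
      · rfl
    have heq := Subgroup.eq_of_le_of_card_ge
      (inf_le_left : (E4 ι ⊓ Subgroup.centralizer {g}) ⊓ Subgroup.centralizer {c} ≤
          E4 ι ⊓ Subgroup.centralizer {g}) (by rw [hM, h8])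
    rw [← heq]
    exact inf_le_right
  have hfixK : (E4 ι ⊓ Subgroup.centralizer {c}) ⊓ Subgroup.centralizer {g} =
      E4 ι ⊓ Subgroup.centralizer {g} := by
    apply le_antisymm
    · exact le_inf (inf_le_left.trans inf_le_left) inf_le_right
    · exact le_inf (le_inf inf_le_left hDK) inf_le_right
  rw [hfixK, hKcard, h8] at hmodK
  exact absurd hmodK (by decide)

/-- PIECE F7 of CALL S6000. -/
theorem e4_normalizer_scalar {F : Type*} [Field F] (h2 : (2 : F) ≠ 0) (ι : F) (hι : ι ^ 2 = -1)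
    (g : GL (Fin 4) F) (hg : g ∈ Cfsg.Geo.subgroupNormalizer (E4 ι)) (r : ℕ) (hr : r.Prime)
    (hr7 : 7 ≤ r) (z : F)
    (hz : ((g ^ r : GL (Fin 4) F) : Matrix (Fin 4) (Fin 4) F) = z • (1 : Matrix (Fin 4) (Fin 4) F)) :
    ∃ c : F, (g : Matrix (Fin 4) (Fin 4) F) = c • (1 : Matrix (Fin 4) (Fin 4) F) := by
  classical
  have hcard : Nat.card (E4 ι) = 64 := e4_card h2 ι hι
  have hfin : Finite ↥(E4 ι) := Nat.finite_of_card_ne_zero (by rw [hcard]; norm_num)
  have hgN : g ∈ Subgroup.normalizer ((E4 ι : Subgroup (GL (Fin 4) F)) : Set (GL (Fin 4) F)) :=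
    hg
  have hmodD := e4F7_card_modEq (E4 ι) g hgN r hr
    (fun e _ => e4F7_comm_scalar (g ^ r) z hz e)
  rw [hcard] at hmodD
  have hDle : E4 ι ⊓ Subgroup.centralizer {g} ≤ E4 ι := inf_le_left
  have hDdvd : Nat.card ↥(E4 ι ⊓ Subgroup.centralizer {g}) ∣ 2 ^ 6 := by
    have := Subgroup.card_dvd_of_le hDle
    rw [hcard] at this
    exact this
  -- the scalar `ι` has order `4`
  have hgIk : ∀ k : ℕ, ((e4gI ι hι ^ k : GL (Fin 4) F) : Matrix (Fin 4) (Fin 4) F) =
      ι ^ k • (1 : Matrix (Fin 4) (Fin 4) F) := by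
    intro k
    rw [Units.val_pow_eq_pow_val]
    show (ι • (1 : Matrix (Fin 4) (Fin 4) F)) ^ k = _
    rw [smul_pow, one_pow]
  have hI4 : orderOf (e4gI ι hι) = 4 := by
    have hfact2 : Fact (Nat.Prime 2) := ⟨Nat.prime_two⟩
    have h1 : ¬ (e4gI ι hι) ^ 2 ^ 1 = 1 := by
      intro h
      have h3 := congrArg Units.val h
      rw [pow_one, hgIk, hι] at h3
      have h4 := congrFun (congrFun h3 0) 0
      simp at h4
      apply h2
      linear_combination -h4
    have h2' : (e4gI ι hι) ^ 2 ^ (1 + 1) = 1 := by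
      apply Units.ext
      have : (2 : ℕ) ^ (1 + 1) = 4 := by norm_num
      rw [this, hgIk, e4_iota_pow_four ι hι, one_smul]
      rfl
    have := orderOf_eq_prime_pow h1 h2'
    rw [this]
    norm_num
  have hI : e4gI ι hι ∈ E4 ι ⊓ Subgroup.centralizer {g} :=
    Subgroup.mem_inf.mpr ⟨e4gI_mem ι hι, Subgroup.mem_centralizer_singleton_iff.mpr
      (e4F7_comm_scalar _ ι rfl g)⟩
  have h4D : 4 ∣ Nat.card ↥(E4 ι ⊓ Subgroup.centralizer {g}) := by
    have := orderOf_dvd_natCard (⟨e4gI ι hι, hI⟩ : ↥(E4 ι ⊓ Subgroup.centralizer {g}))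
    rwa [Subgroup.orderOf_mk, hI4] at this
  obtain ⟨j, hj6, hj⟩ := (Nat.dvd_prime_pow Nat.prime_two).1 hDdvd
  have hno : ∀ n : ℕ, n ∣ 480 → ¬ r ∣ n := fun n hn h =>
    e4F7_no_prime r hr hr7 (h.trans hn)
  interval_cases j
  · rw [hj] at h4D
    norm_num at h4D
  · rw [hj] at h4D
    norm_num at h4D
  · exfalso
    rw [hj] at hmodD
    have h1 : r ∣ 64 - 2 ^ 2 := (Nat.modEq_iff_dvd' (by norm_num)).1 hmodD.symm
    exact hno _ (by norm_num) h1
  · exfalso
    rw [hj] at hmodD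
    have h1 : r ∣ 64 - 2 ^ 3 := (Nat.modEq_iff_dvd' (by norm_num)).1 hmodD.symm
    have hr7' : r = 7 := e4F7_prime_56 r hr hr7 h1
    subst hr7'
    exact e4F7_no_eight h2 ι hι g hgN (fun e => e4F7_comm_scalar (g ^ 7) z hz e) hI4
      (by rw [hj]; norm_num)
  · exfalso
    rw [hj] at hmodD
    have h1 : r ∣ 64 - 2 ^ 4 := (Nat.modEq_iff_dvd' (by norm_num)).1 hmodD.symm
    exact hno _ (by norm_num) h1
  · exfalso
    rw [hj] at hmodD
    have h1 : r ∣ 64 - 2 ^ 5 := (Nat.modEq_iff_dvd' (by norm_num)).1 hmodD.symm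
    exact hno _ (by norm_num) h1
  · have hDtop : E4 ι ⊓ Subgroup.centralizer {g} = E4 ι :=
      Subgroup.eq_of_le_of_card_ge hDle (by rw [hj, hcard]; norm_num)
    have hcommE : ∀ e : GL (Fin 4) F, e ∈ E4 ι →
        (g : Matrix (Fin 4) (Fin 4) F) * (e : Matrix (Fin 4) (Fin 4) F) =
          (e : Matrix (Fin 4) (Fin 4) F) * (g : Matrix (Fin 4) (Fin 4) F) := by
      intro e he
      have h1 : e ∈ E4 ι ⊓ Subgroup.centralizer {g} := by
        rw [hDtop]
        exact he
      have h3 := Subgroup.mem_centralizer_singleton_iff.mp (Subgroup.mem_inf.mp h1).2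
      have h4 := congrArg Units.val h3
      rw [Units.val_mul, Units.val_mul] at h4
      exact h4.symm
    exact e4_scalar_of_commute h2 (g : Matrix (Fin 4) (Fin 4) F)
      (hcommE _ (e4gX1_mem ι)) (hcommE _ (e4gZ1_mem ι)) (hcommE _ (e4gX2_mem ι))
      (hcommE _ (e4gZ2_mem ι))

end Cfsg.Agent.Helper80
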