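import Cfsg.Agent.Helper80.B2N

/-!
# Piece C of CALL S1083 (helper64): every root element of `G5` is a commutator in `O5`
-/

set_option autoImplicit false

open Matrix Cfsg Cfsg.Lie

namespace Cfsg.Agent.Helper80

open Cfsg.Agent.Helper64.B2

variable {F : Type*} [Field F]

/-- **Piece C of CALL S1083.** -/
theorem b2_root_commutator (hF : ∃ a : F, a ≠ 0 ∧ a ≠ 1) (r : ℕ) (hr : r < 8) (t : F) :
    ∃ a ∈ O5 F, ∃ b ∈ O5 F, xg r t = a * b * a⁻¹ * b⁻¹ := by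
  obtain ⟨c, hc0, hc1⟩ := hF
  have h1 : ((1 : Fˣ) : F) ^ 2 = 1 := by
    rw [Units.val_one, one_pow]
  have step : ∀ (d : GL (Fin 5) F) (χ : F), d ∈ O5 F → χ ≠ 1 →
      (∀ s : F, d * xg r s * d⁻¹ = xg r (χ * s)) →
      ∃ a ∈ O5 F, ∃ b ∈ O5 F, xg r t = a * b * a⁻¹ * b⁻¹ := by
    intro d χ hd hχ hconj
    have hχ' : χ - 1 ≠ 0 := sub_ne_zero.mpr hχ
    refine ⟨d, hd, xg r (t / (χ - 1)), xg_mem_O5 _ _, ?_⟩
    rw [hconj, xg_inv, xg_add]
    congr 1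
    field_simp
    ring
  have hcinv : c⁻¹ ≠ 1 := fun h => hc1 (inv_eq_one.mp h)
  have hu : ((Units.mk0 c hc0 : Fˣ) : F) = c := Units.val_mk0 hc0
  have hd1 : dg (1 : Fˣ) (Units.mk0 c hc0) 1 ∈ O5 F := dg_mem_O5 _ _ _ h1
  have hd2 : dg (1 : Fˣ) 1 (Units.mk0 c hc0) ∈ O5 F := dg_mem_O5 _ _ _ h1
  interval_cases r
  · refine step _ c⁻¹ hd1 hcinv (fun s => ?_)
    rw [b2N_conj _ _ _ h1 0 (by norm_num)]
    congr 2
    simp [b2chi]
  · refine step _ c⁻¹ hd1 hcinv (fun s => ?_)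
    rw [b2N_conj _ _ _ h1 1 (by norm_num)]
    congr 2
    simp [b2chi]
  · refine step _ c⁻¹ hd2 hcinv (fun s => ?_)
    rw [b2N_conj _ _ _ h1 2 (by norm_num)]
    congr 2
    simp [b2chi]
  · refine step _ c⁻¹ hd1 hcinv (fun s => ?_)
    rw [b2N_conj _ _ _ h1 3 (by norm_num)]
    congr 2
    simp [b2chi]
  · refine step _ c hd1 hc1 (fun s => ?_)
    rw [b2N_conj _ _ _ h1 4 (by norm_num)]
    congr 2
    simp [b2chi]
  · refine step _ c hd2 hc1 (fun s => ?_)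
    rw [b2N_conj _ _ _ h1 5 (by norm_num)]
    congr 2
    simp [b2chi]
  · refine step _ c hd1 hc1 (fun s => ?_)
    rw [b2N_conj _ _ _ h1 6 (by norm_num)]
    congr 2
    simp [b2chi]
  · refine step _ c hd1 hc1 (fun s => ?_)
    rw [b2N_conj _ _ _ h1 7 (by norm_num)]
    congr 2
    simp [b2chi]

end Cfsg.Agent.Helper80
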