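import Cfsg.Agent.Helper64.B2Defs

/-!
# Piece N of CALL S1083 (helper64): diagonal elements normalise the root subgroups of `G5`
-/

set_option autoImplicit false

open Matrix Cfsg Cfsg.Lie

namespace Cfsg.Agent.Helper80

open Cfsg.Agent.Helper64.B2

variable {F : Type*} [Field F]

/-- The character by which `diag(e, a, a⁻¹, b, b⁻¹)` acts on the root subgroup `r`. -/
def b2chi (e a b : Fˣ) (r : ℕ) : F :=
  match r with
  | 0 => (a : F)⁻¹ * (b : F)⁻¹
  | 1 => (e : F) * (a : F)⁻¹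
  | 2 => (e : F) * (b : F)⁻¹
  | 3 => (b : F) * (a : F)⁻¹
  | 4 => (a : F) * (b : F)⁻¹
  | 5 => (e : F) * (b : F)
  | 6 => (e : F) * (a : F)
  | 7 => (a : F) * (b : F)
  | _ => 1

theorem b2N_sign (e : Fˣ) (he : (e : F) ^ 2 = 1) : (e : F) = 1 ∨ (e : F) = -1 := by
  have h1 : ((e : F) - 1) * ((e : F) + 1) = 0 := by linear_combination he
  rcases mul_eq_zero.mp h1 with h | h
  · left
    linear_combination h
  · right
    linear_combination h

set_option maxHeartbeats 1600000 in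
theorem b2N_conj_0 (e a b : Fˣ) (he : (e : F) ^ 2 = 1) (t : F) :
    dg e a b * xg 0 t * (dg e a b)⁻¹ = xg 0 (b2chi e a b 0 * t) := by
  have hE := b2N_sign e he
  have ha : (a : F) ≠ 0 := a.ne_zero
  have hb : (b : F) ≠ 0 := b.ne_zero
  apply Units.ext
  rw [Units.val_mul, Units.val_mul, dg_inv, dg_val, dg_val, xg_val, xg_val]
  ext i j
  rw [Matrix.mul_diagonal, Matrix.diagonal_mul]
  rcases hE with h | h <;> fin_cases i <;> fin_cases j <;>
    simp [xm, b2chi, h] <;> (try field_simp)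

set_option maxHeartbeats 1600000 in
theorem b2N_conj_1 (e a b : Fˣ) (he : (e : F) ^ 2 = 1) (t : F) :
    dg e a b * xg 1 t * (dg e a b)⁻¹ = xg 1 (b2chi e a b 1 * t) := by
  have hE := b2N_sign e he
  have ha : (a : F) ≠ 0 := a.ne_zero
  have hb : (b : F) ≠ 0 := b.ne_zero
  apply Units.ext
  rw [Units.val_mul, Units.val_mul, dg_inv, dg_val, dg_val, xg_val, xg_val]
  ext i j
  rw [Matrix.mul_diagonal, Matrix.diagonal_mul]
  rcases hE with h | h <;> fin_cases i <;> fin_cases j <;>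
    simp [xm, b2chi, h] <;> (try field_simp)

set_option maxHeartbeats 1600000 in
theorem b2N_conj_2 (e a b : Fˣ) (he : (e : F) ^ 2 = 1) (t : F) :
    dg e a b * xg 2 t * (dg e a b)⁻¹ = xg 2 (b2chi e a b 2 * t) := by
  have hE := b2N_sign e he
  have ha : (a : F) ≠ 0 := a.ne_zero
  have hb : (b : F) ≠ 0 := b.ne_zero
  apply Units.ext
  rw [Units.val_mul, Units.val_mul, dg_inv, dg_val, dg_val, xg_val, xg_val]
  ext i j
  rw [Matrix.mul_diagonal, Matrix.diagonal_mul]
  rcases hE with h | h <;> fin_cases i <;> fin_cases j <;>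
    simp [xm, b2chi, h] <;> (try field_simp)

set_option maxHeartbeats 1600000 in
theorem b2N_conj_3 (e a b : Fˣ) (he : (e : F) ^ 2 = 1) (t : F) :
    dg e a b * xg 3 t * (dg e a b)⁻¹ = xg 3 (b2chi e a b 3 * t) := by
  have hE := b2N_sign e he
  have ha : (a : F) ≠ 0 := a.ne_zero
  have hb : (b : F) ≠ 0 := b.ne_zero
  apply Units.ext
  rw [Units.val_mul, Units.val_mul, dg_inv, dg_val, dg_val, xg_val, xg_val]
  ext i j
  rw [Matrix.mul_diagonal, Matrix.diagonal_mul]
  rcases hE with h | h <;> fin_cases i <;> fin_cases j <;>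
    simp [xm, b2chi, h] <;> (try field_simp)

set_option maxHeartbeats 1600000 in
theorem b2N_conj_4 (e a b : Fˣ) (he : (e : F) ^ 2 = 1) (t : F) :
    dg e a b * xg 4 t * (dg e a b)⁻¹ = xg 4 (b2chi e a b 4 * t) := by
  have hE := b2N_sign e he
  have ha : (a : F) ≠ 0 := a.ne_zero
  have hb : (b : F) ≠ 0 := b.ne_zero
  apply Units.ext
  rw [Units.val_mul, Units.val_mul, dg_inv, dg_val, dg_val, xg_val, xg_val]
  ext i j
  rw [Matrix.mul_diagonal, Matrix.diagonal_mul]
  rcases hE with h | h <;> fin_cases i <;> fin_cases j <;>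
    simp [xm, b2chi, h] <;> (try field_simp)

set_option maxHeartbeats 1600000 in
theorem b2N_conj_5 (e a b : Fˣ) (he : (e : F) ^ 2 = 1) (t : F) :
    dg e a b * xg 5 t * (dg e a b)⁻¹ = xg 5 (b2chi e a b 5 * t) := by
  have hE := b2N_sign e he
  have ha : (a : F) ≠ 0 := a.ne_zero
  have hb : (b : F) ≠ 0 := b.ne_zero
  apply Units.ext
  rw [Units.val_mul, Units.val_mul, dg_inv, dg_val, dg_val, xg_val, xg_val]
  ext i j
  rw [Matrix.mul_diagonal, Matrix.diagonal_mul]
  rcases hE with h | h <;> fin_cases i <;> fin_cases j <;>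
    simp [xm, b2chi, h] <;> (try field_simp)

set_option maxHeartbeats 1600000 in
theorem b2N_conj_6 (e a b : Fˣ) (he : (e : F) ^ 2 = 1) (t : F) :
    dg e a b * xg 6 t * (dg e a b)⁻¹ = xg 6 (b2chi e a b 6 * t) := by
  have hE := b2N_sign e he
  have ha : (a : F) ≠ 0 := a.ne_zero
  have hb : (b : F) ≠ 0 := b.ne_zero
  apply Units.ext
  rw [Units.val_mul, Units.val_mul, dg_inv, dg_val, dg_val, xg_val, xg_val]
  ext i j
  rw [Matrix.mul_diagonal, Matrix.diagonal_mul]
  rcases hE with h | h <;> fin_cases i <;> fin_cases j <;>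
    simp [xm, b2chi, h] <;> (try field_simp)

set_option maxHeartbeats 1600000 in
theorem b2N_conj_7 (e a b : Fˣ) (he : (e : F) ^ 2 = 1) (t : F) :
    dg e a b * xg 7 t * (dg e a b)⁻¹ = xg 7 (b2chi e a b 7 * t) := by
  have hE := b2N_sign e he
  have ha : (a : F) ≠ 0 := a.ne_zero
  have hb : (b : F) ≠ 0 := b.ne_zero
  apply Units.ext
  rw [Units.val_mul, Units.val_mul, dg_inv, dg_val, dg_val, xg_val, xg_val]
  ext i j
  rw [Matrix.mul_diagonal, Matrix.diagonal_mul]
  rcases hE with h | h <;> fin_cases i <;> fin_cases j <;>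
    simp [xm, b2chi, h] <;> (try field_simp)

/-- Conjugation of a root element by a diagonal element, with the explicit character. -/
theorem b2N_conj (e a b : Fˣ) (he : (e : F) ^ 2 = 1) (r : ℕ) (hr : r < 8) (t : F) :
    dg e a b * xg r t * (dg e a b)⁻¹ = xg r (b2chi e a b r * t) := by
  interval_cases r
  · exact b2N_conj_0 e a b he t
  · exact b2N_conj_1 e a b he t
  · exact b2N_conj_2 e a b he t
  · exact b2N_conj_3 e a b he t
  · exact b2N_conj_4 e a b he t
  · exact b2N_conj_5 e a b he t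
  · exact b2N_conj_6 e a b he t
  · exact b2N_conj_7 e a b he t

/-- **Piece N of CALL S1083.** -/
theorem b2_dg_conj (e a b : Fˣ) (he : (e : F) ^ 2 = 1) (r : ℕ) (hr : r < 8) (t : F) :
    ∃ t' : F, dg e a b * xg r t * (dg e a b)⁻¹ = xg r t' :=
  ⟨_, b2N_conj e a b he r hr t⟩

end Cfsg.Agent.Helper80
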