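import Cfsg.Agent.Helper1.BGUniqA
import Cfsg.Agent.Helper25.CN

/-! Piece FE1 of CALL BG17 (helper25; row S1381). -/

set_option autoImplicit false

namespace Cfsg.Agent.Helper80

open Cfsg Subgroup

universe u

variable {G : Type u} [Group G] [Finite G]

/-- FE1 (pure). For a normal Hall subgroup `S` of `M` inside `F(M)`:
`F(M) ≤ S C_M(S)`.  (`x = (x ^ m) ^ b * (x ^ n) ^ a` with `n = |S|`, `m = |M : S|`,
`n a + m b = 1`; `x ^ m ∈ S`, and `x ^ n` has order dividing `m`, so commutes with `S` in the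
nilpotent group `F(M)`.) -/
theorem bg17_fitting_le_sup (M S : Subgroup G) (hS : S ≤ fittingOf M)
    (hSn : M ≤ normalizer (S : Set G)) (hHall : (Nat.card S).Coprime (S.relIndex M)) :
    fittingOf M ≤ S ⊔ (M ⊓ centralizer (S : Set G)) := by
  have hFM := Cfsg.Agent.Helper1.bgu_fittingOf_le M
  have hFnil := Cfsg.Agent.Helper1.bgu_fittingOf_isNilpotent M
  have hSM : S ≤ M := hS.trans hFM
  intro x hx
  have hxM : x ∈ M := hFM hx
  have h1 : x ^ (S.relIndex M) ∈ S := by
    have : (S.subgroupOf M).Normal := (Subgroup.normal_subgroupOf_iff_le_normalizer hSM).mpr hSn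
    have h := Subgroup.pow_index_mem (S.subgroupOf M) (⟨x, hxM⟩ : M)
    rw [Subgroup.mem_subgroupOf] at h
    exact h
  have hcard : Nat.card M = Nat.card S * S.relIndex M := by
    have h := Subgroup.card_mul_index (S.subgroupOf M)
    rw [Nat.card_congr (Subgroup.subgroupOfEquivOfLe hSM).toEquiv] at h
    exact h.symm
  have h2 : (x ^ Nat.card S) ^ (S.relIndex M) = 1 := by
    rw [← pow_mul, ← hcard]
    have h := pow_card_eq_one' (G := M) (x := ⟨x, hxM⟩)
    exact congrArg Subtype.val h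
  have h3 : x ^ Nat.card S ∈ M ⊓ centralizer (S : Set G) := by
    refine Subgroup.mem_inf.mpr ⟨M.pow_mem hxM _, ?_⟩
    rw [Subgroup.mem_centralizer_iff]
    intro s hs
    have hos : orderOf s ∣ Nat.card S := Subgroup.orderOf_dvd_natCard S hs
    have hox : orderOf (x ^ Nat.card S) ∣ S.relIndex M := orderOf_dvd_of_pow_eq_one h2
    have hc : (orderOf s).Coprime (orderOf (x ^ Nat.card S)) :=
      Nat.Coprime.coprime_dvd_left hos (Nat.Coprime.coprime_dvd_right hox hHall)
    exact (Cfsg.Agent.Helper25.commute_of_coprime_of_mem_nilpotent (fittingOf M) hFnil (hS hs)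
      ((fittingOf M).pow_mem hx _) hc).eq
  have hb : (Nat.card S : ℤ) * Nat.gcdA (Nat.card S) (S.relIndex M) +
      (S.relIndex M : ℤ) * Nat.gcdB (Nat.card S) (S.relIndex M) = 1 := by
    have h := Nat.gcd_eq_gcd_ab (Nat.card S) (S.relIndex M)
    rw [Nat.Coprime.gcd_eq_one hHall] at h
    exact_mod_cast h.symm
  have hx' : x = (x ^ (S.relIndex M)) ^ (Nat.gcdB (Nat.card S) (S.relIndex M)) *
      (x ^ Nat.card S) ^ (Nat.gcdA (Nat.card S) (S.relIndex M)) := by
    rw [← zpow_natCast x (S.relIndex M), ← zpow_natCast x (Nat.card S), ← zpow_mul, ← zpow_mul,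
      ← zpow_add]
    have h : (S.relIndex M : ℤ) * Nat.gcdB (Nat.card S) (S.relIndex M) +
        (Nat.card S : ℤ) * Nat.gcdA (Nat.card S) (S.relIndex M) = 1 := by linarith
    rw [h, zpow_one]
  rw [hx']
  exact Subgroup.mul_mem_sup (S.zpow_mem h1 _) (Subgroup.zpow_mem _ h3 _)

end Cfsg.Agent.Helper80
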