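import Cfsg.Agent.Helper16.BK
import Cfsg.Prelude.Def_Solvable

/-!
# Central characters on classes inside a normal `p`-subgroup (helper80)

* `convPow`, `convPow_coeff`, `omega_convPow`: convolution powers of an integer valued class
  function versus powers in the group algebra over a field.
* `centralChar_sub_index_memLocalIdeal_of_mem`: if `y` lies in a normal `p`-subgroup then
  `ω_ξ(y) ≡ |y^G|` modulo the local ideal at a `p`-modular `M`.
* `sameBlock_of_centralizer_pCore_le`: if `C_G(O_p(G)) ≤ O_p(G)` then all irreducible characters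
  lie in one `p`-block.
-/

set_option autoImplicit false
open Cfsg

namespace Cfsg.Agent.Helper80

universe u

open MonoidAlgebra

open Cfsg.Agent

variable {H : Type u} [Group H] [Fintype H]

/-- Convolution powers of a function on `H`. -/
noncomputable def convPow (a : H → ℂ) : ℕ → (H → ℂ)
  | 0 => Helper81.deltaOne 1
  | (k + 1) => Helper81.conv a (convPow a k)

theorem convPow_isClassFunction {a : H → ℂ} (ha : Cfsg.IsClassFunction H a) (k : ℕ) :
    Cfsg.IsClassFunction H (convPow a k) := by
  induction k with
  | zero => exact Helper81.deltaOne_isClassFunction 1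
  | succ k ih => exact Helper81.conv_isClassFunction ha ih

theorem omega_convPow (ψ : Cfsg.IrrCharacter H) {a : H → ℂ} (ha : Cfsg.IsClassFunction H a)
    (k : ℕ) : Helper81.omega (ψ : H → ℂ) (convPow a k) = Helper81.omega (ψ : H → ℂ) a ^ k := by
  induction k with
  | zero => rw [pow_zero]; exact Helper81.omega_deltaOne ψ 1
  | succ k ih =>
    show Helper81.omega (ψ : H → ℂ) (Helper81.conv a (convPow a k)) = _
    rw [Helper81.omega_conv ψ ha (convPow_isClassFunction ha k), ih, pow_succ']

/-- The convolution powers of an integer valued function have integer values, which reduce to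
the coefficients of the powers of the corresponding element of the group algebra over `F`. -/
theorem convPow_coeff (F : Type*) [Field F] (a : H → ℤ) (k : ℕ) :
    ∃ c : H → ℤ, (∀ h, convPow (fun x => (a x : ℂ)) k h = (c h : ℂ)) ∧
      ∀ h, ((c h : ℤ) : F) =
        ((∑ x : H, single x ((a x : ℤ) : F) : MonoidAlgebra F H) ^ k).coeff h := by
  classical
  induction k with
  | zero =>
    refine ⟨fun h => if h = 1 then 1 else 0, fun h => ?_, fun h => ?_⟩
    · show Helper81.deltaOne 1 h = _
      simp only [Helper81.deltaOne]
      split_ifs <;> simp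
    · rw [pow_zero, MonoidAlgebra.one_def, coeff_single, Finsupp.single_apply]
      by_cases hh : h = 1
      · subst hh; simp
      · have e1 : (if (1 : H) = h then (1 : F) else 0) = 0 := if_neg (fun h' => hh h'.symm)
        rw [e1]
        simp [hh]
  | succ k ih =>
    obtain ⟨c, hc1, hc2⟩ := ih
    refine ⟨fun h => ∑ x : H, a x * c (x⁻¹ * h), fun h => ?_, fun h => ?_⟩
    · show Helper81.conv (fun x => (a x : ℂ)) (convPow (fun x => (a x : ℂ)) k) h = _
      simp only [Helper81.conv]
      push_cast
      refine Finset.sum_congr rfl fun x _ => ?_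
      rw [hc1]
    · rw [pow_succ', Finset.sum_mul, coeff_sum, Finsupp.finsetSum_apply]
      push_cast
      refine Finset.sum_congr rfl fun x _ => ?_
      rw [coeff_single_mul_apply, hc2]

/-- If `y` lies in the normal `p`-subgroup `N`, then the class sum of `y` minus its length is
nilpotent in the group algebra over a field of characteristic `p`. -/
theorem classSum_sub_card_isNilpotent (p : ℕ) [Fact p.Prime] (F : Type*) [Field F] [CharP F p]
    (N : Subgroup H) [hNn : N.Normal] (hN : IsPGroup p N) (y : H) (hy : y ∈ N)
    [DecidablePred (fun x : H => IsConj y x)] (k : ℕ)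
    (hk : k = (Finset.univ.filter (fun x : H => IsConj y x)).card) :
    IsNilpotent ((∑ x : H, if IsConj y x then single x (1 : F) else 0) - single 1 (k : F) :
      MonoidAlgebra F H) := by
  classical
  apply Helper15.isNilpotent_of_central_of_map_eq_zero p N hN _ ?central
  · change mapDomainRingHom F (QuotientGroup.mk' N) _ = 0
    rw [map_sub, map_sum]
    have h1 : ∀ x : H, mapDomainRingHom F (QuotientGroup.mk' N)
        (if IsConj y x then single x (1 : F) else 0) =
        if IsConj y x then single (1 : H ⧸ N) (1 : F) else 0 := by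
      intro x
      by_cases h : IsConj y x
      · rw [if_pos h, if_pos h, mapDomainRingHom_apply, mapDomain_single]
        congr 1
        obtain ⟨t, rfl⟩ := isConj_iff.mp h
        exact (QuotientGroup.eq_one_iff _).mpr (hNn.conj_mem y hy t)
      · rw [if_neg h, if_neg h, map_zero]
    rw [Finset.sum_congr rfl (fun x _ => h1 x), Finset.sum_ite, Finset.sum_const_zero, add_zero,
      Finset.sum_const, ← hk, mapDomainRingHom_apply, mapDomain_single, map_one]
    rw [← coeff_inj]
    ext q
    simp
  · intro a
    rw [sub_mul, mul_sub, Helper16.classSum_central' F y a, MonoidAlgebra.single_one_comm]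

/-- **Central characters on a normal `p`-subgroup.**  If `y` lies in the normal `p`-subgroup `N`
of `H`, then `ω_ξ(y) - |y^H|` lies in the local ideal, for every irreducible character `ξ`. -/
theorem centralChar_sub_index_memLocalIdeal_of_mem {p : ℕ} [Fact p.Prime]
    {M : Ideal Cfsg.AlgInt} (hM : Cfsg.IsPModular p M) (N : Subgroup H) [N.Normal]
    (hN : IsPGroup p N) (ξ : Cfsg.IrrCharacter H) (y : H) (hy : y ∈ N) :
    Cfsg.MemLocalIdeal M (Cfsg.centralChar (ξ : H → ℂ) y -
      ((Subgroup.centralizer ({y} : Set H)).index : ℂ)) := by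
  classical
  have hMm := hM.2.1
  set k := (Finset.univ.filter (fun x : H => IsConj y x)).card with hk
  have hidx : (Subgroup.centralizer ({y} : Set H)).index = k := by
    rw [← Helper81.card_classFinset y, hk]
    congr 1
  let a : H → ℤ := fun x => (if IsConj y x then 1 else 0) - (if x = 1 then (k : ℤ) else 0)
  have haC : (fun x => (a x : ℂ)) = Helper81.classInd y - Helper81.deltaOne (k : ℂ) := by
    funext x
    simp only [a, Helper81.classInd, Helper81.deltaOne, Pi.sub_apply]
    push_cast
    split_ifs <;> simp
  have hacf : Cfsg.IsClassFunction H (fun x => (a x : ℂ)) := by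
    rw [haC]
    intro g h
    simp only [Pi.sub_apply]
    rw [Helper81.classInd_isClassFunction y g h, Helper81.deltaOne_isClassFunction _ g h]
  have hom : Helper81.omega (ξ : H → ℂ) (fun x => (a x : ℂ)) =
      Cfsg.centralChar (ξ : H → ℂ) y - (k : ℂ) := by
    rw [haC, Helper81.omega_sub, Helper81.omega_classInd, Helper81.omega_deltaOne]
  have hz : (∑ x : H, single x ((a x : ℤ) : ZMod p) : MonoidAlgebra (ZMod p) H) =
      (∑ x : H, if IsConj y x then single x (1 : ZMod p) else 0) - single 1 (k : ZMod p) := by
    have h1 : ∀ x : H, (single x ((a x : ℤ) : ZMod p) : MonoidAlgebra (ZMod p) H) =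
        (if IsConj y x then single x (1 : ZMod p) else 0) -
          (if x = 1 then single 1 (k : ZMod p) else 0) := by
      intro x
      simp only [a]
      push_cast
      rw [single_sub]
      congr 1
      · split_ifs <;> simp
      · by_cases hx : x = 1
        · subst hx; simp
        · simp [hx]
    rw [Finset.sum_congr rfl (fun x _ => h1 x), Finset.sum_sub_distrib]
    congr 1
    rw [Finset.sum_ite_eq' Finset.univ (1 : H) (fun _ => single 1 (k : ZMod p)),
      if_pos (Finset.mem_univ _)]
  obtain ⟨n, hn⟩ := classSum_sub_card_isNilpotent p (ZMod p) N hN y hy k hk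
  obtain ⟨c, hc1, hc2⟩ := convPow_coeff (ZMod p) a n
  have h1 : ∀ h, Cfsg.MemLocalIdeal M (convPow (fun x => (a x : ℂ)) n h) := by
    intro h
    rw [hc1]
    apply Helper16.memLocalIdeal_intCast_of_dvd hM
    rw [← ZMod.intCast_zmod_eq_zero_iff_dvd, hc2, hz, hn]
    rfl
  have h2 := Helper16.omega_memLocalIdeal hMm ξ (convPow_isClassFunction hacf n) h1
  rw [omega_convPow ξ hacf, hom] at h2
  rw [hidx]
  exact Helper16.memLocalIdeal_of_pow hMm (Helper77.memLocalRing_sub hMm
    (Helper16.centralChar_memLocalRing hMm ξ y) (Helper81.memLocalRing_natCast hMm.ne_top k)) n h2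

/-- If `C_G(O_p(G)) ≤ O_p(G)` then `G` has a single `p`-block. -/
theorem sameBlock_of_centralizer_pCore_le {p : ℕ} [Fact p.Prime] {M : Ideal Cfsg.AlgInt}
    (hM : Cfsg.IsPModular p M)
    (hconstr : Subgroup.centralizer ((Cfsg.pCore p H) : Set H) ≤ Cfsg.pCore p H)
    (χ ψ : Cfsg.IrrCharacter H) : Cfsg.SameBlock M (χ : H → ℂ) (ψ : H → ℂ) := by
  have hMm := hM.2.1
  have hn : (Cfsg.pCore p H).Normal := Subgroup.sSup_normal _ (fun _ hH => hH.1)
  have hp : IsPGroup p (Cfsg.pCore p H) :=
    Sylow.sSup_of_normal _ (fun _ hH => hH.2) (fun _ hH => hH.1)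
  intro g
  by_cases hg : g ∈ Subgroup.centralizer ((Cfsg.pCore p H) : Set H)
  · have h1 := centralChar_sub_index_memLocalIdeal_of_mem hM (Cfsg.pCore p H) hp χ g (hconstr hg)
    have h2 := centralChar_sub_index_memLocalIdeal_of_mem hM (Cfsg.pCore p H) hp ψ g (hconstr hg)
    have h3 := Helper77.memLocalIdeal_sub hMm h1 h2
    rwa [sub_sub_sub_cancel_right] at h3
  · exact Helper77.memLocalIdeal_sub hMm
      (Helper16.centralChar_memLocalIdeal_of_not_mem_centralizer hM (Cfsg.pCore p H) hp χ g hg)
      (Helper16.centralChar_memLocalIdeal_of_not_mem_centralizer hM (Cfsg.pCore p H) hp ψ g hg)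

end Cfsg.Agent.Helper80
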