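import Mathlib

set_option autoImplicit false

/-! Piece F2 of CALL S0899 (helper9). -/

namespace Cfsg.Agent.Helper80

universe u

variable {G : Type u} [Group G] [Finite G] {p : ℕ} [Fact p.Prime]

/-- F2: (from the conclusion of MIN1) with abelian Sylows, the intersection of two distinct
Sylow `p`-subgroups is central. -/
theorem ftb_F2
    (hmin1 : ∀ K : Subgroup G, K ≠ ⊤ → ∀ P₁ P₂ : Sylow p G,
      (P₁ : Subgroup G) ≤ K → (P₂ : Subgroup G) ≤ K → P₁ = P₂)
    (hab : ∀ P : Sylow p G, ∀ a ∈ (P : Subgroup G), ∀ b ∈ (P : Subgroup G), a * b = b * a)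
    (P₁ P₂ : Sylow p G) (hne : P₁ ≠ P₂) (x : G)
    (h1 : x ∈ (P₁ : Subgroup G)) (h2 : x ∈ (P₂ : Subgroup G)) : x ∈ Subgroup.center G := by
  by_contra hx
  apply hne
  apply hmin1 (Subgroup.centralizer {x}) _ P₁ P₂
  · intro a ha
    rw [Subgroup.mem_centralizer_iff]
    intro h hh
    rw [Set.mem_singleton_iff] at hh
    subst hh
    exact hab P₁ h h1 a ha
  · intro a ha
    rw [Subgroup.mem_centralizer_iff]
    intro h hh
    rw [Set.mem_singleton_iff] at hh
    subst hh
    exact hab P₂ h h2 a ha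
  · intro htop
    apply hx
    rw [Subgroup.mem_center_iff]
    intro g
    have hg : g ∈ Subgroup.centralizer {x} := by
      rw [htop]
      trivial
    rw [Subgroup.mem_centralizer_iff] at hg
    exact (hg x rfl).symm

end Cfsg.Agent.Helper80
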