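import Mathlib

set_option autoImplicit false

/-! Piece F3 of CALL S0899 (helper9). -/

namespace Cfsg.Agent.Helper80

universe u

variable {G : Type u} [Group G] [Finite G] {p : ℕ} [Fact p.Prime]

/-- F3: (from the conclusion of MIN1) a non-normal Sylow `p`-subgroup lies in no proper
normal subgroup. -/
theorem ftb_F3
    (hmin1 : ∀ K : Subgroup G, K ≠ ⊤ → ∀ P₁ P₂ : Sylow p G,
      (P₁ : Subgroup G) ≤ K → (P₂ : Subgroup G) ≤ K → P₁ = P₂)
    (P : Sylow p G) (hP : ¬ (P : Subgroup G).Normal)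
    (M : Subgroup G) (hM : M.Normal) (hPM : (P : Subgroup G) ≤ M) : M = ⊤ := by
  by_contra hne
  apply hP
  rw [← Subgroup.normalizer_eq_top_iff, eq_top_iff]
  intro g _
  rw [P.coe_coe, ← Sylow.smul_eq_iff_mem_normalizer]
  apply hmin1 M hne (g • P) P _ hPM
  intro y hy
  rw [Sylow.coe_subgroup_smul, Subgroup.mem_pointwise_smul_iff_inv_smul_mem] at hy
  have hy2 : g⁻¹ * y * g ∈ (P : Subgroup G) := by
    simpa [MulAut.smul_def] using hy
  have hy3 : g⁻¹ * y * g ∈ M := hPM hy2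
  have hy4 := hM.conj_mem _ hy3 g
  have e : g * (g⁻¹ * y * g) * g⁻¹ = y := by group
  rwa [e] at hy4

end Cfsg.Agent.Helper80
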