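import Mathlib

set_option autoImplicit false

/-! Piece MIN1 of CALL S0899 (helper9). -/

namespace Cfsg.Agent.Helper80

universe u

variable {G : Type u} [Group G] [Finite G] {p : ℕ} [Fact p.Prime]

/-- MIN1: under minimality, a proper subgroup contains at most one Sylow `p`-subgroup of `G`. -/
theorem ftb_MIN1
    (hmin : ∀ K : Subgroup G, K ≠ ⊤ → ∀ Q : Sylow p K, (Q : Subgroup K).Normal)
    (K : Subgroup G) (hK : K ≠ ⊤) (P₁ P₂ : Sylow p G)
    (h1 : (P₁ : Subgroup G) ≤ K) (h2 : (P₂ : Subgroup G) ≤ K) : P₁ = P₂ := by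
  have hn1 := hmin K hK (P₁.subtype h1)
  obtain ⟨g, hg⟩ := MulAction.exists_smul_eq K (P₁.subtype h1) (P₂.subtype h2)
  haveI := hn1
  rw [Sylow.smul_eq_of_normal] at hg
  have h3 : (P₁ : Subgroup G).subgroupOf K = (P₂ : Subgroup G).subgroupOf K := by
    have h4 := congrArg (fun Q : Sylow p K => (Q : Subgroup K)) hg
    simpa using h4
  rw [Subgroup.subgroupOf_inj, inf_eq_left.mpr h1, inf_eq_left.mpr h2] at h3
  exact Sylow.ext h3

end Cfsg.Agent.Helper80
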