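import Mathlib

set_option autoImplicit false

/-! Piece MIN2 of CALL S0899 (helper9). -/

namespace Cfsg.Agent.Helper80

universe u

variable {G : Type u} [Group G] [Finite G] {p : ℕ} [Fact p.Prime]

/-- MIN2: under minimality, two `p`-elements of a proper subgroup lie in a common Sylow
`p`-subgroup of `G`. -/
theorem ftb_MIN2
    (hmin : ∀ K : Subgroup G, K ≠ ⊤ → ∀ Q : Sylow p K, (Q : Subgroup K).Normal)
    (K : Subgroup G) (hK : K ≠ ⊤) (P₁ P₂ : Sylow p G) (x y : G) (hxK : x ∈ K) (hyK : y ∈ K)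
    (hx : x ∈ (P₁ : Subgroup G)) (hy : y ∈ (P₂ : Subgroup G)) :
    ∃ P₀ : Sylow p G, x ∈ (P₀ : Subgroup G) ∧ y ∈ (P₀ : Subgroup G) := by
  obtain ⟨Q₁, hQ₁⟩ := (P₁.isPGroup'.comap_subtype (K := K)).exists_le_sylow
  obtain ⟨Q₂, hQ₂⟩ := (P₂.isPGroup'.comap_subtype (K := K)).exists_le_sylow
  have hn1 := hmin K hK Q₁
  obtain ⟨g, hg⟩ := MulAction.exists_smul_eq K Q₁ Q₂
  haveI := hn1
  rw [Sylow.smul_eq_of_normal] at hg
  subst hg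
  obtain ⟨P₀, hP₀⟩ := (Q₁.isPGroup'.map K.subtype).exists_le_sylow
  refine ⟨P₀, hP₀ ?_, hP₀ ?_⟩
  · exact ⟨⟨x, hxK⟩, hQ₁ (Subgroup.mem_subgroupOf.mpr hx), rfl⟩
  · exact ⟨⟨y, hyK⟩, hQ₂ (Subgroup.mem_subgroupOf.mpr hy), rfl⟩

end Cfsg.Agent.Helper80
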