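import Mathlib

set_option autoImplicit false

/-! Piece TRANS of CALL S0899 (helper9). -/

namespace Cfsg.Agent.Helper80

universe u

variable {G : Type u} [Group G] [Finite G] {p : ℕ} [Fact p.Prime]

/-- TRANS: normality of all Sylow subgroups transports along an isomorphism. -/
theorem ftb_TRANS {A : Type*} {B : Type*} [Group A] [Group B] (e : A ≃* B) (p : ℕ) [Fact p.Prime]
    (h : ∀ Q : Sylow p A, (Q : Subgroup A).Normal) :
    ∀ Q : Sylow p B, (Q : Subgroup B).Normal := by
  intro Q
  have hr : (Q : Subgroup B) ≤ e.toMonoidHom.range := by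
    rw [MonoidHom.range_eq_top.mpr e.surjective]
    exact le_top
  have hn := h (Q.comapOfInjective e.toMonoidHom e.injective hr)
  have hn' : ((Q : Subgroup B).comap e.toMonoidHom).Normal := hn
  have h2 := hn'.map e.toMonoidHom e.surjective
  rwa [Subgroup.map_comap_eq_self_of_surjective e.surjective] at h2

end Cfsg.Agent.Helper80
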