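import Cfsg.Agent.Helper63.Gross2Defs
import Cfsg.Agent.Helper2.PGroup

/-!
# PIECE MINSUB of CALL S3795 (helper63): a minimal invariant subgroup not centralized by `R₁`
has central Frattini subgroup (helper80)
-/

set_option autoImplicit false

namespace Cfsg.Agent.Helper80

open Cfsg.Agent.Helper63.Gross2

open scoped commutatorElement

universe u

/-- Conjugation by `y` preserving the subgroup `S` in both directions preserves its Frattini
subgroup. -/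
theorem gross2_conj_frattini {G : Type u} [Group G] (S : Subgroup G) (y : G)
    (h1 : ∀ g ∈ S, y * g * y⁻¹ ∈ S) (h2 : ∀ g ∈ S, y⁻¹ * g * y ∈ S) :
    ∀ g ∈ (frattini ↥S).map S.subtype, y * g * y⁻¹ ∈ (frattini ↥S).map S.subtype := by
  let e : ↥S ≃* ↥S :=
    { toFun := fun s => ⟨y * s * y⁻¹, h1 s s.2⟩
      invFun := fun s => ⟨y⁻¹ * s * y, h2 s s.2⟩
      left_inv := by
        intro s
        apply Subtype.ext
        show y⁻¹ * (y * (s : G) * y⁻¹) * y = s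
        group
      right_inv := by
        intro s
        apply Subtype.ext
        show y * (y⁻¹ * (s : G) * y) * y⁻¹ = s
        group
      map_mul' := by
        intro s t
        apply Subtype.ext
        show y * ((s : G) * (t : G)) * y⁻¹ = (y * (s : G) * y⁻¹) * (y * (t : G) * y⁻¹)
        group }
  have he : (frattini ↥S).map e.toMonoidHom = frattini ↥S :=
    Subgroup.characteristic_iff_map_eq.mp frattini_characteristic e
  rintro _ ⟨f, hf, rfl⟩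
  refine ⟨e f, ?_, rfl⟩
  rw [← he]
  exact ⟨f, hf, rfl⟩

/-- A finite injective self-conjugation is surjective: `y S y⁻¹ ⊆ S` gives `y⁻¹ S y ⊆ S`. -/
theorem gross2_conj_inv {G : Type u} [Group G] (S : Subgroup G) [Finite ↥S] (y : G)
    (h1 : ∀ g ∈ S, y * g * y⁻¹ ∈ S) : ∀ g ∈ S, y⁻¹ * g * y ∈ S := by
  let f : ↥S → ↥S := fun s => ⟨y * s * y⁻¹, h1 s s.2⟩
  have hinj : Function.Injective f := by
    intro s t hst
    apply Subtype.ext
    have h := congrArg Subtype.val hst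
    have h' : y * (s : G) * y⁻¹ = y * (t : G) * y⁻¹ := h
    exact mul_left_cancel (mul_right_cancel h')
  have hsurj : Function.Surjective f := Finite.injective_iff_surjective.mp hinj
  intro g hg
  obtain ⟨s, hs⟩ := hsurj ⟨g, hg⟩
  have h := congrArg Subtype.val hs
  have h' : y * (s : G) * y⁻¹ = g := h
  have h3 : y⁻¹ * g * y = s := by
    rw [← h']
    group
  rw [h3]
  exact s.2

/-- PIECE MINSUB of CALL S3795. -/
theorem min_sub_stmt : MinSubStmt.{u} := by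
  intro G _ q r hq hr hqr x Q R R₁ hQfin hQ hR hR₁ hxQ hRQ hNC
  classical
  have : Fact q.Prime := ⟨hq⟩
  -- a minimal good subgroup
  have hex : ∃ n : ℕ, ∃ S : Subgroup G, (S ≤ Q ∧ (∀ g ∈ S, x * g * x⁻¹ ∈ S) ∧
      (∀ g ∈ R, ∀ s ∈ S, g * s * g⁻¹ ∈ S) ∧ (∃ k ∈ R₁, ∃ s ∈ S, k * s ≠ s * k)) ∧
      Nat.card S = n := ⟨_, Q, ⟨le_rfl, hxQ, hRQ, hNC⟩, rfl⟩
  obtain ⟨Q₁, ⟨hQ₁Q, hx, hRinv, hNC₁⟩, hQ₁n⟩ := Nat.find_spec hex
  have hQ₁fin : Finite ↥Q₁ :=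
    Finite.of_injective (Subgroup.inclusion hQ₁Q) (Subgroup.inclusion_injective hQ₁Q)
  have hQ₁pg : IsPGroup q ↥Q₁ := hQ.to_le hQ₁Q
  have hmin : ∀ S : Subgroup G, S ≤ Q₁ → (∀ g ∈ S, x * g * x⁻¹ ∈ S) →
      (∀ g ∈ R, ∀ s ∈ S, g * s * g⁻¹ ∈ S) → S ≠ Q₁ → ∀ k ∈ R₁, ∀ s ∈ S, k * s = s * k := by
    intro S hS hSx hSR hSne k hk s hs
    by_contra hks
    apply hSne
    have h1 : Nat.find hex ≤ Nat.card S :=
      Nat.find_min' hex ⟨S, ⟨hS.trans hQ₁Q, hSx, hSR, ⟨k, hk, s, hs, hks⟩⟩, rfl⟩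
    exact Subgroup.eq_of_le_of_card_ge hS (by rw [hQ₁n]; exact h1)
  have hxinv : ∀ g ∈ Q₁, x⁻¹ * g * x ∈ Q₁ := gross2_conj_inv Q₁ x hx
  -- the stability argument
  have hcop : ∀ a b : ℕ, Nat.Coprime (r ^ a) (q ^ b) := fun a b =>
    Nat.Coprime.pow a b ((Nat.coprime_primes hr hq).mpr hqr.symm)
  have hSTAB : ∀ Ns : Subgroup G, Ns ≤ Q₁ → (∀ g ∈ Ns, x * g * x⁻¹ ∈ Ns) →
      (∀ g ∈ R, ∀ s ∈ Ns, g * s * g⁻¹ ∈ Ns) → Ns ≠ Q₁ →
      (∀ k ∈ R₁, ∀ s ∈ Q₁, k * s * k⁻¹ * s⁻¹ ∈ Ns) → False := by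
    intro Ns hNs hNsx hNsR hNsne hcomm
    have hcent := hmin Ns hNs hNsx hNsR hNsne
    obtain ⟨k, hk, s, hs, hks⟩ := hNC₁
    apply hks
    have hn := hcomm k hk s hs
    have hkn : k * (k * s * k⁻¹ * s⁻¹) = (k * s * k⁻¹ * s⁻¹) * k := hcent k hk _ hn
    have hcomm' : Commute k (k * s * k⁻¹ * s⁻¹) := hkn
    have hpow : ∀ i : ℕ, k ^ i * s * (k ^ i)⁻¹ = (k * s * k⁻¹ * s⁻¹) ^ i * s := by
      intro i
      induction i with
      | zero => simp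
      | succ i ih =>
        have h1 : k ^ (i + 1) * s * (k ^ (i + 1))⁻¹ = k * (k ^ i * s * (k ^ i)⁻¹) * k⁻¹ := by
          rw [pow_succ']
          group
        rw [h1, ih]
        have h2 : k * (k * s * k⁻¹ * s⁻¹) ^ i = (k * s * k⁻¹ * s⁻¹) ^ i * k :=
          (hcomm'.pow_right i).eq
        calc k * ((k * s * k⁻¹ * s⁻¹) ^ i * s) * k⁻¹
            = (k * (k * s * k⁻¹ * s⁻¹) ^ i) * s * k⁻¹ := by group
          _ = ((k * s * k⁻¹ * s⁻¹) ^ i * k) * s * k⁻¹ := by rw [h2]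
          _ = (k * s * k⁻¹ * s⁻¹) ^ i * ((k * s * k⁻¹ * s⁻¹) * s) := by group
          _ = (k * s * k⁻¹ * s⁻¹) ^ (i + 1) * s := by rw [pow_succ]; group
    obtain ⟨a, ha⟩ := hR ⟨k, hR₁ hk⟩
    have hka : k ^ r ^ a = 1 := by
      have h := congrArg Subtype.val ha
      simpa using h
    obtain ⟨b, hb⟩ := hQ ⟨k * s * k⁻¹ * s⁻¹, hQ₁Q (hNs hn)⟩
    have hnb : (k * s * k⁻¹ * s⁻¹) ^ q ^ b = 1 := by
      have h := congrArg Subtype.val hb
      simpa using h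
    have hna : (k * s * k⁻¹ * s⁻¹) ^ r ^ a = 1 := by
      have h := hpow (r ^ a)
      rw [hka, one_mul, inv_one, mul_one] at h
      exact mul_right_cancel (a := (k * s * k⁻¹ * s⁻¹) ^ r ^ a) (b := s) (c := 1)
        (by rw [one_mul]; exact h.symm)
    have hn1 : k * s * k⁻¹ * s⁻¹ = 1 := by
      have h1 : orderOf (k * s * k⁻¹ * s⁻¹) ∣ r ^ a := orderOf_dvd_of_pow_eq_one hna
      have h2 : orderOf (k * s * k⁻¹ * s⁻¹) ∣ q ^ b := orderOf_dvd_of_pow_eq_one hnb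
      have h3 : orderOf (k * s * k⁻¹ * s⁻¹) = 1 := Nat.eq_one_of_dvd_coprimes (hcop a b) h1 h2
      exact orderOf_eq_one_iff.mp h3
    have h3 : k * s = (k * s * k⁻¹ * s⁻¹) * (s * k) := by group
    rw [h3, hn1, one_mul]
  -- the Frattini subgroup of `Q₁`
  have hΦle : (frattini ↥Q₁).map Q₁.subtype ≤ Q₁ := by
    rintro _ ⟨f, -, rfl⟩
    exact f.2
  have : Nontrivial ↥Q₁ := by
    obtain ⟨k, -, s, hs, hks⟩ := hNC₁
    refine ⟨⟨⟨s, hs⟩, 1, ?_⟩⟩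
    intro h
    apply hks
    have h1 : s = 1 := congrArg Subtype.val h
    rw [h1, mul_one, one_mul]
  have hΦne : (frattini ↥Q₁).map Q₁.subtype ≠ Q₁ := by
    intro h
    have h1 : frattini ↥Q₁ = ⊤ := by
      rw [eq_top_iff]
      intro s _
      have hs : (s : G) ∈ (frattini ↥Q₁).map Q₁.subtype := by
        rw [h]
        exact s.2
      obtain ⟨f, hf, hfs⟩ := hs
      have : f = s := Subtype.ext hfs
      rw [← this]
      exact hf
    have h2 : (⊥ : Subgroup ↥Q₁) = ⊤ := frattini_nongenerating (by rw [h1, bot_sup_eq])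
    exact bot_ne_top h2
  have hΦx : ∀ g ∈ (frattini ↥Q₁).map Q₁.subtype, x * g * x⁻¹ ∈ (frattini ↥Q₁).map Q₁.subtype :=
    gross2_conj_frattini Q₁ x hx hxinv
  have hΦx' : ∀ g ∈ (frattini ↥Q₁).map Q₁.subtype,
      x⁻¹ * g * x ∈ (frattini ↥Q₁).map Q₁.subtype := by
    intro g hg
    have h := gross2_conj_frattini Q₁ x⁻¹ (by intro g hg; rw [inv_inv]; exact hxinv g hg)
      (by intro g hg; rw [inv_inv]; exact hx g hg) g hg
    rwa [inv_inv] at h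
  have hΦR : ∀ g ∈ R, ∀ s ∈ (frattini ↥Q₁).map Q₁.subtype,
      g * s * g⁻¹ ∈ (frattini ↥Q₁).map Q₁.subtype := by
    intro g hg
    exact gross2_conj_frattini Q₁ g (hRinv g hg)
      (by intro s hs; have h := hRinv g⁻¹ (inv_mem hg) s hs; rwa [inv_inv] at h)
  have hΦn : ∀ s ∈ Q₁, ∀ f ∈ (frattini ↥Q₁).map Q₁.subtype,
      s⁻¹ * f * s ∈ (frattini ↥Q₁).map Q₁.subtype := by
    intro s hs f hf
    have h := gross2_conj_frattini Q₁ s⁻¹
      (by intro g hg; exact mul_mem (mul_mem (inv_mem hs) hg) (by rw [inv_inv]; exact hs))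
      (by intro g hg; rw [inv_inv]; exact mul_mem (mul_mem hs hg) (inv_mem hs)) f hf
    rwa [inv_inv] at h
  have hΦcent := hmin _ hΦle hΦx hΦR hΦne
  -- the centralizer of `Φ` in `Q₁`
  have hCle : Q₁ ⊓ Subgroup.centralizer (((frattini ↥Q₁).map Q₁.subtype : Subgroup G) : Set G)
      ≤ Q₁ := inf_le_left
  have hCx : ∀ g ∈ Q₁ ⊓ Subgroup.centralizer (((frattini ↥Q₁).map Q₁.subtype : Subgroup G) : Set G),
      x * g * x⁻¹ ∈
        Q₁ ⊓ Subgroup.centralizer (((frattini ↥Q₁).map Q₁.subtype : Subgroup G) : Set G) := by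
    intro g hg0
    have hg := Subgroup.mem_inf.mp hg0
    refine Subgroup.mem_inf.mpr ⟨hx g hg.1, ?_⟩
    rw [Subgroup.mem_centralizer_iff]
    intro f hf
    have h1 := (Subgroup.mem_centralizer_iff.mp hg.2) (x⁻¹ * f * x) (hΦx' f hf)
    calc f * (x * g * x⁻¹) = x * ((x⁻¹ * f * x) * g) * x⁻¹ := by group
      _ = x * (g * (x⁻¹ * f * x)) * x⁻¹ := by rw [h1]
      _ = x * g * x⁻¹ * f := by group
  have hCR : ∀ y ∈ R, ∀ g ∈ Q₁ ⊓
      Subgroup.centralizer (((frattini ↥Q₁).map Q₁.subtype : Subgroup G) : Set G),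
      y * g * y⁻¹ ∈
        Q₁ ⊓ Subgroup.centralizer (((frattini ↥Q₁).map Q₁.subtype : Subgroup G) : Set G) := by
    intro y hy g hg0
    have hg := Subgroup.mem_inf.mp hg0
    refine Subgroup.mem_inf.mpr ⟨hRinv y hy g hg.1, ?_⟩
    rw [Subgroup.mem_centralizer_iff]
    intro f hf
    have hf' : y⁻¹ * f * y ∈ (frattini ↥Q₁).map Q₁.subtype := by
      have h := hΦR y⁻¹ (inv_mem hy) f hf
      rwa [inv_inv] at h
    have h1 := (Subgroup.mem_centralizer_iff.mp hg.2) (y⁻¹ * f * y) hf'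
    calc f * (y * g * y⁻¹) = y * ((y⁻¹ * f * y) * g) * y⁻¹ := by group
      _ = y * (g * (y⁻¹ * f * y)) * y⁻¹ := by rw [h1]
      _ = y * g * y⁻¹ * f := by group
  have hCcomm : ∀ k ∈ R₁, ∀ s ∈ Q₁, k * s * k⁻¹ * s⁻¹ ∈
      Q₁ ⊓ Subgroup.centralizer (((frattini ↥Q₁).map Q₁.subtype : Subgroup G) : Set G) := by
    intro k hk s hs
    refine Subgroup.mem_inf.mpr ⟨mul_mem (hRinv k (hR₁ hk) s hs) (inv_mem hs), ?_⟩
    rw [Subgroup.mem_centralizer_iff]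
    intro f hf
    have hf1 := hΦn s hs f hf
    have h1 : k * (s⁻¹ * f * s) = (s⁻¹ * f * s) * k := hΦcent k hk _ hf1
    have h2 : k * f = f * k := hΦcent k hk f hf
    have h1' : (s⁻¹ * f * s) * k⁻¹ = k⁻¹ * (s⁻¹ * f * s) := by
      have h3 : k⁻¹ * (k * (s⁻¹ * f * s)) * k⁻¹ = k⁻¹ * ((s⁻¹ * f * s) * k) * k⁻¹ := by rw [h1]
      calc (s⁻¹ * f * s) * k⁻¹ = k⁻¹ * (k * (s⁻¹ * f * s)) * k⁻¹ := by group
        _ = k⁻¹ * ((s⁻¹ * f * s) * k) * k⁻¹ := h3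
        _ = k⁻¹ * (s⁻¹ * f * s) := by group
    calc f * (k * s * k⁻¹ * s⁻¹) = (f * k) * s * k⁻¹ * s⁻¹ := by group
      _ = (k * f) * s * k⁻¹ * s⁻¹ := by rw [h2]
      _ = k * s * ((s⁻¹ * f * s) * k⁻¹) * s⁻¹ := by group
      _ = k * s * (k⁻¹ * (s⁻¹ * f * s)) * s⁻¹ := by rw [h1']
      _ = k * s * k⁻¹ * s⁻¹ * f := by group
  have hCeq : Q₁ ⊓ Subgroup.centralizer (((frattini ↥Q₁).map Q₁.subtype : Subgroup G) : Set G)
      = Q₁ := by
    by_contra hne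
    exact hSTAB _ hCle hCx hCR hne hCcomm
  have hcentral : ∀ f ∈ (frattini ↥Q₁).map Q₁.subtype, ∀ c ∈ Q₁, f * c = c * f := by
    intro f hf c hc
    have hc' : c ∈ Q₁ ⊓
        Subgroup.centralizer (((frattini ↥Q₁).map Q₁.subtype : Subgroup G) : Set G) := by
      rw [hCeq]
      exact hc
    exact (Subgroup.mem_centralizer_iff.mp (Subgroup.mem_inf.mp hc').2) f hf
  refine ⟨Q₁, hQ₁Q, hx, hRinv, hNC₁, ?_, ?_⟩
  · intro a ha b hb c hc
    apply hcentral _ _ c hc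
    have h1 : ⁅(⟨a, ha⟩ : ↥Q₁), (⟨b, hb⟩ : ↥Q₁)⁆ ∈ frattini ↥Q₁ :=
      Helper2.commutator_le_frattini_of_isPGroup hQ₁pg
        (Subgroup.commutator_mem_commutator (Subgroup.mem_top _) (Subgroup.mem_top _))
    exact ⟨_, h1, rfl⟩
  · intro a ha c hc
    apply hcentral _ _ c hc
    have h1 : (⟨a, ha⟩ : ↥Q₁) ^ q ∈ frattini ↥Q₁ :=
      Helper2.pow_mem_frattini_of_isPGroup hQ₁pg _
    exact ⟨_, h1, rfl⟩

end Cfsg.Agent.Helper80
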