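import Cfsg.Agent.Helper79.FongReynolds7
import Cfsg.Agent.Helper16.ExtFMT2
import Cfsg.Agent.Helper76.Cover

/-!
# Induced blocks from subgroups containing the centralizer of a defect group

* `exists_blockStab`: the stabilizer of a block of a normal subgroup, as a subgroup.
* `exists_defectGroup_inf_eq`: if `Pn ⊴ G` is a `p`-subgroup, `C_G(Pn) ≤ N ⊴ G`, `b` a block of
  `N` with defect group `Pn`, then the block of `G` covering `b` has a defect group `D` with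
  `D ⊓ N = Pn` (a special case of Knörr's theorem).
-/

set_option autoImplicit false
set_option linter.unusedSectionVars false
set_option linter.unusedVariables false
set_option linter.style.longLine false
open Cfsg

namespace Cfsg.Agent.Helper80

universe u

section inducedDefect

variable {G : Type u} [Group G] [Fintype G] {p : ℕ} [Fact p.Prime] {M : Ideal Cfsg.AlgInt}

/-- The stabilizer of a block of a normal subgroup exists as a subgroup. -/
theorem exists_blockStab (hM : M.IsMaximal) (N : Subgroup G) [hN : N.Normal]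
    {b : Set (Cfsg.IrrCharacter N)} (hb : Cfsg.IsPBlock M b) :
    ∃ T : Subgroup G, N ≤ T ∧ (∀ t ∈ T, ∀ θ ∈ b, Helper16.irrConj N t θ ∈ b) ∧
      (∀ x : G, x ∉ T → ∀ θ ∈ b, Helper16.irrConj N x θ ∉ b) := by
  classical
  have hmul : ∀ (g h : G) (θ : Cfsg.IrrCharacter N),
      Helper16.irrConj N h (Helper16.irrConj N g θ) = Helper16.irrConj N (h * g) θ :=
    fun g h θ => Subtype.ext (Helper16.irrConj_irrConj N g h θ)
  have hone : ∀ θ : Cfsg.IrrCharacter N, Helper16.irrConj N 1 θ = θ :=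
    fun θ => Subtype.ext (Helper16.irrConj_one N θ)
  have hkey : ∀ (x : G) (θ₁ θ : Cfsg.IrrCharacter N), θ₁ ∈ b → θ ∈ b →
      Helper16.irrConj N x θ ∈ b → Helper16.irrConj N x θ₁ ∈ b := by
    intro x θ₁ θ hθ₁ hθ h
    have h1 := Helper16.sameBlock_irrConj (M := M) N x (Helper16.sameBlock_of_mem hM hb hθ hθ₁)
    rw [Helper16.eq_blockOf_of_mem hM hb h]
    exact h1
  refine ⟨{ carrier := {g | ∀ θ ∈ b, Helper16.irrConj N g θ ∈ b}
            mul_mem' := ?_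
            one_mem' := ?_
            inv_mem' := ?_ }, ?_, ?_, ?_⟩
  · intro a c ha hc θ hθ
    rw [← hmul]
    exact ha _ (hc θ hθ)
  · intro θ hθ
    rw [hone]
    exact hθ
  · intro a ha θ hθ
    have h1 := Helper16.sameBlock_irrConj (M := M) N a⁻¹
      (Helper16.sameBlock_of_mem hM hb (ha θ hθ) hθ)
    rw [hmul, inv_mul_cancel, hone] at h1
    rw [Helper16.eq_blockOf_of_mem hM hb hθ]
    exact h1
  · intro n hn θ hθ
    have e : Helper16.irrConj N n θ = θ := by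
      apply Subtype.ext
      funext k
      rw [Helper16.irrConj_apply]
      have h1 := Helper81.irr_conj θ k (⟨n, hn⟩ : N)⁻¹
      rw [inv_inv] at h1
      rw [← h1]
      rfl
    rw [e]
    exact hθ
  · intro t ht θ hθ
    exact ht θ hθ
  · intro x hx θ hθ hcon
    apply hx
    intro θ₁ hθ₁
    exact hkey x θ₁ θ hθ₁ hθ hcon

/-- **A special case of Knörr's theorem.**  Let `Pn ⊴ G` be a `p`-subgroup and `N ⊴ G` with
`Pn ≤ N` and `C_G(Pn) ≤ N`.  If the block `b` of `N` has defect group `Pn` and the block `B₁` of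
`G` covers `b`, then `B₁` has a defect group `D` with `D ⊓ N = Pn`. -/
theorem exists_defectGroup_inf_eq (hM : Cfsg.IsPModular p M) (N : Subgroup G) [hN : N.Normal]
    [Fintype N] {b : Set (Cfsg.IrrCharacter N)} (hb : Cfsg.IsPBlock M b)
    (Pn : Subgroup G) [hPnn : Pn.Normal] (hPn : IsPGroup p Pn) (hPnN : Pn ≤ N)
    (hC : Subgroup.centralizer (Pn : Set G) ≤ N)
    (hbP : Cfsg.IsDefectGroup p M b (Pn.subgroupOf N))
    {B₁ : Set (Cfsg.IrrCharacter G)} (hB₁ : Cfsg.IsPBlock M B₁)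
    {χ₀ : Cfsg.IrrCharacter G} (hχ₀ : χ₀ ∈ B₁) {θ₀ : Cfsg.IrrCharacter N} (hθ₀ : θ₀ ∈ b)
    (hne : Cfsg.classInner (fun n : N => (χ₀ : G → ℂ) n) (θ₀ : N → ℂ) ≠ 0) :
    ∃ D : Subgroup G, Cfsg.IsDefectGroup p M B₁ D ∧ D ⊓ N = Pn := by
  classical
  have hMm : M.IsMaximal := hM.2.1
  obtain ⟨T, hNT, hst, hdis⟩ := exists_blockStab hMm N hb
  have : Fintype T := Fintype.ofFinite T
  have : Fintype (N.subgroupOf T) := Fintype.ofFinite _
  obtain ⟨ψ, hψ, -, hind⟩ := Helper79.fr_exists N T hMm hb hNT hst hdis hB₁ hχ₀ hθ₀ hne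
  have hB' : Cfsg.IsPBlock M (Cfsg.blockOf M (ψ : T → ℂ)) := ⟨ψ, rfl⟩
  have hψB' : ψ ∈ Cfsg.blockOf M (ψ : T → ℂ) := Helper16.sameBlock_refl hMm _
  have hdef := (Helper79.fr_defect_height N T hM hb hNT hst hdis hB' hψB' hψ hind).1
  obtain ⟨σ, hσ⟩ : ∃ σ : N.subgroupOf T ≃* N, σ = Subgroup.subgroupOfEquivOfLe hNT := ⟨_, rfl⟩
  have hσcoe : ∀ k : N.subgroupOf T, ((σ k : N) : G) = ((k : T) : G) := by
    intro k; rw [hσ]; rfl
  have hβ : Cfsg.IsPBlock M (Helper75.irrComp σ '' b) := Helper75.isPBlock_image_irrComp σ hb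
  have hinv₁ : ∀ g : T, ∀ θ₁ ∈ Helper75.irrComp σ '' b,
      Helper16.irrConj (N.subgroupOf T) g θ₁ ∈ Helper75.irrComp σ '' b := by
    rintro g _ ⟨θ, hθ, rfl⟩
    refine ⟨Helper16.irrConj N (g : G) θ, hst g g.2 θ hθ, ?_⟩
    apply Subtype.ext
    funext k
    rw [Helper75.irrComp_apply, Helper16.irrConj_apply, Helper16.irrConj_apply,
      Helper75.irrComp_apply]
    refine congrArg (θ : N → ℂ) (Subtype.ext ?_)
    refine ((hσcoe _).trans ?_).symm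
    show ((g⁻¹ * (k : T) * g : T) : G) = (g : G)⁻¹ * ((σ k : N) : G) * (g : G)
    rw [hσcoe k]
    rfl
  -- `ψ` covers the transported block
  obtain ⟨θ, hθ, hψθ⟩ := hψ
  have hcov' : ∃ χ ∈ Cfsg.blockOf M (ψ : T → ℂ), ∃ θ' ∈ Helper75.irrComp σ '' b,
      Cfsg.classInner (fun n : N.subgroupOf T => (χ : T → ℂ) n) (θ' : N.subgroupOf T → ℂ) ≠ 0 := by
    refine ⟨ψ, hψB', Helper75.irrComp σ θ, ⟨θ, hθ, rfl⟩, ?_⟩
    have e : Cfsg.classInner (fun n : N => (ψ : T → ℂ) ⟨(n : G), hNT n.2⟩) (θ : N → ℂ)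
        = Cfsg.classInner (fun n : N.subgroupOf T => (ψ : T → ℂ) n)
          (Helper75.irrComp σ θ : N.subgroupOf T → ℂ) := by
      unfold Cfsg.classInner
      rw [Nat.card_congr σ.toEquiv]
      congr 1
      rw [← Equiv.sum_comp σ.toEquiv]
      refine Finset.sum_congr rfl fun k _ => ?_
      show (ψ : T → ℂ) ⟨((σ k : N) : G), _⟩ * _ = (ψ : T → ℂ) (k : T) * _
      have e0 : (⟨((σ k : N) : G), hNT (σ k).2⟩ : T) = (k : T) := Subtype.ext (hσcoe k)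
      rw [e0]
      rfl
    rw [← e]
    exact hψθ
  -- the normal `p`-subgroup in `T`
  have hQn : (Pn.subgroupOf T).Normal := hPnn.subgroupOf T
  have hQp : IsPGroup p (Pn.subgroupOf T) := hPn.comap_subtype
  have hNTn : (N.subgroupOf T).Normal := hN.subgroupOf T
  have hCT : Subgroup.centralizer ((Pn.subgroupOf T : Subgroup T) : Set T) ≤ N.subgroupOf T := by
    intro c hc
    rw [Subgroup.mem_subgroupOf]
    apply hC
    rw [Subgroup.mem_centralizer_iff]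
    intro q hq
    have h1 := Subgroup.mem_centralizer_iff.mp hc ⟨q, hNT (hPnN hq)⟩
      (by rw [SetLike.mem_coe, Subgroup.mem_subgroupOf]; exact hq)
    exact congrArg (fun k : T => (k : G)) h1
  have hmax : ∀ B' : Set (Cfsg.IrrCharacter T), Cfsg.IsPBlock M B' →
      (∃ χ ∈ B', ∃ θ' ∈ Helper75.irrComp σ '' b,
        Cfsg.classInner (fun n : N.subgroupOf T => (χ : T → ℂ) n)
          (θ' : N.subgroupOf T → ℂ) ≠ 0) →
      Cfsg.blockDefect p B' ≤ Cfsg.blockDefect p (Cfsg.blockOf M (ψ : T → ℂ)) := by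
    rintro B' hB'' ⟨χ', hχ', θ', hθ', hne'⟩
    obtain ⟨χ'', hχ'', θ'', hθ'', hne''⟩ := hcov'
    have h1 := Helper79.fr_induced_of_cover (N.subgroupOf T) hM (Pn.subgroupOf T) hQp hCT hβ
      hB'' hχ' hθ' hne'
    have h2 := Helper79.fr_induced_of_cover (N.subgroupOf T) hM (Pn.subgroupOf T) hQp hCT hβ
      hB' hχ'' hθ'' hne''
    rw [Helper75.isInducedBlock_unique hMm _ h1 h2]
  obtain ⟨D', hD'⟩ := Helper16.exists_isDefectGroup (p := p) hMm hB'
  obtain ⟨-, hDβ, -⟩ := Helper16.fong_main (N.subgroupOf T) hM hβ hinv₁ hB' hcov' hmax hD'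
  have hP₀ := Helper75.isDefectGroup_image_irrComp σ hbP
  have hPNn : (Pn.subgroupOf N).Normal := hPnn.subgroupOf N
  have hP₀n : ((Pn.subgroupOf N).comap σ.toMonoidHom).Normal := hPNn.comap _
  have hP₀p : IsPGroup p ((Pn.subgroupOf N).comap σ.toMonoidHom) :=
    (hPn.comap_subtype).comap_of_injective σ.toMonoidHom σ.injective
  have hle := Helper16.normal_pSubgroup_le_defectGroup hM _ hP₀p hβ hDβ
  have hDeq : (Pn.subgroupOf N).comap σ.toMonoidHom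
      = (D' ⊓ N.subgroupOf T).subgroupOf (N.subgroupOf T) :=
    Subgroup.eq_of_le_of_card_ge hle (by rw [Helper16.isDefectGroup_card_eq hM hβ hDβ hP₀])
  have hDG := hdef D' hD'
  refine ⟨D'.map T.subtype, hDG, ?_⟩
  apply le_antisymm
  · rintro x ⟨⟨t, ht, rfl⟩, hxN⟩
    have hk : (⟨t, hxN⟩ : N.subgroupOf T) ∈ (D' ⊓ N.subgroupOf T).subgroupOf (N.subgroupOf T) := by
      rw [Subgroup.mem_subgroupOf]
      exact ⟨ht, hxN⟩
    rw [← hDeq, Subgroup.mem_comap, Subgroup.mem_subgroupOf] at hk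
    have h1 := hσcoe ⟨t, hxN⟩
    show ((t : T) : G) ∈ Pn
    have h2 : ((σ (⟨t, hxN⟩ : N.subgroupOf T) : N) : G) ∈ Pn := hk
    rw [h1] at h2
    exact h2
  · intro x hx
    exact ⟨Helper16.normal_pSubgroup_le_defectGroup hM Pn hPn hB₁ hDG hx, hPnN hx⟩

/-- A congruence between an induced central character and a central character gives block
induction between the corresponding blocks. -/
theorem isInducedBlock_of_congr (hM : M.IsMaximal) (H : Subgroup G) (ξ : Cfsg.IrrCharacter H)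
    (χ : Cfsg.IrrCharacter G)
    (h : ∀ g : G, Cfsg.MemLocalIdeal M
      (Cfsg.inducedCentralChar H (ξ : H → ℂ) g - Cfsg.centralChar (χ : G → ℂ) g)) :
    Cfsg.IsInducedBlock M H (Cfsg.blockOf M (ξ : H → ℂ)) (Cfsg.blockOf M (χ : G → ℂ)) := by
  classical
  refine ⟨⟨ξ, rfl⟩, ⟨χ, rfl⟩, fun ξ' hξ' χ' hχ' g => ?_⟩
  have h1 := Helper16.inducedCentralChar_sub_mem hM H (ξ' : H → ℂ) (ξ : H → ℂ)
    (Helper81.irr_conj ξ') (Helper81.irr_conj ξ) (Helper16.sameBlock_symm hξ') g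
  have h2 : Cfsg.MemLocalIdeal M (Cfsg.centralChar (χ : G → ℂ) g
      - Cfsg.centralChar (χ' : G → ℂ) g) := hχ' g
  have h3 := Helper77.memLocalIdeal_add hM (Helper77.memLocalIdeal_add hM h1 (h g)) h2
  have e : Cfsg.inducedCentralChar H (ξ' : H → ℂ) g - Cfsg.inducedCentralChar H (ξ : H → ℂ) g
      + (Cfsg.inducedCentralChar H (ξ : H → ℂ) g - Cfsg.centralChar (χ : G → ℂ) g)
      + (Cfsg.centralChar (χ : G → ℂ) g - Cfsg.centralChar (χ' : G → ℂ) g)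
      = Cfsg.inducedCentralChar H (ξ' : H → ℂ) g - Cfsg.centralChar (χ' : G → ℂ) g := by ring
  rwa [e] at h3

/-- **Root block.**  A block `b` of `H` with defect group `D₀`, where `C_G(D₀) ≤ H`, is induced
from a block of `L₀ = D₀ C_G(D₀)` with defect group `D₀`. -/
theorem exists_root (hM : Cfsg.IsPModular p M) (H : Subgroup G) [Fintype H] (D₀ : Subgroup G)
    (hD₀H : D₀ ≤ H) (hCH : Subgroup.centralizer (D₀ : Set G) ≤ H) (L₀ : Subgroup G)
    (hL₀ : L₀ = D₀ ⊔ Subgroup.centralizer (D₀ : Set G)) [Fintype L₀]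
    {b : Set (Cfsg.IrrCharacter H)} (hb : Cfsg.IsPBlock M b)
    (hbD : Cfsg.IsDefectGroup p M b (D₀.subgroupOf H)) :
    ∃ θ : Cfsg.IrrCharacter L₀,
      Cfsg.IsDefectGroup p M (Cfsg.blockOf M (θ : L₀ → ℂ)) (D₀.subgroupOf L₀) ∧
      ∀ ξ ∈ b, ∀ g : G, Cfsg.MemLocalIdeal M
        (Cfsg.inducedCentralChar L₀ (θ : L₀ → ℂ) g - Cfsg.inducedCentralChar H (ξ : H → ℂ) g) := by
  classical
  have hMm : M.IsMaximal := hM.2.1
  have hD₀L : D₀ ≤ L₀ := by rw [hL₀]; exact le_sup_left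
  have hCL₀ : Subgroup.centralizer (D₀ : Set G) ≤ L₀ := by rw [hL₀]; exact le_sup_right
  have hL₀H : L₀ ≤ H := by rw [hL₀]; exact sup_le hD₀H hCH
  have hL₀N : L₀ ≤ Subgroup.normalizer (D₀ : Set G) := by
    rw [hL₀]; exact sup_le Subgroup.le_normalizer (Subgroup.centralizer_le_normalizer _)
  have : Fintype (L₀.subgroupOf H) := Fintype.ofFinite _
  have hPL : D₀.subgroupOf H ≤ L₀.subgroupOf H := fun x hx => hD₀L hx
  have hCL : Subgroup.centralizer ((D₀.subgroupOf H : Subgroup H) : Set H) ≤ L₀.subgroupOf H := by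
    intro c hc
    rw [Subgroup.mem_subgroupOf]
    apply hCL₀
    rw [Subgroup.mem_centralizer_iff]
    intro q hq
    have h1 := Subgroup.mem_centralizer_iff.mp hc ⟨q, hD₀H hq⟩
      (by rw [SetLike.mem_coe, Subgroup.mem_subgroupOf]; exact hq)
    exact congrArg (fun k : H => (k : G)) h1
  have hLN : L₀.subgroupOf H ≤ Subgroup.normalizer ((D₀.subgroupOf H : Subgroup H) : Set H) := by
    intro x hx
    have h1 := hL₀N hx
    rw [Subgroup.mem_normalizer_iff] at h1 ⊢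
    intro h
    rw [Subgroup.mem_subgroupOf, Subgroup.mem_subgroupOf]
    exact h1 (h : G)
  obtain ⟨b', hb'D, hind⟩ := Helper16.extfmt_exists hM hb hbD (L₀.subgroupOf H) hPL hCL hLN
  obtain ⟨θ', hθ'⟩ := Helper16.exists_mem_of_isPBlock hMm hind.1
  obtain ⟨e, he⟩ : ∃ e : L₀.subgroupOf H ≃* L₀, e = Subgroup.subgroupOfEquivOfLe hL₀H := ⟨_, rfl⟩
  have hecoe : ∀ k : L₀.subgroupOf H, ((e k : L₀) : G) = ((k : H) : G) := by
    intro k; rw [he]; rfl
  refine ⟨Helper75.irrComp e.symm θ', ?_, ?_⟩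
  · have h1 := Helper75.isDefectGroup_image_irrComp e.symm hb'D
    have h2 : Cfsg.IsPBlock M (Helper75.irrComp e.symm '' b') :=
      Helper75.isPBlock_image_irrComp e.symm hind.1
    have h3 : Helper75.irrComp e.symm θ' ∈ Helper75.irrComp e.symm '' b' := ⟨θ', hθ', rfl⟩
    rw [Helper16.eq_blockOf_of_mem hMm h2 h3] at h1
    have h4 : ((D₀.subgroupOf H).subgroupOf (L₀.subgroupOf H)).comap e.symm.toMonoidHom
        = D₀.subgroupOf L₀ := by
      ext x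
      rw [Subgroup.mem_comap, Subgroup.mem_subgroupOf, Subgroup.mem_subgroupOf,
        Subgroup.mem_subgroupOf]
      have h5 := hecoe (e.symm x)
      rw [MulEquiv.apply_symm_apply] at h5
      show (((e.symm x : L₀.subgroupOf H) : H) : G) ∈ D₀ ↔ (x : G) ∈ D₀
      rw [h5]
    rw [h4] at h1
    exact h1
  · intro ξ hξ g
    refine Helper16.inducedCentralChar_trans hMm hL₀H
      (Helper75.irrComp e.symm θ' : L₀ → ℂ) ξ (fun n => ?_) g
    have h1 := hind.2.2 θ' hθ' ξ hξ n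
    have e1 : (fun k : L₀.subgroupOf H => (Helper75.irrComp e.symm θ' : L₀ → ℂ)
        (Subgroup.subgroupOfEquivOfLe hL₀H k)) = (θ' : L₀.subgroupOf H → ℂ) := by
      funext k
      rw [Helper75.irrComp_apply, ← he, MulEquiv.symm_apply_apply]
    rw [e1]
    exact h1

/-- **Defect groups of induced blocks.**  Let `ξ` be an irreducible character of `H` whose block
has defect group `D₀` with `C_G(D₀) ≤ H`, and suppose that the block of `ξ` induces the block of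
`χ`.  Then the block of `χ` has a defect group `D ≥ D₀` with `Z(D) ≤ D₀`. -/
theorem exists_defectGroup_center_le (hM : Cfsg.IsPModular p M) :
    ∀ (n : ℕ) (D₀ H : Subgroup G) (ξ : Cfsg.IrrCharacter H) (χ : Cfsg.IrrCharacter G),
      Fintype.card G - Nat.card D₀ = n → D₀ ≤ H → Subgroup.centralizer (D₀ : Set G) ≤ H →
      Cfsg.IsDefectGroup p M (Cfsg.blockOf M (ξ : H → ℂ)) (D₀.subgroupOf H) →
      (∀ g : G, Cfsg.MemLocalIdeal M
        (Cfsg.inducedCentralChar H (ξ : H → ℂ) g - Cfsg.centralChar (χ : G → ℂ) g)) →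
      ∃ D : Subgroup G, Cfsg.IsDefectGroup p M (Cfsg.blockOf M (χ : G → ℂ)) D ∧ D₀ ≤ D ∧
        ∀ z ∈ D, (∀ d ∈ D, z * d = d * z) → z ∈ D₀ := by
  classical
  have hMm : M.IsMaximal := hM.2.1
  intro n
  induction n using Nat.strong_induction_on with
  | _ n ih =>
  intro D₀ H ξ χ hn hD₀H hCH hbD hcong
  have : Fintype H := Fintype.ofFinite H
  have hD₀p : IsPGroup p D₀ := by
    obtain ⟨-, -, -, -, h1⟩ := Helper16.isDefectGroup_exists_data hbD
    have h2 := h1.map H.subtype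
    rwa [Subgroup.map_subgroupOf_eq_of_le hD₀H] at h2
  obtain ⟨L₀, hL₀⟩ : ∃ L₀ : Subgroup G, L₀ = D₀ ⊔ Subgroup.centralizer (D₀ : Set G) := ⟨_, rfl⟩
  have : Fintype L₀ := Fintype.ofFinite L₀
  have hD₀L : D₀ ≤ L₀ := by rw [hL₀]; exact le_sup_left
  have hCL₀ : Subgroup.centralizer (D₀ : Set G) ≤ L₀ := by rw [hL₀]; exact le_sup_right
  obtain ⟨θ, hθD, hθcong⟩ := exists_root hM H D₀ hD₀H hCH L₀ hL₀ ⟨ξ, rfl⟩ hbD
  have hθχ : ∀ g : G, Cfsg.MemLocalIdeal M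
      (Cfsg.inducedCentralChar L₀ (θ : L₀ → ℂ) g - Cfsg.centralChar (χ : G → ℂ) g) := by
    intro g
    have h1 := Helper77.memLocalIdeal_add hMm
      (hθcong ξ (Helper16.sameBlock_refl hMm _) g) (hcong g)
    rwa [sub_add_sub_cancel] at h1
  -- the normalizer
  obtain ⟨𝒩, h𝒩⟩ : ∃ 𝒩 : Subgroup G, 𝒩 = Subgroup.normalizer (D₀ : Set G) := ⟨_, rfl⟩
  have : Fintype 𝒩 := Fintype.ofFinite 𝒩
  have : Fintype (L₀.subgroupOf 𝒩) := Fintype.ofFinite _
  have hL₀𝒩 : L₀ ≤ 𝒩 := by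
    rw [hL₀, h𝒩]; exact sup_le Subgroup.le_normalizer (Subgroup.centralizer_le_normalizer _)
  have hD₀𝒩 : D₀ ≤ 𝒩 := hD₀L.trans hL₀𝒩
  have h𝒩L : 𝒩 ≤ Subgroup.normalizer (L₀ : Set G) := by
    rw [h𝒩, hL₀]; exact Helper79.fr_normalizer_le_normalizer_sup D₀
  have hNn : (L₀.subgroupOf 𝒩).Normal := Subgroup.normal_subgroupOf_of_le_normalizer h𝒩L
  have hQn : (D₀.subgroupOf 𝒩).Normal :=
    Subgroup.normal_subgroupOf_of_le_normalizer (by rw [h𝒩])
  have hQp : IsPGroup p (D₀.subgroupOf 𝒩) := hD₀p.comap_subtype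
  obtain ⟨τ, hτ⟩ : ∃ τ : L₀.subgroupOf 𝒩 ≃* L₀, τ = Subgroup.subgroupOfEquivOfLe hL₀𝒩 := ⟨_, rfl⟩
  have hτcoe : ∀ k : L₀.subgroupOf 𝒩, ((τ k : L₀) : G) = ((k : 𝒩) : G) := by
    intro k; rw [hτ]; rfl
  have hβ : Cfsg.IsPBlock M (Helper75.irrComp τ '' Cfsg.blockOf M (θ : L₀ → ℂ)) :=
    Helper75.isPBlock_image_irrComp τ ⟨θ, rfl⟩
  have hθβ : Helper75.irrComp τ θ ∈ Helper75.irrComp τ '' Cfsg.blockOf M (θ : L₀ → ℂ) :=
    ⟨θ, Helper16.sameBlock_refl hMm _, rfl⟩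
  have hβD : Cfsg.IsDefectGroup p M (Helper75.irrComp τ '' Cfsg.blockOf M (θ : L₀ → ℂ))
      ((D₀.subgroupOf 𝒩).subgroupOf (L₀.subgroupOf 𝒩)) := by
    have h1 := Helper75.isDefectGroup_image_irrComp τ hθD
    have h2 : (D₀.subgroupOf L₀).comap τ.toMonoidHom
        = (D₀.subgroupOf 𝒩).subgroupOf (L₀.subgroupOf 𝒩) := by
      ext x
      rw [Subgroup.mem_comap, Subgroup.mem_subgroupOf, Subgroup.mem_subgroupOf,
        Subgroup.mem_subgroupOf]
      show ((τ x : L₀) : G) ∈ D₀ ↔ ((x : 𝒩) : G) ∈ D₀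
      rw [hτcoe]
    rwa [h2] at h1
  have hPnN : D₀.subgroupOf 𝒩 ≤ L₀.subgroupOf 𝒩 := fun x hx => hD₀L hx
  have hCN₀ : Subgroup.centralizer ((D₀.subgroupOf 𝒩 : Subgroup 𝒩) : Set 𝒩)
      ≤ L₀.subgroupOf 𝒩 := by
    intro c hc
    rw [Subgroup.mem_subgroupOf]
    apply hCL₀
    rw [Subgroup.mem_centralizer_iff]
    intro q hq
    have h1 := Subgroup.mem_centralizer_iff.mp hc ⟨q, hD₀𝒩 hq⟩
      (by rw [SetLike.mem_coe, Subgroup.mem_subgroupOf]; exact hq)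
    exact congrArg (fun k : 𝒩 => (k : G)) h1
  obtain ⟨ψ₁, hψ₁⟩ := Helper76.exists_irr_over (L₀.subgroupOf 𝒩) (Helper75.irrComp τ θ)
  have hψ₁B : ψ₁ ∈ Cfsg.blockOf M (ψ₁ : 𝒩 → ℂ) := Helper16.sameBlock_refl hMm _
  have hind₁ := Helper79.fr_induced_of_cover (L₀.subgroupOf 𝒩) hM (D₀.subgroupOf 𝒩) hQp hCN₀ hβ
    (⟨ψ₁, rfl⟩ : Cfsg.IsPBlock M (Cfsg.blockOf M (ψ₁ : 𝒩 → ℂ))) hψ₁B hθβ hψ₁
  have hψχ : ∀ g : G, Cfsg.MemLocalIdeal M
      (Cfsg.inducedCentralChar 𝒩 (ψ₁ : 𝒩 → ℂ) g - Cfsg.centralChar (χ : G → ℂ) g) := by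
    intro g
    have h1 := Helper16.inducedCentralChar_trans hMm hL₀𝒩 (θ : L₀ → ℂ) ψ₁
      (fun n => by
        have h2 := hind₁.2.2 (Helper75.irrComp τ θ) hθβ ψ₁ hψ₁B n
        rw [hτ] at h2
        exact h2) g
    have h3 := Helper77.memLocalIdeal_sub hMm (hθχ g) h1
    rwa [sub_sub_sub_cancel_left] at h3
  obtain ⟨D₁', hD₁', hD₁inf⟩ := exists_defectGroup_inf_eq hM (L₀.subgroupOf 𝒩) hβ
    (D₀.subgroupOf 𝒩) hQp hPnN hCN₀ hβD
    (⟨ψ₁, rfl⟩ : Cfsg.IsPBlock M (Cfsg.blockOf M (ψ₁ : 𝒩 → ℂ))) hψ₁B hθβ hψ₁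
  have hD₀D₁ : D₀ ≤ D₁'.map 𝒩.subtype := by
    intro x hx
    have h1 : (⟨x, hD₀𝒩 hx⟩ : 𝒩) ∈ D₁' ⊓ L₀.subgroupOf 𝒩 := by
      rw [hD₁inf, Subgroup.mem_subgroupOf]; exact hx
    exact ⟨⟨x, hD₀𝒩 hx⟩, h1.1, rfl⟩
  have hD₁L : ∀ x ∈ D₁'.map 𝒩.subtype, x ∈ L₀ → x ∈ D₀ := by
    rintro _ ⟨t, ht, rfl⟩ hxL
    have h1 : t ∈ D₁' ⊓ L₀.subgroupOf 𝒩 := ⟨ht, hxL⟩
    rw [hD₁inf, Subgroup.mem_subgroupOf] at h1
    exact h1
  have hD₁sub : (D₁'.map 𝒩.subtype).subgroupOf 𝒩 = D₁' := by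
    ext x
    rw [Subgroup.mem_subgroupOf]
    constructor
    · rintro ⟨t, ht, hx⟩
      have : t = x := Subtype.ext hx
      rwa [← this]
    · intro hx
      exact ⟨x, hx, rfl⟩
  by_cases hcard : Nat.card (D₁'.map 𝒩.subtype : Subgroup G) ≤ Nat.card D₀
  · -- `D₀` is a defect group
    have heq : D₀ = D₁'.map 𝒩.subtype := Subgroup.eq_of_le_of_card_ge hD₀D₁ hcard
    have h1 : D₁' = D₀.subgroupOf 𝒩 := by
      rw [← hD₁sub, ← heq]
    rw [h1] at hD₁'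
    have hind := isInducedBlock_of_congr hMm 𝒩 ψ₁ χ hψχ
    subst h𝒩
    have hdef := Helper16.fmt_defectGroup hM D₀ hD₀p hind hD₁'
    exact ⟨D₀, hdef, le_rfl, fun z hz _ => hz⟩
  · push Not at hcard
    have hle : Nat.card (D₁'.map 𝒩.subtype : Subgroup G) ≤ Fintype.card G := by
      rw [← Nat.card_eq_fintype_card]
      exact Subgroup.card_le_card_group _
    have hlt : Fintype.card G - Nat.card (D₁'.map 𝒩.subtype : Subgroup G) < n := by omega
    have hD₁𝒩 : D₁'.map 𝒩.subtype ≤ 𝒩 := Subgroup.map_subtype_le _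
    have hC₁ : Subgroup.centralizer ((D₁'.map 𝒩.subtype : Subgroup G) : Set G) ≤ 𝒩 := by
      refine (Subgroup.centralizer_le hD₀D₁).trans ?_
      rw [h𝒩]
      exact Subgroup.centralizer_le_normalizer _
    have hdef₁ : Cfsg.IsDefectGroup p M (Cfsg.blockOf M (ψ₁ : 𝒩 → ℂ))
        ((D₁'.map 𝒩.subtype).subgroupOf 𝒩) := by
      rw [hD₁sub]; exact hD₁'
    obtain ⟨D, hD, hD₁D, hZ⟩ := ih _ hlt (D₁'.map 𝒩.subtype) 𝒩 ψ₁ χ rfl hD₁𝒩 hC₁ hdef₁ hψχ
    refine ⟨D, hD, hD₀D₁.trans hD₁D, fun z hz hzc => ?_⟩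
    have hz₁ := hZ z hz hzc
    apply hD₁L z hz₁
    apply hCL₀
    rw [Subgroup.mem_centralizer_iff]
    intro d hd
    exact (hzc d (hD₁D (hD₀D₁ hd))).symm

end inducedDefect

end Cfsg.Agent.Helper80
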