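/-
Helper library of seat helper80: degrees of characters over an invariant character of a normal
Hall subgroup, and the centre of a Sylow subgroup of a `p`-solvable group (towards the height
bound `ht χ ≤ ν_p |P : Z(P)|` in `p`-solvable groups).
-/
import Cfsg.Agent.Helper74.PDeg
import Cfsg.Agent.Helper15.Gallagher2
import Cfsg.Agent.Helper80.InducedDefect
import Cfsg.Agent.Helper76.PSolvable
import Cfsg.Agent.S0887

set_option autoImplicit false

namespace Cfsg.Agent.Helper80

open Cfsg

universe u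

section RelIto

variable {G : Type u} [Group G] [Fintype G]

/-- If `K ≤ M` are normal in `G`, `M/K` is abelian of order prime to `|K|`, and `χ ∈ Irr(G)` lies
over the `G`-invariant `θ ∈ Irr(K)`, then `χ` has an irreducible constituent on `M` of degree
`θ(1)`. -/
theorem exists_constituent_degree_eq (K M : Subgroup G) [hK : K.Normal] [hMn : M.Normal]
    [Fintype K] [Fintype M] (hKM : K ≤ M) (hcop : (Nat.card K).Coprime (K.relIndex M))
    (hab : ∀ a ∈ M, ∀ b ∈ M, a * b * a⁻¹ * b⁻¹ ∈ K)
    (θ : IrrCharacter K)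
    (hinv : ∀ (g : G) (k : K),
      (θ : K → ℂ) ⟨g * k * g⁻¹, hK.conj_mem (k : G) k.2 g⟩ = (θ : K → ℂ) k)
    (χ : IrrCharacter G)
    (hχ : classInner (fun k : K => (χ : G → ℂ) k) (θ : K → ℂ) ≠ 0) :
    ∃ μ : IrrCharacter M, classInner (fun m : M => (χ : G → ℂ) m) (μ : M → ℂ) ≠ 0 ∧
      charDegree (μ : M → ℂ) = charDegree (θ : K → ℂ) := by
  classical
  let _ : Fintype (IrrCharacter M) := Fintype.ofFinite _
  let _ : Fintype ↥(K.subgroupOf M) := Fintype.ofFinite _
  have hKn' : (K.subgroupOf M).Normal := hK.subgroupOf M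
  set e := Subgroup.subgroupOfEquivOfLe hKM with he
  set θ' := Helper75.irrComp e θ with hθ'
  have hinv' : ∀ (g : M) (k : ↥(K.subgroupOf M)),
      (θ' : ↥(K.subgroupOf M) → ℂ) ⟨g * k * g⁻¹, hKn'.conj_mem (k : M) k.2 g⟩
        = (θ' : ↥(K.subgroupOf M) → ℂ) k := by
    intro g k
    rw [Helper75.irrComp_apply, Helper75.irrComp_apply]
    have := hinv (g : G) (e k)
    rw [← this]
    exact congrArg (θ : K → ℂ) (Subtype.ext rfl)
  have hcop' : (Nat.card ↥(K.subgroupOf M)).Coprime (K.subgroupOf M).index := by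
    rw [Nat.card_congr e.toEquiv]; exact hcop
  obtain ⟨θh, hθh⟩ := Helper74.exists_ext_of_coprime (K.subgroupOf M) hcop' θ' hinv'
  -- decomposition of the restriction of χ to M
  have hres : IsCharacter M (fun m : M => (χ : G → ℂ) m) :=
    Helper79.isCharacter_restrict (Helper79.irr_isCharacter χ) M
  have hsum := Helper75.character_eq_sum_irr hres
  have hne' : classInner (fun k : ↥(K.subgroupOf M) => (fun m : M => (χ : G → ℂ) m) k)
      (θ' : ↥(K.subgroupOf M) → ℂ) ≠ 0 := by
    have h1 := Helper75.classInner_subgroupOf hKM (fun m : M => (χ : G → ℂ) m) (θ : K → ℂ)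
    have h2 : (fun x : ↥(K.subgroupOf M) => (θ : K → ℂ) (Subgroup.subgroupOfEquivOfLe hKM x))
        = (θ' : ↥(K.subgroupOf M) → ℂ) := rfl
    rw [h2] at h1
    rw [h1]
    exact hχ
  have hex : ∃ μ : IrrCharacter M, classInner (fun m : M => (χ : G → ℂ) m) (μ : M → ℂ) ≠ 0 ∧
      classInner (fun k : ↥(K.subgroupOf M) => (μ : M → ℂ) k)
        (θ' : ↥(K.subgroupOf M) → ℂ) ≠ 0 := by
    by_contra hcon
    push Not at hcon
    apply hne'
    have h3 : (fun k : ↥(K.subgroupOf M) => (fun m : M => (χ : G → ℂ) m) k)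
        = ∑ μ : IrrCharacter M, classInner (fun m : M => (χ : G → ℂ) m) (μ : M → ℂ) •
            (fun k : ↥(K.subgroupOf M) => (μ : M → ℂ) k) := by
      funext k
      have := congrFun hsum (k : M)
      show (χ : G → ℂ) ((k : M) : G) = _
      rw [this]
      simp only [Finset.sum_apply, Pi.smul_apply]
    rw [h3, Helper75.classInner_sum_left]
    apply Finset.sum_eq_zero
    intro μ _
    rw [Helper75.classInner_smul_left]
    by_cases h0 : classInner (fun m : M => (χ : G → ℂ) m) (μ : M → ℂ) = 0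
    · rw [h0, zero_mul]
    · rw [hcon μ h0, mul_zero]
  obtain ⟨μ, hμ1, hμ2⟩ := hex
  refine ⟨μ, hμ1, ?_⟩
  -- Gallagher
  have hone : IsIrrCharacter ↥(K.subgroupOf M) (fun _ => (1 : ℂ)) := Helper79.isIrrCharacter_one
  have hprodeq : ((fun _ => (1 : ℂ)) * (θ' : ↥(K.subgroupOf M) → ℂ))
      = (θ' : ↥(K.subgroupOf M) → ℂ) := by
    funext k
    simp
  have hprod : IsIrrCharacter ↥(K.subgroupOf M)
      ((fun _ => (1 : ℂ)) * (θ' : ↥(K.subgroupOf M) → ℂ)) := by
    rw [hprodeq]; exact θ'.2
  have hμcl : IsClassFunction M (μ : M → ℂ) := Helper81.irr_isClassFunction μ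
  have hind : classInner (indFun (K.subgroupOf M)
      ((fun _ => (1 : ℂ)) * (θ' : ↥(K.subgroupOf M) → ℂ))) (μ : M → ℂ) ≠ 0 := by
    rw [hprodeq, Helper3.frobenius_reciprocity (K.subgroupOf M) _ _ hμcl,
      Helper75.classInner_conj_symm]
    intro h
    apply hμ2
    have := congrArg (starRingEnd ℂ) h
    simpa using this
  obtain ⟨β, hβ, hβ1, hβμ⟩ := Helper15.gallagher_surj (K.subgroupOf M) (fun _ => (1 : ℂ))
    (θ' : ↥(K.subgroupOf M) → ℂ) hone (fun _ _ => rfl) hprod (θh : M → ℂ)
    (Helper79.irr_isCharacter θh) hθh (μ : M → ℂ) μ.2 hind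
  have hβker := (Helper15.inner_ind_one_ne_zero_iff (K.subgroupOf M) hβ).mp hβ1
  have hβlin : charDegree β = 1 := by
    apply Helper79.irr_linear_of_commutator_le_ker ⟨β, hβ⟩
    intro x hx
    apply hβker
    have hle : commutator M ≤ K.subgroupOf M := by
      rw [commutator_def, Subgroup.commutator_le]
      intro a _ b _
      rw [Subgroup.mem_subgroupOf]
      have := hab a a.2 b b.2
      simpa [commutatorElement_def] using this
    exact hle hx
  have h1 : (μ : M → ℂ) 1 = (charDegree (θ : K → ℂ) : ℂ) := by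
    rw [← hβμ, Pi.mul_apply, Helper79.isCharacter_one_eq_charDegree (Helper79.isCharacter_of_irr hβ),
      hβlin]
    have h2 := hθh 1
    rw [Subgroup.coe_one] at h2
    rw [h2, Helper75.irrComp_apply, map_one, Helper80.irr_one_eq θ]
    simp
  unfold charDegree
  rw [h1, ← Helper80.irr_one_eq θ]
  
end RelIto

section CenterSylow

variable {G : Type u} [Group G] [Finite G] {p : ℕ} [hp : Fact p.Prime]

/-- The subgroup `M ⊇ K = O_{p'}(G)` with `M/K = Z(O_p(G/K))`. -/
noncomputable def zCoreLift (p : ℕ) (G : Type u) [Group G] : Subgroup G :=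
  haveI := Helper76.pPrimeCore_normal (p := p) (G := G)
  (Cfsg.pCore p (G ⧸ Cfsg.pPrimeCore p G) ⊓
    Subgroup.centralizer (Cfsg.pCore p (G ⧸ Cfsg.pPrimeCore p G) : Set (G ⧸ Cfsg.pPrimeCore p G))).comap
      (QuotientGroup.mk' (Cfsg.pPrimeCore p G))

omit [Finite G] hp in
theorem zCoreLift_normal : (zCoreLift p G).Normal := by
  have := Helper76.pPrimeCore_normal (p := p) (G := G)
  have : (Cfsg.pCore p (G ⧸ Cfsg.pPrimeCore p G)).Normal := Helper76.pCore_normal
  have : (Subgroup.centralizer
      (Cfsg.pCore p (G ⧸ Cfsg.pPrimeCore p G) : Set (G ⧸ Cfsg.pPrimeCore p G))).Normal :=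
    Subgroup.normal_centralizer
  unfold zCoreLift
  exact Subgroup.Normal.comap (Subgroup.normal_inf_normal _ _) _

omit [Finite G] hp in
theorem pPrimeCore_le_zCoreLift : Cfsg.pPrimeCore p G ≤ zCoreLift p G := by
  haveI := Helper76.pPrimeCore_normal (p := p) (G := G)
  intro x hx
  unfold zCoreLift
  rw [Subgroup.mem_comap]
  have : (QuotientGroup.mk' (Cfsg.pPrimeCore p G)) x = 1 := (QuotientGroup.eq_one_iff x).mpr hx
  rw [this]
  exact Subgroup.one_mem _

omit [Finite G] hp in
theorem zCoreLift_comm (a b : G) (ha : a ∈ zCoreLift p G) (hb : b ∈ zCoreLift p G) :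
    a * b * a⁻¹ * b⁻¹ ∈ Cfsg.pPrimeCore p G := by
  haveI := Helper76.pPrimeCore_normal (p := p) (G := G)
  unfold zCoreLift at ha hb
  rw [Subgroup.mem_comap, Subgroup.mem_inf] at ha hb
  have h1 := Subgroup.mem_centralizer_iff.mp hb.2 _ ha.1
  rw [← QuotientGroup.eq_one_iff]
  have h2 : ((a * b * a⁻¹ * b⁻¹ : G) : G ⧸ Cfsg.pPrimeCore p G)
      = (QuotientGroup.mk' (Cfsg.pPrimeCore p G)) a * (QuotientGroup.mk' (Cfsg.pPrimeCore p G)) b *
        ((QuotientGroup.mk' (Cfsg.pPrimeCore p G)) a)⁻¹ *
        ((QuotientGroup.mk' (Cfsg.pPrimeCore p G)) b)⁻¹ := rfl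
  rw [h2, h1]
  group

theorem relIndex_zCoreLift_coprime :
    (Nat.card (Cfsg.pPrimeCore p G)).Coprime ((Cfsg.pPrimeCore p G).relIndex (zCoreLift p G)) := by
  haveI := Helper76.pPrimeCore_normal (p := p) (G := G)
  have hsurj := QuotientGroup.mk'_surjective (Cfsg.pPrimeCore p G)
  have h1 : (Cfsg.pPrimeCore p G) =
      (⊥ : Subgroup (G ⧸ Cfsg.pPrimeCore p G)).comap (QuotientGroup.mk' (Cfsg.pPrimeCore p G)) := by
    rw [MonoidHom.comap_bot, QuotientGroup.ker_mk']
  have h2 : (Cfsg.pPrimeCore p G).relIndex (zCoreLift p G) =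
      Nat.card ↥((zCoreLift p G).map (QuotientGroup.mk' (Cfsg.pPrimeCore p G))) := by
    conv_lhs => rw [h1]
    rw [Subgroup.relIndex_comap, Subgroup.relIndex_bot_left]
  rw [h2]
  unfold zCoreLift
  rw [Subgroup.map_comap_eq_self_of_surjective hsurj]
  have hP : IsPGroup p ↥(Cfsg.pCore p (G ⧸ Cfsg.pPrimeCore p G) ⊓
      Subgroup.centralizer
        (Cfsg.pCore p (G ⧸ Cfsg.pPrimeCore p G) : Set (G ⧸ Cfsg.pPrimeCore p G))) :=
    (Helper76.pCore_isPGroup (p := p)).to_le inf_le_left
  obtain ⟨n, hn⟩ := IsPGroup.iff_card.mp hP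
  rw [hn]
  exact Nat.Coprime.pow_right n (Helper76.pPrimeCore_coprime (p := p) (G := G))

/-- In a `p`-solvable group, `ν_p |G : M| ≤ ν_p |P : Z(P)|` for `M/O_{p'}(G) = Z(O_p(G/O_{p'}(G)))`
and `P` a Sylow `p`-subgroup. -/
theorem factorization_index_zCoreLift_le (hs : Helper76.IsPSolvableElt p G) (P : Sylow p G) :
    ((zCoreLift p G).index).factorization p ≤
      ((Subgroup.center (P : Subgroup G)).index).factorization p := by
  classical
  have hpp : p.Prime := hp.out
  haveI hKn := Helper76.pPrimeCore_normal (p := p) (G := G)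
  set K := Cfsg.pPrimeCore p G with hK
  set π := QuotientGroup.mk' K with hπ
  have hsurj : Function.Surjective π := QuotientGroup.mk'_surjective K
  set R := Cfsg.pCore p (G ⧸ K) with hR
  haveI hRn : R.Normal := Helper76.pCore_normal
  have hRp : IsPGroup p R := Helper76.pCore_isPGroup
  have hsq : Helper76.IsPSolvableElt p (G ⧸ K) := hs.quotient _
  have hbot : Cfsg.pPrimeCore p (G ⧸ K) = ⊥ := Helper76.pPrimeCore_quotient_eq_bot
  have hC := Helper76.centralizer_pCore_le hsq hbot
  set Zb := R ⊓ Subgroup.centralizer (R : Set (G ⧸ K)) with hZb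
  have hM : zCoreLift p G = Zb.comap π := rfl
  have hidx : (zCoreLift p G).index = Zb.index := by
    rw [hM, Subgroup.index_comap_of_surjective _ hsurj]
  -- R ≤ π(P)
  have hRP : R ≤ (P : Subgroup G).map π := by
    have := Helper16.normal_le_sylow R hRp (P.mapSurjective hsurj)
    rwa [Sylow.coe_mapSurjective] at this
  -- the centre of P maps into Zb
  let φ : ↥(Subgroup.center (P : Subgroup G)) →* G ⧸ K :=
    π.comp ((P : Subgroup G).subtype.comp (Subgroup.center (P : Subgroup G)).subtype)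
  have hφ : ∀ z : ↥(Subgroup.center (P : Subgroup G)), φ z = π ((z : ↥(P : Subgroup G)) : G) :=
    fun z => rfl
  have hφZ : φ.range ≤ Zb := by
    rintro _ ⟨z, rfl⟩
    have hcent : φ z ∈ Subgroup.centralizer (R : Set (G ⧸ K)) := by
      rw [Subgroup.mem_centralizer_iff]
      intro r hr
      obtain ⟨x, hx, rfl⟩ := hRP hr
      have hz := Subgroup.mem_center_iff.mp z.2 ⟨x, hx⟩
      have hz' : x * ((z : ↥(P : Subgroup G)) : G) = ((z : ↥(P : Subgroup G)) : G) * x :=
        congrArg Subtype.val hz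
      rw [hφ, ← map_mul, ← map_mul, hz']
    exact Subgroup.mem_inf.mpr ⟨hC hcent, hcent⟩
  have hφinj : Function.Injective φ := by
    rw [injective_iff_map_eq_one]
    intro z hz
    have h1 : ((z : ↥(P : Subgroup G)) : G) ∈ K := by
      rw [hφ] at hz
      exact (QuotientGroup.eq_one_iff _).mp hz
    have h2 := Helper76.pPrimeCore_forall_coprime (p := p) _ h1
    obtain ⟨k, hk⟩ := P.2 (z : ↥(P : Subgroup G))
    have h3 : ((z : ↥(P : Subgroup G)) : G) ^ p ^ k = 1 := by
      have := congrArg Subtype.val hk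
      simpa using this
    have h4 : orderOf ((z : ↥(P : Subgroup G)) : G) ∣ p ^ k := orderOf_dvd_of_pow_eq_one h3
    have h5 : orderOf ((z : ↥(P : Subgroup G)) : G) = 1 :=
      Nat.Coprime.eq_one_of_dvd (Nat.Coprime.pow_right k h2) h4
    have h6 : ((z : ↥(P : Subgroup G)) : G) = 1 := orderOf_eq_one_iff.mp h5
    apply Subtype.ext
    apply Subtype.ext
    simpa using h6
  have hcard1 : Nat.card ↥(Subgroup.center (P : Subgroup G)) ∣ Nat.card Zb := by
    rw [Nat.card_congr (MonoidHom.ofInjective hφinj).toEquiv]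
    exact Subgroup.card_dvd_of_le hφZ
  -- cardinalities
  have e1 : Nat.card (G ⧸ K) = Nat.card Zb * Zb.index := (Subgroup.card_mul_index Zb).symm
  have e2 : Nat.card G = Nat.card (G ⧸ K) * Nat.card K :=
    Subgroup.card_eq_card_quotient_mul_card_subgroup K
  have e3 : Nat.card ↥(P : Subgroup G) = Nat.card ↥(Subgroup.center (P : Subgroup G)) *
      (Subgroup.center (P : Subgroup G)).index := (Subgroup.card_mul_index _).symm
  have e4 : Nat.card ↥(P : Subgroup G) = p ^ (Nat.card G).factorization p :=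
    P.card_eq_multiplicity
  have hK0 : (Nat.card K).factorization p = 0 := by
    apply Nat.factorization_eq_zero_of_not_dvd
    intro h
    have h1 := Helper76.pPrimeCore_coprime (p := p) (G := G)
    have h2 : p ∣ Nat.gcd (Nat.card K) p := Nat.dvd_gcd h dvd_rfl
    rw [h1] at h2
    exact hpp.one_lt.ne' (Nat.dvd_one.mp h2)
  have hZb0 : Nat.card Zb ≠ 0 := Nat.card_pos.ne'
  have hZi0 : Zb.index ≠ 0 := Subgroup.index_ne_zero_of_finite
  have hc0 : Nat.card ↥(Subgroup.center (P : Subgroup G)) ≠ 0 := Nat.card_pos.ne'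
  have hci0 : (Subgroup.center (P : Subgroup G)).index ≠ 0 := Subgroup.index_ne_zero_of_finite
  have f1 : (Nat.card G).factorization p
      = (Nat.card Zb).factorization p + (Zb.index).factorization p := by
    rw [e2, Nat.factorization_mul Nat.card_pos.ne' Nat.card_pos.ne', e1,
      Nat.factorization_mul hZb0 hZi0]
    simp only [Finsupp.coe_add, Pi.add_apply]
    omega
  have f2 : (Nat.card G).factorization p
      = (Nat.card ↥(Subgroup.center (P : Subgroup G))).factorization p +
        ((Subgroup.center (P : Subgroup G)).index).factorization p := by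
    have h := congrArg (fun n : ℕ => n.factorization p) e3
    have h' : (Nat.card ↥(P : Subgroup G)).factorization p =
        (Nat.card ↥(Subgroup.center (P : Subgroup G)) *
          (Subgroup.center (P : Subgroup G)).index).factorization p := h
    rw [e4, Nat.factorization_mul hc0 hci0, Nat.Prime.factorization_pow hpp] at h'
    simpa using h'
  have f3 : (Nat.card ↥(Subgroup.center (P : Subgroup G))).factorization p
      ≤ (Nat.card Zb).factorization p :=
    (Nat.factorization_le_iff_dvd hc0 hZb0).mpr hcard1 p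
  rw [hidx]
  omega

end CenterSylow

section Invariant

variable {G : Type u} [Group G] [Fintype G] {p : ℕ} [hp : Fact p.Prime]

/-- **Invariant case of the height bound**: if `G` is `p`-solvable and `χ ∈ Irr(G)` lies over a
`G`-invariant irreducible character of `O_{p'}(G)`, then `ν_p(χ(1)) ≤ ν_p |P : Z(P)|` for a Sylow
`p`-subgroup `P`. -/
theorem factorization_charDegree_le_of_invariant (hs : Helper76.IsPSolvableElt p G)
    [hKn : (Cfsg.pPrimeCore p G).Normal] [Fintype ↥(Cfsg.pPrimeCore p G)]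
    (θ : IrrCharacter ↥(Cfsg.pPrimeCore p G))
    (hinv : ∀ (g : G) (k : ↥(Cfsg.pPrimeCore p G)),
      (θ : ↥(Cfsg.pPrimeCore p G) → ℂ) ⟨g * k * g⁻¹, hKn.conj_mem (k : G) k.2 g⟩
        = (θ : ↥(Cfsg.pPrimeCore p G) → ℂ) k)
    (χ : IrrCharacter G)
    (hχ : classInner (fun k : ↥(Cfsg.pPrimeCore p G) => (χ : G → ℂ) k)
      (θ : ↥(Cfsg.pPrimeCore p G) → ℂ) ≠ 0)
    (P : Sylow p G) :
    (charDegree (χ : G → ℂ)).factorization p ≤
      ((Subgroup.center (P : Subgroup G)).index).factorization p := by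
  classical
  have hpp : p.Prime := hp.out
  haveI hMn : (zCoreLift p G).Normal := zCoreLift_normal
  let _ : Fintype ↥(zCoreLift p G) := Fintype.ofFinite _
  obtain ⟨μ, hμ1, hμ2⟩ := exists_constituent_degree_eq (Cfsg.pPrimeCore p G) (zCoreLift p G)
    pPrimeCore_le_zCoreLift relIndex_zCoreLift_coprime
    (fun a ha b hb => zCoreLift_comm a b ha hb) θ hinv χ hχ
  have hdiv := Cfsg.Agent.S0887.result (zCoreLift p G) (χ : G → ℂ) χ.2
    (μ : ↥(zCoreLift p G) → ℂ) μ.2 hμ1
    (charDegree (χ : G → ℂ)) (charDegree (μ : ↥(zCoreLift p G) → ℂ)) (Helper80.irr_one_eq χ)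
    (Helper80.irr_one_eq μ)
  have hθ : ¬ p ∣ charDegree (θ : ↥(Cfsg.pPrimeCore p G) → ℂ) := by
    intro h
    have h0 := dvd_trans h (Helper79.irr_charDegree_dvd_card θ)
    have h1 := Helper76.pPrimeCore_coprime (p := p) (G := G)
    have h2 : p ∣ Nat.gcd (Nat.card (Cfsg.pPrimeCore p G)) p := Nat.dvd_gcd h0 dvd_rfl
    rw [h1] at h2
    exact hpp.one_lt.ne' (Nat.dvd_one.mp h2)
  rw [hμ2] at hdiv
  set c := charDegree (χ : G → ℂ) with hc
  set d := charDegree (θ : ↥(Cfsg.pPrimeCore p G) → ℂ) with hd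
  have hc0 : c ≠ 0 := (Helper81.charDegree_pos χ).ne'
  have hcd : c = d * (c / d) := (Nat.mul_div_cancel' hdiv.1).symm
  have hd0 : d ≠ 0 := by
    intro h; rw [h, zero_mul] at hcd; exact hc0 hcd
  have hq0 : c / d ≠ 0 := by
    intro h; rw [h, mul_zero] at hcd; exact hc0 hcd
  have h1 : c.factorization p = d.factorization p + (c / d).factorization p := by
    conv_lhs => rw [hcd]
    rw [Nat.factorization_mul hd0 hq0]
    rfl
  have h2 : d.factorization p = 0 := Nat.factorization_eq_zero_of_not_dvd hθ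
  have h3 : (c / d).factorization p ≤ ((zCoreLift p G).index).factorization p :=
    (Nat.factorization_le_iff_dvd hq0 Subgroup.index_ne_zero_of_finite).mpr hdiv.2 p
  have h4 := factorization_index_zCoreLift_le hs P
  omega

end Invariant

section Transport

/-- The index of the centre is invariant under isomorphism. -/
theorem center_index_eq_of_mulEquiv {A B : Type*} [Group A] [Group B] [Finite A] (e : A ≃* B) :
    (Subgroup.center A).index = (Subgroup.center B).index := by
  have : Finite B := Finite.of_equiv A e.toEquiv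
  have h1 : Nat.card (Subgroup.center A) = Nat.card (Subgroup.center B) :=
    Nat.card_congr (Subgroup.centerCongr e).toEquiv
  have h2 : Nat.card A = Nat.card B := Nat.card_congr e.toEquiv
  have h3 := Subgroup.card_mul_index (Subgroup.center A)
  have h4 := Subgroup.card_mul_index (Subgroup.center B)
  rw [h1, h2, ← h4] at h3
  exact Nat.eq_of_mul_eq_mul_left Nat.card_pos h3

/-- Conjugate subgroups have centres of the same index. -/
theorem center_index_eq_of_conjLE {G : Type*} [Group G] [Finite G] {D D' : Subgroup G}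
    (h : Helper16.ConjLE D D') (hc : Nat.card D = Nat.card D') :
    (Subgroup.center D).index = (Subgroup.center D').index := by
  obtain ⟨x, hx⟩ := h
  let f : D →* D' :=
    { toFun := fun q => ⟨x * q * x⁻¹, hx q q.2⟩
      map_one' := by apply Subtype.ext; simp
      map_mul' := by intro a b; apply Subtype.ext; simp }
  have hinj : Function.Injective f := by
    intro a b hab
    have h1 : x * (a : G) * x⁻¹ = x * (b : G) * x⁻¹ := congrArg Subtype.val hab
    apply Subtype.ext
    simpa using h1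
  have hbij : Function.Bijective f :=
    Function.Injective.bijective_of_nat_card_le hinj hc.symm.le
  exact center_index_eq_of_mulEquiv (MulEquiv.ofBijective f hbij)

end Transport

end Cfsg.Agent.Helper80
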