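/-
Helper library of seat helper80: the central idempotent of an invariant irreducible character of
a normal `p'`-subgroup as a class function, its central-character values, and the Glauberman
correspondent on `K ∩ C_G(R)` (towards blocks of principal type).
-/
import Cfsg.Agent.Helper80.PType1
import Cfsg.Agent.Helper16.BrauerInd
import Cfsg.Agent.Helper76.Cover
import Cfsg.Agent.Helper79.FongBlock5
import Cfsg.Agent.Helper79.ItoMichler
import Cfsg.Agent.S4444

set_option autoImplicit false

namespace Cfsg.Agent.Helper80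

open Cfsg
open scoped ComplexConjugate

universe u

section Transport

/-- Inner products are invariant under transport along an isomorphism. -/
theorem classInner_comp_mulEquiv {A B : Type*} [Group A] [Group B] [Fintype A] [Fintype B]
    (e : A ≃* B) (f g : B → ℂ) :
    classInner (fun a => f (e a)) (fun a => g (e a)) = classInner f g := by
  unfold classInner
  rw [Nat.card_congr e.toEquiv]
  congr 1
  exact Equiv.sum_comp e.toEquiv (fun b => f b * conj (g b))

end Transport

section Idem

variable {G : Type u} [Group G] [Fintype G] (K : Subgroup G) [hK : K.Normal] [Fintype K]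

open Classical in
/-- The coefficient function of the central idempotent of `θ ∈ Irr(K)`, extended by zero. -/
noncomputable def irrIdem (θ : IrrCharacter K) : G → ℂ :=
  fun g => if h : g ∈ K then
    ((charDegree (θ : K → ℂ) : ℂ) / (Nat.card K : ℂ)) * conj ((θ : K → ℂ) ⟨g, h⟩) else 0

omit [Fintype G] hK [Fintype K] in
theorem irrIdem_of_mem (θ : IrrCharacter K) {g : G} (h : g ∈ K) :
    irrIdem K θ g
      = ((charDegree (θ : K → ℂ) : ℂ) / (Nat.card K : ℂ)) * conj ((θ : K → ℂ) ⟨g, h⟩) := by
  simp only [irrIdem]; rw [dif_pos h]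

omit [Fintype G] hK [Fintype K] in
theorem irrIdem_of_not_mem (θ : IrrCharacter K) {g : G} (h : g ∉ K) : irrIdem K θ g = 0 := by
  simp only [irrIdem]; rw [dif_neg h]

omit [Fintype G] [Fintype K] in
theorem irrIdem_isClassFunction (θ : IrrCharacter K)
    (hinv : ∀ (g : G) (n : K),
      (θ : K → ℂ) ⟨g * n * g⁻¹, hK.conj_mem n n.2 g⟩ = (θ : K → ℂ) n) :
    IsClassFunction G (irrIdem K θ) := by
  intro g x
  by_cases hg : g ∈ K
  · have hg' : x * g * x⁻¹ ∈ K := hK.conj_mem g hg x
    rw [irrIdem_of_mem K θ hg, irrIdem_of_mem K θ hg']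
    have := hinv x ⟨g, hg⟩
    rw [← this]
  · have hg' : x * g * x⁻¹ ∉ K := by
      intro h
      apply hg
      have := hK.conj_mem _ h x⁻¹
      simpa [mul_assoc] using this
    rw [irrIdem_of_not_mem K θ hg, irrIdem_of_not_mem K θ hg']

omit [Fintype G] hK in
theorem irrIdem_memLocalRing {p : ℕ} {M : Ideal AlgInt} (hM : IsPModular p M)
    (hKp : ¬ p ∣ Nat.card K) (θ : IrrCharacter K) (g : G) :
    MemLocalRing M (irrIdem K θ g) := by
  have hMm := hM.2.1
  by_cases hg : g ∈ K
  · rw [irrIdem_of_mem K θ hg, div_eq_mul_inv]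
    apply Helper77.memLocalRing_mul hMm
    · apply Helper77.memLocalRing_mul hMm
      · have h1 := Helper77.memLocalRing_algInt hMm (charDegree (θ : K → ℂ) : AlgInt)
        simpa using h1
      · exact Helper77.memLocalRing_natCast_inv hM hKp
    · apply Helper77.memLocalRing_of_isIntegral hMm
      exact map_isIntegral_int (starRingEnd ℂ) (Helper81.irr_isIntegral θ _)
  · rw [irrIdem_of_not_mem K θ hg]; exact Helper77.memLocalRing_zero hMm

omit [Fintype G] hK in
/-- The central character of `θ' ∈ Irr(K)` at the idempotent of `θ`. -/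
theorem omega_irrIdem_res (θ θ' : IrrCharacter K) :
    Helper81.omega (θ' : K → ℂ) (fun n : K => irrIdem K θ n) = if θ' = θ then 1 else 0 := by
  classical
  unfold Helper81.omega
  have hK0 : (Nat.card K : ℂ) ≠ 0 := by exact_mod_cast (Nat.card_pos (α := K)).ne'
  have h1 : ∀ n : K, irrIdem K θ n * (θ' : K → ℂ) n
      = ((charDegree (θ : K → ℂ) : ℂ) / (Nat.card K : ℂ)) *
        ((θ' : K → ℂ) n * conj ((θ : K → ℂ) n)) := by
    intro n
    rw [irrIdem_of_mem K θ n.2]
    ring
  rw [Finset.sum_congr rfl (fun n _ => h1 n), ← Finset.mul_sum]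
  have h2 : ∑ n : K, (θ' : K → ℂ) n * conj ((θ : K → ℂ) n)
      = (Nat.card K : ℂ) * classInner (θ' : K → ℂ) (θ : K → ℂ) := by
    unfold classInner
    field_simp
  rw [h2, Helper15.irr_inner]
  split_ifs with h
  · subst h
    rw [irr_one_eq θ']
    have hd : (charDegree (θ' : K → ℂ) : ℂ) ≠ 0 := by
      exact_mod_cast (irr_degree_pos θ').ne'
    field_simp
  · simp

/-- The central character of `χ ∈ Irr(G)` at the idempotent of the invariant `θ ∈ Irr(K)` is `1`
or `0` according as `χ` lies over `θ` or not. -/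
theorem omega_irrIdem (θ : IrrCharacter K)
    (hinv : ∀ (g : G) (n : K),
      (θ : K → ℂ) ⟨g * n * g⁻¹, hK.conj_mem n n.2 g⟩ = (θ : K → ℂ) n)
    (χ : IrrCharacter G) :
    Helper81.omega (χ : G → ℂ) (irrIdem K θ)
      = if classInner (fun n : K => (χ : G → ℂ) n) (θ : K → ℂ) ≠ 0 then 1 else 0 := by
  classical
  have ha := irrIdem_isClassFunction K θ hinv
  have hsupp : ∀ g : G, g ∉ K → irrIdem K θ g = 0 := fun g hg => irrIdem_of_not_mem K θ hg
  by_cases h : classInner (fun n : K => (χ : G → ℂ) n) (θ : K → ℂ) ≠ 0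
  · rw [if_pos h, Helper76.omega_eq_omega_res_of_constituent K ha hsupp χ θ h, omega_irrIdem_res,
      if_pos rfl]
  · rw [if_neg h]
    have hres : IsCharacter K (fun n : K => (χ : G → ℂ) n) :=
      Helper79.isCharacter_restrict (Helper79.irr_isCharacter χ) K
    have hone : (fun n : K => (χ : G → ℂ) n) 1 ≠ 0 := Helper81.irr_one_ne_zero χ
    obtain ⟨θf, hθf, hcon⟩ := Helper75.exists_irr_constituent hres hone
    have hne : (⟨θf, hθf⟩ : IrrCharacter K) ≠ θ := by
      intro h'
      apply h
      rw [← h']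
      exact hcon
    rw [Helper76.omega_eq_omega_res_of_constituent K ha hsupp χ ⟨θf, hθf⟩ hcon,
      omega_irrIdem_res, if_neg hne]

omit [Fintype G] hK [Fintype K] in
/-- The central character of `η ∈ Irr(K ∩ H)` at the restricted idempotent of `θ`. -/
theorem omega_irrIdem_subgroupOf (θ : IrrCharacter K) (H : Subgroup G)
    [Fintype ↥(K.subgroupOf H)] (η : IrrCharacter ↥(K.subgroupOf H)) :
    Helper81.omega (η : ↥(K.subgroupOf H) → ℂ)
        (fun n : ↥(K.subgroupOf H) => irrIdem K θ ((n : H) : G))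
      = ((charDegree (θ : K → ℂ) : ℂ) / (Nat.card K : ℂ)) *
          (Nat.card ↥(K.subgroupOf H) : ℂ) *
          classInner (η : ↥(K.subgroupOf H) → ℂ)
            (fun n : ↥(K.subgroupOf H) =>
              (θ : K → ℂ) ⟨((n : H) : G), Subgroup.mem_subgroupOf.mp n.2⟩) /
          (η : ↥(K.subgroupOf H) → ℂ) 1 := by
  classical
  unfold Helper81.omega
  have hK0 : (Nat.card ↥(K.subgroupOf H) : ℂ) ≠ 0 := by
    exact_mod_cast (Nat.card_pos (α := ↥(K.subgroupOf H))).ne'
  have h1 : ∀ n : ↥(K.subgroupOf H), irrIdem K θ ((n : H) : G) * (η : ↥(K.subgroupOf H) → ℂ) n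
      = ((charDegree (θ : K → ℂ) : ℂ) / (Nat.card K : ℂ)) *
        ((η : ↥(K.subgroupOf H) → ℂ) n *
          conj ((θ : K → ℂ) ⟨((n : H) : G), Subgroup.mem_subgroupOf.mp n.2⟩)) := by
    intro n
    rw [irrIdem_of_mem K θ (Subgroup.mem_subgroupOf.mp n.2)]
    ring
  rw [Finset.sum_congr rfl (fun n _ => h1 n), ← Finset.mul_sum]
  have h2 : ∑ n : ↥(K.subgroupOf H), (η : ↥(K.subgroupOf H) → ℂ) n *
        conj ((θ : K → ℂ) ⟨((n : H) : G), Subgroup.mem_subgroupOf.mp n.2⟩)
      = (Nat.card ↥(K.subgroupOf H) : ℂ) * classInner (η : ↥(K.subgroupOf H) → ℂ)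
          (fun n : ↥(K.subgroupOf H) =>
            (θ : K → ℂ) ⟨((n : H) : G), Subgroup.mem_subgroupOf.mp n.2⟩) := by
    unfold classInner
    field_simp
  rw [h2]
  ring

end Idem

end Cfsg.Agent.Helper80
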