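/-
Helper library of seat helper80: blocks of principal type.  If `K ⊴ G` is a `p'`-group,
`G/K` has a normal `p`-subgroup containing its centralizer, and `θ ∈ Irr(K)` is `G`-invariant with
`B = Irr(G | θ)` a block, then for every `p`-subgroup `R` exactly one block of `C_G(R)` induces `B`
(the blocks of `C_G(R)` over the Glauberman correspondent of `θ`).
-/
import Cfsg.Agent.Helper80.PType2
import Cfsg.Agent.Helper80.InducedDefect

set_option autoImplicit false

namespace Cfsg.Agent.Helper80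

open Cfsg
open scoped ComplexConjugate

universe u

section Glaub

variable {G : Type u} [Group G] [Fintype G] (K : Subgroup G) [hK : K.Normal] [Fintype K]

/-- The Glauberman correspondent of an `R`-invariant `θ ∈ Irr(K)` as a character of
`K ∩ C_G(R)` (viewed inside `H = C_G(R)`). -/
theorem exists_glauberman_subgroupOf {p : ℕ} [hp : Fact p.Prime] (hKp : ¬ p ∣ Nat.card K)
    (θ : IrrCharacter K)
    (hinv : ∀ (g : G) (n : K),
      (θ : K → ℂ) ⟨g * n * g⁻¹, hK.conj_mem n n.2 g⟩ = (θ : K → ℂ) n)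
    (R : Subgroup G) (hR : IsPGroup p R) (H : Subgroup G)
    (hH : H = Subgroup.centralizer (R : Set G)) [Fintype ↥(K.subgroupOf H)] :
    ∃ β : IrrCharacter ↥(K.subgroupOf H),
      (∃ m : ℕ, classInner
        (fun n : ↥(K.subgroupOf H) =>
          (θ : K → ℂ) ⟨((n : H) : G), Subgroup.mem_subgroupOf.mp n.2⟩)
        (β : ↥(K.subgroupOf H) → ℂ) = (m : ℂ) ∧ ¬ p ∣ m) ∧
      ∀ η : IrrCharacter ↥(K.subgroupOf H), η ≠ β →
        ∃ m : ℕ, classInner
          (fun n : ↥(K.subgroupOf H) =>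
            (θ : K → ℂ) ⟨((n : H) : G), Subgroup.mem_subgroupOf.mp n.2⟩)
          (η : ↥(K.subgroupOf H) → ℂ) = (m : ℂ) ∧ p ∣ m := by
  classical
  have hpp : p.Prime := hp.out
  set C : Subgroup G := K ⊓ H with hC
  let _ : Fintype ↥C := Fintype.ofFinite _
  have hCG : C ≤ K := inf_le_left
  let e : ↥(K.subgroupOf H) ≃* ↥C :=
    { toFun := fun x => ⟨((x : H) : G), ⟨Subgroup.mem_subgroupOf.mp x.2, (x : H).2⟩⟩
      invFun := fun c => ⟨⟨(c : G), c.2.2⟩, Subgroup.mem_subgroupOf.mpr c.2.1⟩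
      left_inv := fun x => rfl
      right_inv := fun c => rfl
      map_mul' := fun x y => rfl }
  have hnorm : ∀ s ∈ R, ∀ g ∈ K, s * g * s⁻¹ ∈ K := fun s _ g hg => hK.conj_mem g hg s
  have hcop : (Nat.card K).Coprime (Nat.card R) := by
    obtain ⟨n, hn⟩ := IsPGroup.iff_card.mp hR
    rw [hn]
    exact Nat.Coprime.pow_right n ((Nat.Prime.coprime_iff_not_dvd hpp).mpr hKp).symm
  have hθinv : ∀ s ∈ R, ∀ g g' : K, (g' : G) = s * g * s⁻¹ →
      (θ : K → ℂ) g' = (θ : K → ℂ) g := by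
    intro s _ g g' hgg'
    rw [← hinv s g]
    exact congrArg (θ : K → ℂ) (Subtype.ext hgg')
  have hC' : C = K ⊓ Subgroup.centralizer (R : Set G) := by rw [hC, hH]
  obtain ⟨h1, -, -, -⟩ := Cfsg.Agent.S4444.result K R hnorm hcop p hpp hR C hC' hCG
  obtain ⟨β, ⟨m, hm, hpm⟩, huniq⟩ := h1 θ hθinv
  have hθC : IsCharacter C (fun c : C => (θ : K → ℂ) ⟨c, hCG c.2⟩) :=
    Helper75.isCharacter_resTo hCG (Helper79.irr_isCharacter θ)
  refine ⟨Helper75.irrComp e β, ⟨m, ?_, hpm⟩, ?_⟩
  · rw [← hm]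
    exact classInner_comp_mulEquiv e (fun c : C => (θ : K → ℂ) ⟨c, hCG c.2⟩) (β : C → ℂ)
  · intro η hη
    have hη₁ : Helper75.irrComp e.symm η ≠ β := by
      intro h
      apply hη
      apply Subtype.ext
      funext n
      have h2 := congrArg (fun ψ : IrrCharacter ↥C => (ψ : ↥C → ℂ) (e n)) h
      simp only [Helper75.irrComp_apply] at h2
      rw [Helper75.irrComp_apply, ← h2, MulEquiv.symm_apply_apply]
    obtain ⟨m', hm'⟩ := Helper3.classInner_isCharacter_nat hθC
      (Helper79.irr_isCharacter (Helper75.irrComp e.symm η))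
    refine ⟨m', ?_, ?_⟩
    · rw [← hm']
      have h3 : (η : ↥(K.subgroupOf H) → ℂ)
          = fun n => (Helper75.irrComp e.symm η : ↥C → ℂ) (e n) := by
        funext n
        rw [Helper75.irrComp_apply, MulEquiv.symm_apply_apply]
      rw [h3]
      exact classInner_comp_mulEquiv e (fun c : C => (θ : K → ℂ) ⟨c, hCG c.2⟩)
        (Helper75.irrComp e.symm η : ↥C → ℂ)
    · by_contra hnd
      exact hη₁ (huniq _ ⟨m', hm', hnd⟩)

end Glaub

section Main

variable {G : Type u} [Group G] [Fintype G]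

/-- An irreducible character of a normal subgroup `N` singled out by a divisibility property of
its multiplicity in a `G`-invariant function is `G`-invariant. -/
theorem invariant_of_unique_mult {p : ℕ} (N : Subgroup G) [hN : N.Normal] [Fintype N]
    (F : N → ℂ) (hF : ∀ (g : G) (n : N), F ⟨g * n * g⁻¹, hN.conj_mem n n.2 g⟩ = F n)
    (β : IrrCharacter N)
    (h1 : ∃ m : ℕ, classInner F (β : N → ℂ) = (m : ℂ) ∧ ¬ p ∣ m)
    (h2 : ∀ η : IrrCharacter N, η ≠ β → ∃ m : ℕ, classInner F (η : N → ℂ) = (m : ℂ) ∧ p ∣ m) :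
    ∀ (g : G) (n : N), (β : N → ℂ) ⟨g * n * g⁻¹, hN.conj_mem n n.2 g⟩ = (β : N → ℂ) n := by
  classical
  intro g
  have key : Helper16.irrConj N g⁻¹ β = β := by
    by_contra hne
    obtain ⟨m', hm', hp'⟩ := h2 _ hne
    obtain ⟨m, hm, hpm⟩ := h1
    have heq : classInner F (Helper16.irrConj N g⁻¹ β : N → ℂ) = classInner F (β : N → ℂ) := by
      unfold classInner
      congr 1
      let σ : N ≃ N := (MulAut.conjNormal g : N ≃* N).toEquiv
      rw [← Equiv.sum_comp σ (fun n => F n * conj ((β : N → ℂ) n))]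
      apply Finset.sum_congr rfl
      intro n _
      have e1 : σ n = ⟨g * n * g⁻¹, hN.conj_mem n n.2 g⟩ := Subtype.ext (by simp [σ])
      rw [e1, hF g n, Helper16.irrConj_apply]
      congr 2
      apply congrArg
      apply Subtype.ext
      simp
    rw [hm', hm] at heq
    have hmm : m' = m := by exact_mod_cast heq
    exact hpm (hmm ▸ hp')
  intro n
  have h3 : (Helper16.irrConj N g⁻¹ β : N → ℂ) n = (β : N → ℂ) n := by rw [key]
  rw [Helper16.irrConj_apply] at h3
  rw [← h3]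
  exact congrArg (β : N → ℂ) (Subtype.ext (by simp))

variable (K : Subgroup G) [hK : K.Normal] [Fintype K]

/-- **Blocks of principal type** (auxiliary form with `H = C_G(R)` as a variable). -/
theorem existsUnique_isInducedBlock_centralizer_aux {p : ℕ} [hp : Fact p.Prime]
    {M : Ideal AlgInt} (hM : IsPModular p M) (hKp : ¬ p ∣ Nat.card K)
    (Pb : Subgroup (G ⧸ K)) [hPn : Pb.Normal] (hPb : IsPGroup p Pb)
    (hCP : Subgroup.centralizer (Pb : Set (G ⧸ K)) ≤ Pb)
    (θ : IrrCharacter K)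
    (hinv : ∀ (g : G) (n : K),
      (θ : K → ℂ) ⟨g * n * g⁻¹, hK.conj_mem n n.2 g⟩ = (θ : K → ℂ) n)
    (B : Set (IrrCharacter G)) (hB : IsPBlock M B)
    (hBdef : ∀ χ : IrrCharacter G,
      χ ∈ B ↔ classInner (fun k : K => (χ : G → ℂ) k) (θ : K → ℂ) ≠ 0)
    (R : Subgroup G) (hR : IsPGroup p R) (H : Subgroup G)
    (hH : H = Subgroup.centralizer (R : Set G)) [Fintype H] [Fintype ↥(K.subgroupOf H)] :
    ∃! f : Set (IrrCharacter H), IsInducedBlock M H f B := by
  classical
  have hpp : p.Prime := hp.out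
  have hMm := hM.2.1
  haveI : M.IsPrime := hMm.isPrime
  have ha : IsClassFunction G (irrIdem K θ) := irrIdem_isClassFunction K θ hinv
  have haS : ∀ g, MemLocalRing M (irrIdem K θ g) := irrIdem_memLocalRing K hM hKp θ
  have haχ : ∀ χ : IrrCharacter G,
      Helper81.omega (χ : G → ℂ) (irrIdem K θ) = if χ ∈ B then 1 else 0 := by
    intro χ
    rw [omega_irrIdem K θ hinv χ]
    by_cases h : χ ∈ B
    · rw [if_pos h, if_pos ((hBdef χ).mp h)]
    · rw [if_neg h, if_neg (fun h' => h ((hBdef χ).mpr h'))]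
  have hHcent : ∀ h : H, (h : G) ∈ Subgroup.centralizer (R : Set G) := fun h => hH ▸ h.2
  have hbrR : ∀ b : G → ℂ, Helper16.brRes R H b = fun h : H => b h := fun b =>
    funext fun h => Helper16.brRes_apply_of_mem b (hHcent h)
  have hbr0 : ∀ b : G → ℂ, Helper16.brRes ⊥ H b = fun h : H => b h := by
    intro b
    funext h
    apply Helper16.brRes_apply_of_mem
    rw [Subgroup.mem_centralizer_iff]
    intro x hx
    have hx1 : x = 1 := by simpa using hx
    rw [hx1, one_mul, mul_one]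
  have hbot : IsPGroup p (⊥ : Subgroup G) := IsPGroup.of_bot
  have hHN0 : H ≤ Subgroup.normalizer ((⊥ : Subgroup G) : Set G) := by
    rw [Subgroup.normalizer_eq_top]; exact le_top
  have hCH : Subgroup.centralizer (R : Set G) ≤ H := hH ▸ le_rfl
  have hHN : H ≤ Subgroup.normalizer (R : Set G) := by
    rw [hH]; exact Subgroup.centralizer_le_normalizer _
  -- induced blocks are detected by the idempotent
  have E1 : ∀ f : Set (IrrCharacter H), IsInducedBlock M H f B → ∀ ξ ∈ f,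
      ¬ MemLocalIdeal M (Helper81.omega (ξ : H → ℂ) (fun h : H => irrIdem K θ h)) := by
    intro f hind ξ hξ hmem
    obtain ⟨χ, hχ⟩ := Helper16.exists_mem_of_isPBlock hMm hB
    have h1 := Helper16.omega_brRes_sub_memLocalIdeal_of_induced hM ⊥ H hbot bot_le hHN0 hind
      hξ hχ ha haS
    rw [hbr0, haχ, if_pos hχ] at h1
    have h2 := Helper77.memLocalIdeal_sub hMm hmem h1
    rw [sub_sub_cancel] at h2
    exact Helper77.not_memLocalIdeal_one hMm h2
  have E2 : ∀ ξ : IrrCharacter H,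
      ¬ MemLocalIdeal M (Helper81.omega (ξ : H → ℂ) (fun h : H => irrIdem K θ h)) →
      IsInducedBlock M H (blockOf M (ξ : H → ℂ)) B := by
    intro ξ hnm
    obtain ⟨χ, hχ⟩ := Helper16.exists_irr_brauer hM R H hR hCH hHN ξ
    have hχB : χ ∈ B := by
      by_contra hnot
      have h1 := hχ (irrIdem K θ) ha haS
      rw [hbrR, haχ, if_neg hnot, sub_zero] at h1
      exact hnm h1
    have h3 := Helper16.isInducedBlock_of_brauer hM ⊥ H hbot bot_le hHN0
      (b := blockOf M (ξ : H → ℂ)) ⟨ξ, rfl⟩ (Helper81.mem_blockOf_self ξ) χ (fun g => by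
        rw [hbr0, ← hbrR]
        exact hχ _ (Helper81.classInd_isClassFunction g) (Helper16.classInd_memLocalRing hMm g))
    rw [← Helper16.eq_blockOf_of_mem hMm hB hχB] at h3
    exact h3
  -- the Glauberman correspondent
  obtain ⟨β, hβ1, hβ2⟩ := exists_glauberman_subgroupOf K hKp θ hinv R hR H hH
  have hK'n : (K.subgroupOf H).Normal := inferInstance
  have hθ'inv : ∀ (g : H) (n : ↥(K.subgroupOf H)),
      (fun n : ↥(K.subgroupOf H) =>
        (θ : K → ℂ) ⟨((n : H) : G), Subgroup.mem_subgroupOf.mp n.2⟩)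
          ⟨g * n * g⁻¹, hK'n.conj_mem n n.2 g⟩
      = (fun n : ↥(K.subgroupOf H) =>
        (θ : K → ℂ) ⟨((n : H) : G), Subgroup.mem_subgroupOf.mp n.2⟩) n := by
    intro g n
    have := hinv (g : G) ⟨((n : H) : G), Subgroup.mem_subgroupOf.mp n.2⟩
    simp only
    rw [← this]
    exact congrArg (θ : K → ℂ) (Subtype.ext rfl)
  have hβinv := invariant_of_unique_mult (p := p) (K.subgroupOf H) _ hθ'inv β hβ1 hβ2
  have hK'p : ¬ p ∣ Nat.card ↥(K.subgroupOf H) := by
    intro h
    apply hKp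
    let φ : ↥(K.subgroupOf H) →* K :=
      { toFun := fun x => ⟨((x : H) : G), Subgroup.mem_subgroupOf.mp x.2⟩
        map_one' := rfl
        map_mul' := fun x y => rfl }
    have hφ : Function.Injective φ := by
      intro x y hxy
      have h1 : ((x : H) : G) = ((y : H) : G) := congrArg (fun k : K => (k : G)) hxy
      exact Subtype.ext (Subtype.ext h1)
    exact dvd_trans h (Subgroup.card_dvd_of_injective φ hφ)
  have hd : ¬ p ∣ charDegree (θ : K → ℂ) := fun h =>
    hKp (dvd_trans h (Helper79.irr_charDegree_dvd_card θ))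
  have hK0 : (Nat.card K : ℂ) ≠ 0 := by exact_mod_cast (Nat.card_pos (α := K)).ne'
  have haH : IsClassFunction H (fun h : H => irrIdem K θ h) := Helper16.isClassFunction_res ha H
  have hsuppH : ∀ h : H, h ∉ K.subgroupOf H → (fun h : H => irrIdem K θ h) h = 0 := by
    intro h hh
    exact irrIdem_of_not_mem K θ (fun h' => hh (Subgroup.mem_subgroupOf.mpr h'))
  -- the value of the central character at the idempotent
  have hval : ∀ (ξ : IrrCharacter H) (η : IrrCharacter ↥(K.subgroupOf H)) (m : ℕ),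
      classInner (fun n : ↥(K.subgroupOf H) => (ξ : H → ℂ) n)
        (η : ↥(K.subgroupOf H) → ℂ) ≠ 0 →
      classInner (fun n : ↥(K.subgroupOf H) =>
        (θ : K → ℂ) ⟨((n : H) : G), Subgroup.mem_subgroupOf.mp n.2⟩)
        (η : ↥(K.subgroupOf H) → ℂ) = (m : ℂ) →
      Helper81.omega (ξ : H → ℂ) (fun h : H => irrIdem K θ h) *
          ((Nat.card K : ℂ) * (charDegree (η : ↥(K.subgroupOf H) → ℂ) : ℂ))
        = ((charDegree (θ : K → ℂ) * Nat.card ↥(K.subgroupOf H) * m : ℕ) : ℂ) := by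
    intro ξ η m hη hm
    have hη0 : (charDegree (η : ↥(K.subgroupOf H) → ℂ) : ℂ) ≠ 0 := by
      exact_mod_cast (irr_degree_pos η).ne'
    rw [Helper76.omega_eq_omega_res_of_constituent (K.subgroupOf H) haH hsuppH ξ η hη,
      omega_irrIdem_subgroupOf K θ H η, Helper15.classInner_conj_symm, hm, Complex.conj_natCast,
      irr_one_eq η]
    push_cast
    field_simp
  have F1 : ∀ ξ : IrrCharacter H,
      classInner (fun n : ↥(K.subgroupOf H) => (ξ : H → ℂ) n)
        (β : ↥(K.subgroupOf H) → ℂ) ≠ 0 →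
      ¬ MemLocalIdeal M (Helper81.omega (ξ : H → ℂ) (fun h : H => irrIdem K θ h)) := by
    intro ξ hξ hmem
    obtain ⟨m, hm, hpm⟩ := hβ1
    have h1 := hval ξ β m hξ hm
    have h2 : MemLocalRing M ((Nat.card K : ℂ) *
        (charDegree (β : ↥(K.subgroupOf H) → ℂ) : ℂ)) := by
      have := Helper77.memLocalRing_algInt hMm
        ((Nat.card K * charDegree (β : ↥(K.subgroupOf H) → ℂ) : ℕ) : AlgInt)
      simpa using this
    have h3 := Helper77.memLocalIdeal_mul' hMm hmem h2
    rw [h1] at h3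
    refine Helper77.not_memLocalIdeal_natCast hM ?_ h3
    intro hdvd
    rcases (Nat.Prime.dvd_mul hpp).mp hdvd with h4 | h4
    · rcases (Nat.Prime.dvd_mul hpp).mp h4 with h5 | h5
      · exact hd h5
      · exact hK'p h5
    · exact hpm h4
  have F2 : ∀ ξ : IrrCharacter H,
      ¬ MemLocalIdeal M (Helper81.omega (ξ : H → ℂ) (fun h : H => irrIdem K θ h)) →
      classInner (fun n : ↥(K.subgroupOf H) => (ξ : H → ℂ) n)
        (β : ↥(K.subgroupOf H) → ℂ) ≠ 0 := by
    intro ξ hnm hzero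
    apply hnm
    have hres : IsCharacter ↥(K.subgroupOf H) (fun n : ↥(K.subgroupOf H) => (ξ : H → ℂ) n) :=
      Helper79.isCharacter_restrict (Helper79.irr_isCharacter ξ) _
    have hone : (fun n : ↥(K.subgroupOf H) => (ξ : H → ℂ) n) 1 ≠ 0 := Helper81.irr_one_ne_zero ξ
    obtain ⟨ηf, hηf, hcon⟩ := Helper75.exists_irr_constituent hres hone
    have hne : (⟨ηf, hηf⟩ : IrrCharacter ↥(K.subgroupOf H)) ≠ β := by
      intro h'
      apply hcon
      have : ηf = (β : ↥(K.subgroupOf H) → ℂ) := congrArg Subtype.val h'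
      rw [this]
      exact hzero
    obtain ⟨m, hm, hpm⟩ := hβ2 ⟨ηf, hηf⟩ hne
    have h1 := hval ξ ⟨ηf, hηf⟩ m hcon hm
    obtain ⟨m'', rfl⟩ := hpm
    have hdη : ¬ p ∣ charDegree ηf := fun h =>
      hK'p (dvd_trans h (Helper79.irr_charDegree_dvd_card (⟨ηf, hηf⟩ :
        IrrCharacter ↥(K.subgroupOf H))))
    have hη0 : (charDegree ηf : ℂ) ≠ 0 := by
      exact_mod_cast (irr_degree_pos (⟨ηf, hηf⟩ : IrrCharacter ↥(K.subgroupOf H))).ne'
    have h2 : Helper81.omega (ξ : H → ℂ) (fun h : H => irrIdem K θ h)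
        = (p : ℂ) * (((charDegree (θ : K → ℂ) * Nat.card ↥(K.subgroupOf H) * m'' : ℕ) : ℂ) *
            ((Nat.card K : ℂ)⁻¹ * (charDegree ηf : ℂ)⁻¹)) := by
      have h1' : Helper81.omega (ξ : H → ℂ) (fun h : H => irrIdem K θ h) *
          ((Nat.card K : ℂ) * (charDegree ηf : ℂ))
          = ((charDegree (θ : K → ℂ) * Nat.card ↥(K.subgroupOf H) * (p * m'') : ℕ) : ℂ) := h1
      have h3 : Helper81.omega (ξ : H → ℂ) (fun h : H => irrIdem K θ h)
          = ((charDegree (θ : K → ℂ) * Nat.card ↥(K.subgroupOf H) * (p * m'') : ℕ) : ℂ) *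
            ((Nat.card K : ℂ)⁻¹ * (charDegree ηf : ℂ)⁻¹) := by
        rw [← h1']
        field_simp
      rw [h3]
      push_cast
      ring
    rw [h2]
    apply Helper77.memLocalIdeal_mul' hMm (Helper77.memLocalIdeal_prime hM)
    apply Helper77.memLocalRing_mul hMm
    · have := Helper77.memLocalRing_algInt hMm
        ((charDegree (θ : K → ℂ) * Nat.card ↥(K.subgroupOf H) * m'' : ℕ) : AlgInt)
      simpa using this
    · exact Helper77.memLocalRing_mul hMm (Helper77.memLocalRing_natCast_inv hM hKp)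
        (Helper77.memLocalRing_natCast_inv hM hdη)
  -- existence and uniqueness
  obtain ⟨ξ₀f, hξ₀f, hξ₀⟩ := Helper79.exists_irr_over_normal (K.subgroupOf H) β.2
  refine ⟨blockOf M ξ₀f, E2 ⟨ξ₀f, hξ₀f⟩ (F1 ⟨ξ₀f, hξ₀f⟩ hξ₀), ?_⟩
  intro f hf
  obtain ⟨ξ, hξ⟩ := Helper16.exists_mem_of_isPBlock hMm hf.1
  have h1 := F2 ξ (E1 f hf ξ hξ)
  obtain ⟨Pn, hPnn, hPnp, hPnC⟩ : ∃ Pn : Subgroup (H ⧸ K.subgroupOf H),
      Pn.Normal ∧ IsPGroup p Pn ∧ Subgroup.centralizer (Pn : Set (H ⧸ K.subgroupOf H)) ≤ Pn := by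
    subst hH
    exact exists_selfCentralizing_centralizer K hKp Pb hPb hCP R hR
  haveI := hPnn
  have hsb := Helper79.fong_sameBlock_over hM (K.subgroupOf H) hK'p Pn hPnp hPnC β hβinv
    ⟨ξ₀f, hξ₀f⟩ ξ hξ₀ h1
  rw [Helper16.eq_blockOf_of_mem hMm hf.1 hξ]
  exact Helper16.blockOf_eq_of_mem hMm hsb

/-- **Blocks of principal type**: if `K ⊴ G` is a `p'`-group, `G/K` has a normal `p`-subgroup
containing its centralizer, `θ ∈ Irr(K)` is `G`-invariant and `B = Irr(G | θ)` is a block, then for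
every `p`-subgroup `R` exactly one block of `C_G(R)` induces `B`. -/
theorem existsUnique_isInducedBlock_centralizer {p : ℕ} [hp : Fact p.Prime]
    {M : Ideal AlgInt} (hM : IsPModular p M) (hKp : ¬ p ∣ Nat.card K)
    (Pb : Subgroup (G ⧸ K)) [hPn : Pb.Normal] (hPb : IsPGroup p Pb)
    (hCP : Subgroup.centralizer (Pb : Set (G ⧸ K)) ≤ Pb)
    (θ : IrrCharacter K)
    (hinv : ∀ (g : G) (n : K),
      (θ : K → ℂ) ⟨g * n * g⁻¹, hK.conj_mem n n.2 g⟩ = (θ : K → ℂ) n)
    (B : Set (IrrCharacter G)) (hB : IsPBlock M B)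
    (hBdef : ∀ χ : IrrCharacter G,
      χ ∈ B ↔ classInner (fun k : K => (χ : G → ℂ) k) (θ : K → ℂ) ≠ 0)
    (R : Subgroup G) (hR : IsPGroup p R) :
    ∃! f : Set (IrrCharacter ↥(Subgroup.centralizer (R : Set G))),
      IsInducedBlock M (Subgroup.centralizer (R : Set G)) f B := by
  classical
  let _ : Fintype ↥(Subgroup.centralizer (R : Set G)) := Fintype.ofFinite _
  let _ : Fintype ↥(K.subgroupOf (Subgroup.centralizer (R : Set G))) := Fintype.ofFinite _
  exact existsUnique_isInducedBlock_centralizer_aux K hM hKp Pb hPb hCP θ hinv B hB hBdef R hR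
    _ rfl

end Main

end Cfsg.Agent.Helper80
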