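import Mathlib

/-!
# PIECE PSL of CALL S2787 (helper50): in `PSL(2, F)`, `|F|` odd, two elements with non-identity
squares generating a 2-group commute (helper80)
-/

set_option autoImplicit false

namespace Cfsg.Agent.Helper80

section aux

variable {F : Type*} [Field F]

theorem qrpsl_aux (a b c d a' b' c' d' p q r s : F) (hq : q ≠ 0)
    (E1 : b * r = q * c) (E2 : q * (a - d) = b * (p - s))
    (E1' : b' * r = q * c') (E2' : q * (a' - d') = b' * (p - s)) :
    b * c' = b' * c ∧ b' * (a - d) = b * (a' - d') ∧ c * (a' - d') = c' * (a - d) := by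
  have hc : c = b * r / q := by field_simp; linear_combination -E1
  have hc' : c' = b' * r / q := by field_simp; linear_combination -E1'
  have ha : a = d + b * (p - s) / q := by field_simp; linear_combination E2
  have ha' : a' = d' + b' * (p - s) / q := by field_simp; linear_combination E2'
  subst hc hc' ha ha'
  refine ⟨?_, ?_, ?_⟩ <;> field_simp <;> ring

/-- The commutant of a non-scalar `2 × 2` matrix is commutative. -/
theorem qrpsl_comm (X Y Z : Matrix (Fin 2) (Fin 2) F) (hX : X * Z = Z * X) (hY : Y * Z = Z * Y)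
    (hZ : Z 0 1 ≠ 0 ∨ Z 1 0 ≠ 0 ∨ Z 0 0 ≠ Z 1 1) : X * Y = Y * X := by
  have x00 := congrFun (congrFun hX 0) 0
  have x01 := congrFun (congrFun hX 0) 1
  have x10 := congrFun (congrFun hX 1) 0
  have y00 := congrFun (congrFun hY 0) 0
  have y01 := congrFun (congrFun hY 0) 1
  have y10 := congrFun (congrFun hY 1) 0
  simp only [Matrix.mul_apply, Fin.sum_univ_two] at x00 x01 x10 y00 y01 y10
  have G : X 0 1 * Y 1 0 = Y 0 1 * X 1 0 ∧
      Y 0 1 * (X 0 0 - X 1 1) = X 0 1 * (Y 0 0 - Y 1 1) ∧
      X 1 0 * (Y 0 0 - Y 1 1) = Y 1 0 * (X 0 0 - X 1 1) := by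
    by_cases h1 : Z 0 1 = 0
    · by_cases h2 : Z 1 0 = 0
      · have h3 : Z 0 0 ≠ Z 1 1 := by
          rcases hZ with h | h | h
          · exact absurd h1 h
          · exact absurd h2 h
          · exact h
        have h3' : Z 0 0 - Z 1 1 ≠ 0 := sub_ne_zero.mpr h3
        simp only [h1, h2, mul_zero, zero_mul, add_zero, zero_add] at x01 x10 y01 y10
        have hb : X 0 1 = 0 := by
          have : X 0 1 * (Z 0 0 - Z 1 1) = 0 := by linear_combination -x01
          exact (mul_eq_zero.mp this).resolve_right h3'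
        have hc : X 1 0 = 0 := by
          have : X 1 0 * (Z 0 0 - Z 1 1) = 0 := by linear_combination x10
          exact (mul_eq_zero.mp this).resolve_right h3'
        have hb' : Y 0 1 = 0 := by
          have : Y 0 1 * (Z 0 0 - Z 1 1) = 0 := by linear_combination -y01
          exact (mul_eq_zero.mp this).resolve_right h3'
        have hc' : Y 1 0 = 0 := by
          have : Y 1 0 * (Z 0 0 - Z 1 1) = 0 := by linear_combination y10
          exact (mul_eq_zero.mp this).resolve_right h3'
        rw [hb, hc, hb', hc']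
        simp
      · obtain ⟨g1, g2, g3⟩ := qrpsl_aux (X 1 1) (X 1 0) (X 0 1) (X 0 0) (Y 1 1) (Y 1 0) (Y 0 1)
          (Y 0 0) (Z 1 1) (Z 1 0) (Z 0 1) (Z 0 0) h2 (by linear_combination -x00)
          (by linear_combination x10) (by linear_combination -y00) (by linear_combination y10)
        exact ⟨by linear_combination -g1, by linear_combination g3, by linear_combination g2⟩
    · exact qrpsl_aux (X 0 0) (X 0 1) (X 1 0) (X 1 1) (Y 0 0) (Y 0 1) (Y 1 0) (Y 1 1) (Z 0 0)
        (Z 0 1) (Z 1 0) (Z 1 1) h1 (by linear_combination x00) (by linear_combination x01)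
        (by linear_combination y00) (by linear_combination y01)
  obtain ⟨g1, g2, g3⟩ := G
  ext i j
  fin_cases i <;> fin_cases j <;> simp only [Matrix.mul_apply, Fin.sum_univ_two, Fin.zero_eta,
    Fin.mk_one, Fin.isValue]
  · linear_combination g1
  · linear_combination g2
  · linear_combination g3
  · linear_combination -g1

end aux

theorem qr_psl {F : Type*} [Field F] [Fintype F] (hF : Odd (Fintype.card F))
    (x y : Matrix.ProjectiveSpecialLinearGroup (Fin 2) F)
    (hT : IsPGroup 2
      (Subgroup.closure ({x, y} : Set (Matrix.ProjectiveSpecialLinearGroup (Fin 2) F))))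
    (hx : x * x ≠ 1) (hy : y * y ≠ 1) : x * y = y * x := by
  classical
  have h2 : (2 : F) ≠ 0 := by
    intro h
    have hc : ringChar F = 2 :=
      CharP.ringChar_of_prime_eq_zero Nat.prime_two (by exact_mod_cast h)
    have := FiniteField.even_card_iff_char_two.mp hc
    rcases hF with ⟨k, hk⟩
    omega
  -- a central involution of the 2-group
  obtain ⟨z, hz1, hzz, hzx, hzy⟩ : ∃ z : Matrix.ProjectiveSpecialLinearGroup (Fin 2) F,
      z ≠ 1 ∧ z * z = 1 ∧ z * x = x * z ∧ z * y = y * z := by
    have hxT : x ∈ Subgroup.closure ({x, y} : Set (Matrix.ProjectiveSpecialLinearGroup (Fin 2) F)) :=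
      Subgroup.subset_closure (by simp)
    have hyT : y ∈ Subgroup.closure ({x, y} : Set (Matrix.ProjectiveSpecialLinearGroup (Fin 2) F)) :=
      Subgroup.subset_closure (by simp)
    have : Nontrivial ↥(Subgroup.closure
        ({x, y} : Set (Matrix.ProjectiveSpecialLinearGroup (Fin 2) F))) := by
      refine ⟨⟨⟨x, hxT⟩, 1, fun h => hx ?_⟩⟩
      have h' : x = 1 := congrArg Subtype.val h
      rw [h', mul_one]
    have : Fact (Nat.Prime 2) := ⟨Nat.prime_two⟩
    have := hT.center_nontrivial
    obtain ⟨⟨z₀, hz₀c⟩, hz₀⟩ := exists_ne (1 : Subgroup.center ↥(Subgroup.closure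
        ({x, y} : Set (Matrix.ProjectiveSpecialLinearGroup (Fin 2) F))))
    have hz₀1 : z₀ ≠ 1 := fun h => hz₀ (Subtype.ext h)
    obtain ⟨k, hk⟩ := (IsPGroup.iff_orderOf.mp hT) z₀
    have hk0 : k ≠ 0 := by
      rintro rfl
      rw [pow_zero, orderOf_eq_one_iff] at hk
      exact hz₀1 hk
    obtain ⟨j, rfl⟩ : ∃ j, k = j + 1 := ⟨k - 1, by omega⟩
    have hw1 : z₀ ^ (2 ^ j) ≠ 1 := by
      apply pow_ne_one_of_lt_orderOf (by positivity)
      rw [hk, pow_succ]
      have : 0 < 2 ^ j := by positivity
      omega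
    have hww : z₀ ^ (2 ^ j) * z₀ ^ (2 ^ j) = 1 := by
      rw [← pow_add, ← two_mul, mul_comm, ← pow_succ, ← hk, pow_orderOf_eq_one]
    have hwc : z₀ ^ (2 ^ j) ∈ Subgroup.center ↥(Subgroup.closure
        ({x, y} : Set (Matrix.ProjectiveSpecialLinearGroup (Fin 2) F))) :=
      Subgroup.pow_mem _ hz₀c _
    rw [Subgroup.mem_center_iff] at hwc
    refine ⟨((z₀ ^ (2 ^ j) : ↥(Subgroup.closure
        ({x, y} : Set (Matrix.ProjectiveSpecialLinearGroup (Fin 2) F)))) :
          Matrix.ProjectiveSpecialLinearGroup (Fin 2) F), ?_, ?_, ?_, ?_⟩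
    · intro h
      exact hw1 (Subtype.ext h)
    · have := congrArg Subtype.val hww
      simpa using this
    · have := congrArg Subtype.val (hwc ⟨x, hxT⟩)
      simpa using this.symm
    · have := congrArg Subtype.val (hwc ⟨y, hyT⟩)
      simpa using this.symm
  obtain ⟨X, rfl⟩ := QuotientGroup.mk_surjective x
  obtain ⟨Y, rfl⟩ := QuotientGroup.mk_surjective y
  obtain ⟨Z, rfl⟩ := QuotientGroup.mk_surjective z
  -- the centre of `SL(2, F)`
  have hcen : ∀ A : Matrix.SpecialLinearGroup (Fin 2) F,
      A ∈ Subgroup.center (Matrix.SpecialLinearGroup (Fin 2) F) ↔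
        (A : Matrix (Fin 2) (Fin 2) F) = 1 ∨ (A : Matrix (Fin 2) (Fin 2) F) = -1 := by
    intro A
    rw [Matrix.SpecialLinearGroup.mem_center_iff]
    constructor
    · rintro ⟨r, hr, hA⟩
      have hr2 : r * r = 1 := by
        have : r ^ 2 = 1 := by simpa using hr
        rw [← this, pow_two]
      rcases mul_self_eq_one_iff.mp hr2 with h | h
      · left
        rw [← hA, h, map_one]
      · right
        rw [← hA, h, map_neg, map_one]
    · rintro (h | h)
      · exact ⟨1, by simp, by rw [h, map_one]⟩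
      · exact ⟨-1, by simp, by rw [h, map_neg, map_one]⟩
  -- Cayley–Hamilton for `SL(2, F)`
  have hCH : ∀ A : Matrix.SpecialLinearGroup (Fin 2) F,
      (A : Matrix (Fin 2) (Fin 2) F) * (A : Matrix (Fin 2) (Fin 2) F) =
        Matrix.trace (A : Matrix (Fin 2) (Fin 2) F) • (A : Matrix (Fin 2) (Fin 2) F) - 1 := by
    intro A
    have hdet := A.det_coe
    rw [Matrix.det_fin_two] at hdet
    ext i j
    fin_cases i <;> fin_cases j <;>
      simp [Matrix.mul_apply, Fin.sum_univ_two, Matrix.trace] <;>
      first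
        | ring1
        | linear_combination -hdet
  -- commutation in `PSL` in terms of matrices
  have hcomm : ∀ A B : Matrix.SpecialLinearGroup (Fin 2) F,
      (QuotientGroup.mk A : Matrix.ProjectiveSpecialLinearGroup (Fin 2) F) * QuotientGroup.mk B =
        QuotientGroup.mk B * QuotientGroup.mk A →
      (B : Matrix (Fin 2) (Fin 2) F) * (A : Matrix (Fin 2) (Fin 2) F) =
          (A : Matrix (Fin 2) (Fin 2) F) * (B : Matrix (Fin 2) (Fin 2) F) ∨
        (B : Matrix (Fin 2) (Fin 2) F) * (A : Matrix (Fin 2) (Fin 2) F) =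
          -((A : Matrix (Fin 2) (Fin 2) F) * (B : Matrix (Fin 2) (Fin 2) F)) := by
    intro A B h
    rw [← QuotientGroup.mk_mul, ← QuotientGroup.mk_mul, QuotientGroup.eq] at h
    obtain ⟨C, hC⟩ : ∃ C : Matrix.SpecialLinearGroup (Fin 2) F, C = (A * B)⁻¹ * (B * A) :=
      ⟨_, rfl⟩
    rw [← hC] at h
    have e : B * A = A * B * C := by rw [hC]; group
    have e' : (B : Matrix (Fin 2) (Fin 2) F) * (A : Matrix (Fin 2) (Fin 2) F) =
        (A : Matrix (Fin 2) (Fin 2) F) * (B : Matrix (Fin 2) (Fin 2) F) *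
          (C : Matrix (Fin 2) (Fin 2) F) := by
      have := congrArg (fun M : Matrix.SpecialLinearGroup (Fin 2) F =>
        (M : Matrix (Fin 2) (Fin 2) F)) e
      simpa only [Matrix.SpecialLinearGroup.coe_mul] using this
    rcases (hcen C).mp h with hc | hc
    · left
      rw [e', hc, mul_one]
    · right
      rw [e', hc, mul_neg, mul_one]
  have hZ1 : Z ∉ Subgroup.center (Matrix.SpecialLinearGroup (Fin 2) F) := by
    intro h
    exact hz1 ((QuotientGroup.eq_one_iff Z).mpr h)
  have hZZ : Z * Z ∈ Subgroup.center (Matrix.SpecialLinearGroup (Fin 2) F) := by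
    rw [← QuotientGroup.eq_one_iff, QuotientGroup.mk_mul]
    exact hzz
  -- `Z` is not scalar
  have hNS : (Z : Matrix (Fin 2) (Fin 2) F) 0 1 ≠ 0 ∨ (Z : Matrix (Fin 2) (Fin 2) F) 1 0 ≠ 0 ∨
      (Z : Matrix (Fin 2) (Fin 2) F) 0 0 ≠ (Z : Matrix (Fin 2) (Fin 2) F) 1 1 := by
    by_contra hcon
    simp only [not_or, not_not] at hcon
    obtain ⟨h01, h10, h00⟩ := hcon
    apply hZ1
    rw [hcen]
    have hdet := Z.det_coe
    rw [Matrix.det_fin_two, h01, h00, zero_mul, sub_zero] at hdet
    rcases mul_self_eq_one_iff.mp hdet with h | h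
    · left
      ext i j
      fin_cases i <;> fin_cases j <;> simp [h01, h10, h00, h]
    · right
      ext i j
      fin_cases i <;> fin_cases j <;> simp [h01, h10, h00, h]
  -- `Z * Z = -1`
  have hZm : (Z : Matrix (Fin 2) (Fin 2) F) * (Z : Matrix (Fin 2) (Fin 2) F) = -1 := by
    rcases (hcen _).mp hZZ with h | h
    · exfalso
      rw [Matrix.SpecialLinearGroup.coe_mul, hCH] at h
      have e00 := congrFun (congrFun h 0) 0
      have e01 := congrFun (congrFun h 0) 1
      have e10 := congrFun (congrFun h 1) 0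
      have e11 := congrFun (congrFun h 1) 1
      simp at e00 e01 e10 e11
      have ht : Matrix.trace (Z : Matrix (Fin 2) (Fin 2) F) = 0 := by
        rcases hNS with hn | hn | hn
        · exact e01.resolve_right hn
        · exact e10.resolve_right hn
        · have : Matrix.trace (Z : Matrix (Fin 2) (Fin 2) F) *
              ((Z : Matrix (Fin 2) (Fin 2) F) 0 0 - (Z : Matrix (Fin 2) (Fin 2) F) 1 1) = 0 := by
            linear_combination e00 - e11
          exact (mul_eq_zero.mp this).resolve_right (sub_ne_zero.mpr hn)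
      rw [ht] at e00
      apply h2
      linear_combination -e00
    · rw [Matrix.SpecialLinearGroup.coe_mul] at h
      exact h
  -- elements with non-identity square commuting with `z` in `PSL` commute with `Z`
  have hlift : ∀ A : Matrix.SpecialLinearGroup (Fin 2) F,
      (QuotientGroup.mk Z : Matrix.ProjectiveSpecialLinearGroup (Fin 2) F) * QuotientGroup.mk A =
        QuotientGroup.mk A * QuotientGroup.mk Z →
      (QuotientGroup.mk A : Matrix.ProjectiveSpecialLinearGroup (Fin 2) F) * QuotientGroup.mk A ≠ 1 →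
      (A : Matrix (Fin 2) (Fin 2) F) * (Z : Matrix (Fin 2) (Fin 2) F) =
        (Z : Matrix (Fin 2) (Fin 2) F) * (A : Matrix (Fin 2) (Fin 2) F) := by
    intro A hA hAA
    rcases hcomm Z A hA with h | h
    · exact h
    · exfalso
      have e1 : (Z : Matrix (Fin 2) (Fin 2) F) * (A : Matrix (Fin 2) (Fin 2) F) *
          (Z : Matrix (Fin 2) (Fin 2) F) = (A : Matrix (Fin 2) (Fin 2) F) := by
        rw [mul_assoc, h, mul_neg, ← mul_assoc, hZm]
        simp
      have e2 : Matrix.trace (A : Matrix (Fin 2) (Fin 2) F) =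
          -Matrix.trace (A : Matrix (Fin 2) (Fin 2) F) := by
        conv_lhs => rw [← e1]
        rw [Matrix.trace_mul_comm, ← mul_assoc, hZm]
        simp
      have e3 : Matrix.trace (A : Matrix (Fin 2) (Fin 2) F) = 0 := by
        have : (2 : F) * Matrix.trace (A : Matrix (Fin 2) (Fin 2) F) = 0 := by
          linear_combination e2
        exact (mul_eq_zero.mp this).resolve_left h2
      apply hAA
      rw [← QuotientGroup.mk_mul, QuotientGroup.eq_one_iff, hcen]
      right
      rw [Matrix.SpecialLinearGroup.coe_mul, hCH, e3]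
      simp
  have hXZ := hlift X hzx hx
  have hYZ := hlift Y hzy hy
  rw [← QuotientGroup.mk_mul, ← QuotientGroup.mk_mul]
  congr 1
  apply Subtype.ext
  simp only [Matrix.SpecialLinearGroup.coe_mul]
  exact qrpsl_comm _ _ _ hXZ hYZ hNS

end Cfsg.Agent.Helper80
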