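import Mathlib
import Cfsg.Agent.Helper79.S4705Defs
import Cfsg.Agent.Helper77.D1Defs2
import Cfsg.Agent.Helper76.CentralChar
import Cfsg.Agent.Helper80.CharOrtho

/-!
Piece COL of SUB-CALL S4705B (helper82): column orthogonality twisted by the central character
of `ζ₀`.
-/

universe u
set_option autoImplicit false
open Cfsg Cfsg.Agent.Helper79 Cfsg.Agent.Helper77
open scoped ComplexConjugate

namespace Cfsg.Agent.Helper80

variable {H : Type u} [Group H] [Finite H]

/-- the central scalar of an irreducible character on the centre -/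
theorem s4705b_col_scalar (ξ : Cfsg.IrrCharacter H) :
    ∃ c : Subgroup.center H → ℂ,
      (∀ (z : Subgroup.center H) (g : H), (ξ : H → ℂ) (g * (z : H)) = c z * (ξ : H → ℂ) g) ∧
      c 1 = 1 ∧ (∀ z w, c (z * w) = c z * c w) ∧ (∀ z, c z * conj (c z) = 1) := by
  obtain ⟨c, hc⟩ := Cfsg.Agent.Helper76.exists_central_scalar (Subgroup.center H).subtype
    (fun z => z.2) ξ
  have h1 := Cfsg.Agent.Helper76.scalar_mul (Subgroup.center H).subtype (ξ : H → ℂ)
    (Cfsg.Agent.Helper76.irr_one_ne_zero ξ) c hc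
  exact ⟨c, fun z g => hc z g, h1.1, h1.2, Cfsg.Agent.Helper76.scalar_norm c h1.1 h1.2⟩

/-- a central element of `p`-power-one is trivial -/
theorem s4705b_col_triv (p : ℕ) [Fact p.Prime] (x : H) (h : D1Hyp p x (Subgroup.center H))
    (w : H) (hw : w ^ p = 1) (hz : w ∈ Subgroup.center H) : w = 1 := by
  have hp : p.Prime := Fact.out
  have h1 : orderOf w ∣ p := orderOf_dvd_of_pow_eq_one hw
  have h2 : orderOf w ∣ Nat.card (Subgroup.center H) := by
    have h3 := orderOf_dvd_natCard (⟨w, hz⟩ : Subgroup.center H)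
    rwa [Subgroup.orderOf_mk] at h3
  rcases (Nat.dvd_prime hp).1 h1 with h3 | h3
  · exact orderOf_eq_one_iff.mp h3
  · rw [h3] at h2
    exact absurd h2 h.hK

/-- `|C(x)| = p |Z(H)|` -/
theorem s4705b_col_cent (p : ℕ) [Fact p.Prime] (x : H) (h : D1Hyp p x (Subgroup.center H)) :
    Nat.card (Subgroup.centralizer ({x} : Set H)) = p * Nat.card (Subgroup.center H) := by
  have hmem : ∀ ak : Subgroup.zpowers x × Subgroup.center H,
      (ak.1 : H) * (ak.2 : H) ∈ Subgroup.centralizer ({x} : Set H) := by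
    rintro ⟨⟨a, ha⟩, ⟨k, hk⟩⟩
    rw [Subgroup.mem_centralizer_singleton_iff]
    obtain ⟨n, rfl⟩ := Subgroup.mem_zpowers_iff.mp ha
    have h1 : x ^ n * x = x * x ^ n := ((Commute.refl x).zpow_left n).eq
    have h2 : x * k = k * x := Subgroup.mem_center_iff.mp hk x
    show x ^ n * k * x = x * (x ^ n * k)
    calc x ^ n * k * x = x ^ n * (k * x) := by rw [mul_assoc]
      _ = x ^ n * (x * k) := by rw [h2]
      _ = (x ^ n * x) * k := by rw [mul_assoc]
      _ = (x * x ^ n) * k := by rw [h1]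
      _ = x * (x ^ n * k) := by rw [mul_assoc]
  have hbij : Function.Bijective
      (fun ak : Subgroup.zpowers x × Subgroup.center H =>
        (⟨(ak.1 : H) * (ak.2 : H), hmem ak⟩ : Subgroup.centralizer ({x} : Set H))) := by
    constructor
    · rintro ⟨⟨a, ha⟩, ⟨k, hk⟩⟩ ⟨⟨a', ha'⟩, ⟨k', hk'⟩⟩ hak
      have hak' : a * k = a' * k' := congrArg Subtype.val hak
      have hw : a'⁻¹ * a = k' * k⁻¹ := by
        rw [eq_mul_inv_iff_mul_eq, mul_assoc, hak', ← mul_assoc, inv_mul_cancel, one_mul]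
      have hw1 : a'⁻¹ * a ∈ Subgroup.zpowers x :=
        (Subgroup.zpowers x).mul_mem ((Subgroup.zpowers x).inv_mem ha') ha
      have hw2 : a'⁻¹ * a ∈ Subgroup.center H := by
        rw [hw]
        exact (Subgroup.center H).mul_mem hk' ((Subgroup.center H).inv_mem hk)
      have hwp : (a'⁻¹ * a) ^ p = 1 := by
        obtain ⟨n, hn⟩ := Subgroup.mem_zpowers_iff.mp hw1
        rw [← hn, ← zpow_natCast, ← zpow_mul, mul_comm, zpow_mul, zpow_natCast, ← h.hx,
          pow_orderOf_eq_one, one_zpow]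
      have h1 := s4705b_col_triv p x h _ hwp hw2
      have e1 : a = a' := by
        have := inv_mul_eq_one.mp h1
        exact this.symm
      have e2 : k = k' := by
        rw [h1] at hw
        have := (mul_inv_eq_one.mp hw.symm)
        exact this.symm
      subst e1 e2
      rfl
    · rintro ⟨g, hg⟩
      rw [Subgroup.mem_centralizer_singleton_iff] at hg
      obtain ⟨i, k, hk, rfl⟩ := (h.hC g).1 hg
      exact ⟨(⟨x ^ i, Subgroup.pow_mem _ (Subgroup.mem_zpowers x) i⟩, ⟨k, hk⟩), rfl⟩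
  rw [← Nat.card_congr (Equiv.ofBijective _ hbij), Nat.card_prod, Nat.card_zpowers, h.hx]

/-- COL: column orthogonality twisted by the central character of `ζ₀`. -/
theorem s4705b_col (p : ℕ) [Fact p.Prime] (x : H) (h : D1Hyp p x (Subgroup.center H))
    (ζ₀ : Cfsg.IrrCharacter H) (T : Finset (Cfsg.IrrCharacter H))
    (hT : ∀ ξ : Cfsg.IrrCharacter H, ξ ∈ T ↔
      (S4705Over (ζ₀ : H → ℂ) (ξ : H → ℂ) ∧ (ξ : H → ℂ) x ≠ 0)) :
    (∀ g : H, ¬ p ∣ orderOf g → ∑ ξ ∈ T, (ξ : H → ℂ) g * conj ((ξ : H → ℂ) x) = 0) ∧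
    ∑ ξ ∈ T, (ξ : H → ℂ) x * conj ((ξ : H → ℂ) x) = (p : ℂ) := by
  classical
  have hp : p.Prime := Fact.out
  letI : Fintype H := Fintype.ofFinite H
  letI : Fintype (Cfsg.IrrCharacter H) := Fintype.ofFinite _
  letI : Fintype (Subgroup.center H) := Fintype.ofFinite _
  choose c hc hc1 hmul hnorm using (fun ξ : Cfsg.IrrCharacter H => s4705b_col_scalar ξ)
  have hval : ∀ (η : Cfsg.IrrCharacter H) (z : Subgroup.center H),
      (η : H → ℂ) (z : H) = c η z * (η : H → ℂ) 1 := by
    intro η z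
    have h1 := hc η z 1
    rwa [one_mul] at h1
  have hne : ∀ η : Cfsg.IrrCharacter H, (η : H → ℂ) 1 ≠ 0 :=
    fun η => Cfsg.Agent.Helper76.irr_one_ne_zero η
  -- `Over` is equality of the central scalars
  have hover : ∀ ξ : Cfsg.IrrCharacter H,
      S4705Over (ζ₀ : H → ℂ) (ξ : H → ℂ) ↔ ∀ z, c ξ z = c ζ₀ z := by
    intro ξ
    constructor
    · intro hov z
      have h1 := hov (z : H) z.2
      rw [hval ξ z, hval ζ₀ z] at h1
      have h2 : (c ξ z - c ζ₀ z) * ((ξ : H → ℂ) 1 * (ζ₀ : H → ℂ) 1) = 0 := by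
        linear_combination h1
      rcases mul_eq_zero.mp h2 with h3 | h3
      · exact sub_eq_zero.mp h3
      · exact absurd h3 (mul_ne_zero (hne ξ) (hne ζ₀))
    · intro heq z hz
      have h1 := hval ξ ⟨z, hz⟩
      have h2 := hval ζ₀ ⟨z, hz⟩
      simp only at h1 h2
      rw [h1, h2, heq]
      ring
  have hZ0 : (Nat.card (Subgroup.center H) : ℂ) ≠ 0 := by
    exact_mod_cast (Nat.card_pos (α := Subgroup.center H)).ne'
  have hB : ∀ ξ : Cfsg.IrrCharacter H, ∑ z : Subgroup.center H, conj (c ζ₀ z) * c ξ z =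
      (Nat.card (Subgroup.center H) : ℂ) *
        (if S4705Over (ζ₀ : H → ℂ) (ξ : H → ℂ) then (1 : ℂ) else 0) := by
    intro ξ
    by_cases hov : S4705Over (ζ₀ : H → ℂ) (ξ : H → ℂ)
    · rw [if_pos hov, mul_one]
      have heq := (hover ξ).1 hov
      have h1 : ∀ z ∈ (Finset.univ : Finset (Subgroup.center H)),
          conj (c ζ₀ z) * c ξ z = 1 := by
        intro z _
        rw [heq z, mul_comm]
        exact hnorm ζ₀ z
      rw [Finset.sum_congr rfl h1, Finset.sum_const, Finset.card_univ, nsmul_eq_mul, mul_one,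
        Nat.card_eq_fintype_card]
    · rw [if_neg hov, mul_zero]
      rcases Cfsg.Agent.Helper76.sum_scalar_dichotomy (c ξ) (c ζ₀) (hmul ξ) (hmul ζ₀)
        (hnorm ζ₀) with h1 | h1
      · rw [← h1]
        apply Finset.sum_congr rfl
        intro z _
        rw [mul_comm]
      · exact absurd ((hover ξ).2 h1) hov
  -- the key identity
  have hmain : ∀ g : H, (Nat.card (Subgroup.center H) : ℂ) *
      ∑ ξ ∈ T, (ξ : H → ℂ) g * conj ((ξ : H → ℂ) x) =
      ∑ z : Subgroup.center H, conj (c ζ₀ z) *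
        ∑ ξ : Cfsg.IrrCharacter H, (ξ : H → ℂ) (g * (z : H)) * conj ((ξ : H → ℂ) x) := by
    intro g
    have hT' : ∑ ξ ∈ T, (ξ : H → ℂ) g * conj ((ξ : H → ℂ) x) =
        ∑ ξ : Cfsg.IrrCharacter H,
          (if S4705Over (ζ₀ : H → ℂ) (ξ : H → ℂ) then (1 : ℂ) else 0) *
            ((ξ : H → ℂ) g * conj ((ξ : H → ℂ) x)) := by
      calc ∑ ξ ∈ T, (ξ : H → ℂ) g * conj ((ξ : H → ℂ) x)
          = ∑ ξ ∈ T, (if S4705Over (ζ₀ : H → ℂ) (ξ : H → ℂ) then (1 : ℂ) else 0) *
              ((ξ : H → ℂ) g * conj ((ξ : H → ℂ) x)) := by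
            apply Finset.sum_congr rfl
            intro ξ hξ
            rw [if_pos ((hT ξ).1 hξ).1, one_mul]
        _ = ∑ ξ : Cfsg.IrrCharacter H,
              (if S4705Over (ζ₀ : H → ℂ) (ξ : H → ℂ) then (1 : ℂ) else 0) *
                ((ξ : H → ℂ) g * conj ((ξ : H → ℂ) x)) := by
            apply Finset.sum_subset (Finset.subset_univ T)
            intro ξ _ hξ
            by_cases hov : S4705Over (ζ₀ : H → ℂ) (ξ : H → ℂ)
            · have hx0 : (ξ : H → ℂ) x = 0 := by
                by_contra h0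
                exact hξ ((hT ξ).2 ⟨hov, h0⟩)
              rw [hx0, map_zero, mul_zero, mul_zero]
            · rw [if_neg hov, zero_mul]
    calc (Nat.card (Subgroup.center H) : ℂ) * ∑ ξ ∈ T, (ξ : H → ℂ) g * conj ((ξ : H → ℂ) x)
        = ∑ ξ : Cfsg.IrrCharacter H, (∑ z : Subgroup.center H, conj (c ζ₀ z) * c ξ z) *
            ((ξ : H → ℂ) g * conj ((ξ : H → ℂ) x)) := by
          rw [hT', Finset.mul_sum]
          apply Finset.sum_congr rfl
          intro ξ _
          rw [hB ξ]
          ring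
      _ = ∑ ξ : Cfsg.IrrCharacter H, ∑ z : Subgroup.center H,
            conj (c ζ₀ z) * ((ξ : H → ℂ) (g * (z : H)) * conj ((ξ : H → ℂ) x)) := by
          apply Finset.sum_congr rfl
          intro ξ _
          rw [Finset.sum_mul]
          apply Finset.sum_congr rfl
          intro z _
          rw [hc ξ z g]
          ring
      _ = ∑ z : Subgroup.center H, ∑ ξ : Cfsg.IrrCharacter H,
            conj (c ζ₀ z) * ((ξ : H → ℂ) (g * (z : H)) * conj ((ξ : H → ℂ) x)) :=
          Finset.sum_comm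
      _ = ∑ z : Subgroup.center H, conj (c ζ₀ z) *
            ∑ ξ : Cfsg.IrrCharacter H, (ξ : H → ℂ) (g * (z : H)) * conj ((ξ : H → ℂ) x) := by
          apply Finset.sum_congr rfl
          intro z _
          rw [Finset.mul_sum]
  constructor
  · intro g hg
    have h1 := hmain g
    have h2 : ∀ z ∈ (Finset.univ : Finset (Subgroup.center H)), conj (c ζ₀ z) *
        ∑ ξ : Cfsg.IrrCharacter H, (ξ : H → ℂ) (g * (z : H)) * conj ((ξ : H → ℂ) x) = 0 := by
      intro z _
      have hnc : ¬ IsConj (g * (z : H)) x := by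
        intro hcj
        obtain ⟨y, hy⟩ := isConj_iff.mp hcj
        have hzc : Commute g (z : H) := (Subgroup.mem_center_iff.mp z.2 g)
        have hpow : (g * (z : H)) ^ (orderOf g * Nat.card (Subgroup.center H)) = 1 := by
          rw [hzc.mul_pow, pow_mul, pow_orderOf_eq_one, one_pow, one_mul, mul_comm, pow_mul,
            ← Subgroup.coe_pow, pow_card_eq_one', Subgroup.coe_one, one_pow]
        have hxp : x ^ (orderOf g * Nat.card (Subgroup.center H)) = 1 := by
          rw [← hy, conj_pow, hpow, mul_one, mul_inv_cancel]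
        have hdvd := orderOf_dvd_of_pow_eq_one hxp
        rw [h.hx] at hdvd
        rcases (Nat.Prime.dvd_mul hp).1 hdvd with h3 | h3
        · exact hg h3
        · exact h.hK h3
      rw [irr_column_orthogonality_of_not_isConj hnc, mul_zero]
    rw [Finset.sum_eq_zero h2] at h1
    rcases mul_eq_zero.mp h1 with h3 | h3
    · exact absurd h3 hZ0
    · exact h3
  · have h1 := hmain x
    have h2 : ∑ z : Subgroup.center H, conj (c ζ₀ z) *
        ∑ ξ : Cfsg.IrrCharacter H, (ξ : H → ℂ) (x * (z : H)) * conj ((ξ : H → ℂ) x) =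
        (Nat.card (Subgroup.centralizer ({x} : Set H)) : ℂ) := by
      rw [Finset.sum_eq_single (1 : Subgroup.center H)]
      · rw [hc1, map_one, one_mul]
        have e : x * ((1 : Subgroup.center H) : H) = x := by rw [Subgroup.coe_one, mul_one]
        rw [e]
        exact irr_column_orthogonality_of_isConj (IsConj.refl x)
      · intro z _ hz1
        have hnc : ¬ IsConj (x * (z : H)) x := by
          intro hcj
          obtain ⟨y, hy⟩ := isConj_iff.mp hcj
          have hzc : Commute x (z : H) := (Subgroup.mem_center_iff.mp z.2 x)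
          have hxp : x ^ p = 1 := by rw [← h.hx, pow_orderOf_eq_one]
          have h3 : y * (x * (z : H)) ^ p * y⁻¹ = 1 := by rw [← conj_pow, hy, hxp]
          have h4 : (x * (z : H)) ^ p = 1 := by
            have h5 : (x * (z : H)) ^ p = y⁻¹ * (y * (x * (z : H)) ^ p * y⁻¹) * y := by group
            rw [h5, h3, mul_one, inv_mul_cancel]
          rw [hzc.mul_pow, hxp, one_mul] at h4
          have h6 := s4705b_col_triv p x h (z : H) h4 z.2
          exact hz1 (Subtype.ext h6)
        rw [irr_column_orthogonality_of_not_isConj hnc, mul_zero]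
      · intro hnot
        exact absurd (Finset.mem_univ _) hnot
    rw [h2, s4705b_col_cent p x h] at h1
    have h3 : (Nat.card (Subgroup.center H) : ℂ) *
        (∑ ξ ∈ T, (ξ : H → ℂ) x * conj ((ξ : H → ℂ) x) - (p : ℂ)) = 0 := by
      rw [mul_sub, h1]
      push_cast
      ring
    rcases mul_eq_zero.mp h3 with h4 | h4
    · exact absurd h4 hZ0
    · exact sub_eq_zero.mp h4

end Cfsg.Agent.Helper80
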