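import Mathlib
import Cfsg.Prelude.Def_Local
import Cfsg.Prelude.Def_Transfer

/-!
# Piece F1 of CALL S5156 (helper85)

A nontrivial `p`-solvable group has `O^p(G) ≠ G` or is not generated by its `p`-elements.
-/

set_option autoImplicit false

open Cfsg

namespace Cfsg.Agent.Helper80

/-- An element whose order is prime to the index of a normal subgroup lies in it. -/
theorem s5156F1_mem_of_coprime {G : Type*} [Group G] [Finite G] (K : Subgroup G) [K.Normal]
    (g : G) (h : (orderOf g).Coprime K.index) : g ∈ K := by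
  have h1 : orderOf (QuotientGroup.mk g : G ⧸ K) ∣ orderOf g := by
    apply orderOf_dvd_of_pow_eq_one
    rw [← QuotientGroup.mk_pow, pow_orderOf_eq_one]
    rfl
  have h2 : orderOf (QuotientGroup.mk g : G ⧸ K) ∣ K.index := by
    rw [Subgroup.index_eq_card]
    exact orderOf_dvd_natCard _
  have h3 : orderOf (QuotientGroup.mk g : G ⧸ K) = 1 := by
    have h4 := Nat.dvd_gcd h1 h2
    rw [Nat.Coprime] at h
    rw [h] at h4
    exact Nat.dvd_one.mp h4
  exact (QuotientGroup.eq_one_iff g).mp (orderOf_eq_one_iff.mp h3)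

/-- **Piece F1 of CALL S5156.** -/
theorem s5156_psolv_residual {p : ℕ} [Fact p.Prime] {G : Type*} [Group G] [Finite G] [Nontrivial G]
    (hG : IsPSolvable p G) :
    pResidual p G ≠ ⊤ ∨ Subgroup.closure {g : G | ∃ k : ℕ, orderOf g = p ^ k} ≠ ⊤ := by
  classical
  have hp : p.Prime := Fact.out
  obtain ⟨n, H, h0, hlast, hmono, hnorm, hstep⟩ := hG
  -- the first index at which the chain reaches `⊤`
  have hex : ∃ j : ℕ, ∃ hj : j < n + 1, H ⟨j, hj⟩ = ⊤ := ⟨n, Nat.lt_succ_self n, hlast⟩
  obtain ⟨hj0, hj0top⟩ := Nat.find_spec hex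
  have hmin : ∀ j : ℕ, j < Nat.find hex → ¬ ∃ hj : j < n + 1, H ⟨j, hj⟩ = ⊤ :=
    fun j hj => Nat.find_min hex hj
  have hne0 : Nat.find hex ≠ 0 := by
    intro h
    have h1 : H ⟨Nat.find hex, hj0⟩ = H 0 := by
      congr 1
      exact Fin.ext h
    rw [h1, h0] at hj0top
    exact bot_ne_top hj0top
  obtain ⟨i, hi⟩ := Nat.exists_eq_succ_of_ne_zero hne0
  have hin : i < n := by omega
  have hKne : H (⟨i, hin⟩ : Fin n).castSucc ≠ ⊤ := by
    intro h
    exact hmin i (by omega) ⟨by omega, h⟩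
  have hsucc : H (⟨i, hin⟩ : Fin n).succ = ⊤ := by
    have h1 : (⟨i, hin⟩ : Fin n).succ = ⟨Nat.find hex, hj0⟩ := by
      apply Fin.ext
      rw [Fin.val_succ]
      exact hi.symm
    rw [h1]
    exact hj0top
  have hK := hstep ⟨i, hin⟩
  rw [hsucc, Subgroup.relIndex_top_right] at hK
  have := hnorm (⟨i, hin⟩ : Fin n).castSucc
  rcases hK with ⟨m, hm⟩ | hcop
  · left
    intro htop
    apply hKne
    rw [eq_top_iff, ← htop, pResidual, Subgroup.closure_le]
    intro g hg
    apply s5156F1_mem_of_coprime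
    rw [hm]
    exact Nat.Coprime.pow_right m hg
  · right
    intro htop
    apply hKne
    rw [eq_top_iff, ← htop, Subgroup.closure_le]
    rintro g ⟨k, hk⟩
    apply s5156F1_mem_of_coprime
    rw [hk]
    exact Nat.Coprime.pow_left k hcop.symm

end Cfsg.Agent.Helper80
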