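import Mathlib
import Cfsg.Prelude.Def_GeometricClasses
import Cfsg.Prelude.Def_Classical
import Cfsg.Agent.Helper96.OHAux
import Cfsg.Agent.Helper47.HTHTIB
import Cfsg.Agent.Helper38.S74T2B

set_option autoImplicit false
set_option linter.unusedSectionVars false
set_option linter.unusedVariables false

/-!
# Sub-CALL S74T2 (helper65), piece FOUR: `t2_four`

Direct proof (no block decomposition): `N = T + 1`, `S = W ⊓ ker N` is totally isotropic, hence
`2 * dim S ≤ dim W` (`Helper47.HT5953.ht_bound`), and `Helper38.S74.t2b_pure` gives `4 ∣ dim W`.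
-/

namespace Cfsg.Agent.Helper80.S74T2

open Module Cfsg Cfsg.Geo Cfsg.Agent.Helper96.OH
open scoped MatrixGroups

section general

variable {ι : Type} [Fintype ι] [DecidableEq ι] {F : Type*} [Field F] (Q : (ι → F) → F)

/-- FOUR [M]: an involution with `polar u (T u) = 0` everywhere whose fixed vectors are pairwise
orthogonal: every invariant nondegenerate `W` has dimension divisible by `4`. -/
theorem t2_four (hQ : IsNondegenerateQuadraticForm Q) (h2 : (2 : F) = 0)
    (T : Module.End F (ι → F)) (hT : OPres Q T) (hTT : T ^ 2 = 1)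
    (halt : ∀ u, QuadraticMap.polar Q u (T u) = 0)
    (hfix : ∀ u v, T u = u → T v = v → QuadraticMap.polar Q u v = 0)
    (W : Submodule F (ι → F)) (hWT : W.map T ≤ W) (hW : ONd Q W) : 4 ∣ finrank F ↥W := by
  classical
  obtain ⟨N, hN⟩ : ∃ N : (ι → F) →ₗ[F] (ι → F), ∀ v, N v = T v + v :=
    ⟨T + LinearMap.id, fun v => rfl⟩
  have hTTv : ∀ v, T (T v) = v := by
    intro v
    have := congrArg (fun f : Module.End F (ι → F) => f v) hTT
    simpa [pow_two] using this
  have hvv : ∀ v : ι → F, v + v = 0 := by
    intro v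
    rw [← two_smul F v, h2, zero_smul]
  have hNN : ∀ v, N (N v) = 0 := by
    intro v
    rw [hN, hN, map_add, hTTv]
    have := hvv (T v + v)
    rw [add_comm v (T v)]
    exact this
  have herm : Cfsg.Agent.Helper90.HT.IsHerm (RingHom.id F) (QuadraticMap.polar Q) :=
    { add_left := fun u u' v => hQ.polar_bilinear.add_left u u' v
      smul_left := fun a u v => hQ.polar_bilinear.smul_left a u v
      symm := fun u v => by
        rw [RingHom.id_apply]
        exact QuadraticMap.polar_comm Q v u
      invol := fun a => rfl }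
  have hNW : ∀ w ∈ W, N w ∈ W := by
    intro w hw
    rw [hN]
    exact W.add_mem (hWT ⟨w, hw, rfl⟩) hw
  refine Cfsg.Agent.Helper38.S74.t2b_pure (pB Q hQ) N ?_ W (W ⊓ LinearMap.ker N) hNW ?_ ?_ ?_ ?_
  · intro v
    rw [hN, map_add, pB_apply, pB_self, halt, h2, zero_mul, add_zero]
  · intro w hw h0
    exact ⟨hw, LinearMap.mem_ker.mpr h0⟩
  · intro w hw
    exact ⟨hNW w hw, LinearMap.mem_ker.mpr (hNN w)⟩
  · refine Cfsg.Agent.Helper47.HT5953.ht_bound (RingHom.id F) (QuadraticMap.polar Q) herm W
      (W ⊓ LinearMap.ker N) ?_ inf_le_left ?_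
    · intro v hv h0
      by_contra hne
      obtain ⟨x, hx, hx0⟩ := (hW v hv hne).2
      exact hx0 (h0 x hx)
    · intro u hu v hv
      have hfixed : ∀ z ∈ W ⊓ LinearMap.ker N, T z = z := by
        intro z hz
        have h1 : T z + z = 0 := by
          rw [← hN]
          exact LinearMap.mem_ker.mp hz.2
        have h3 : T z = -z := eq_neg_of_add_eq_zero_left h1
        have h4 : -z = z := by
          rw [neg_eq_iff_add_eq_zero]
          exact hvv z
        rw [h3, h4]
      exact hfix u v (hfixed u hu) (hfixed v hv)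
  · intro w hw hne
    obtain ⟨x, hx, hx0⟩ := (hW w hw hne).1
    exact ⟨x, hx, by rw [pB_apply]; exact hx0⟩

end general

end Cfsg.Agent.Helper80.S74T2
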