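import Cfsg.Agent.Helper67.S77Defs

/-! Piece F4a of CALL S0429 (helper67). -/

set_option autoImplicit false
set_option linter.unusedSectionVars false

namespace Cfsg.Agent.Helper80.S77F4a

open Cfsg.Agent.Helper67.S77

variable {V : Type*} [Fintype V] [DecidableEq V] {G : SimpleGraph V} [DecidableRel G.Adj]

theorem p_F4a (h1 : F1 G) (h2 : F2 G) (h3 : F3 G) : F4a G := by
  intro x y hxy
  have e1 := h1 x y hxy
  have e2 := h2 x y hxy
  have e3 := h3 x y hxy
  have key : ∀ t : ℕ, 3 * t + 2 * (if t = 0 then 1 else 0) ≤ t ^ 2 + 2 := by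
    intro t
    rcases Nat.eq_zero_or_pos t with rfl | ht
    · simp
    · rw [if_neg (by omega)]
      rcases Nat.lt_or_ge t 3 with h | h
      · interval_cases t <;> norm_num
      · have h' : 3 * t ≤ t * t := Nat.mul_le_mul_right t h
        nlinarith [h']
  have hsum := Finset.sum_le_sum (fun z (_ : z ∈ Rs G x y) => key (t3 G x y z))
  rw [Finset.sum_add_distrib, Finset.sum_add_distrib, ← Finset.mul_sum, ← Finset.mul_sum, e2, e3,
    Finset.sum_const, e1] at hsum
  have hpar : ∑ z ∈ Rs G x y, (if t3 G x y z = 0 then 1 else 0) = (Par G x y).card := by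
    unfold Par
    rw [Finset.card_filter]
  rw [hpar] at hsum
  simp only [smul_eq_mul] at hsum
  omega

end Cfsg.Agent.Helper80.S77F4a
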