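import Mathlib
import Cfsg.Prelude.Def_GeometricClasses
import Cfsg.Prelude.Def_Classical
import Cfsg.Agent.Helper35.S88Defs
import Cfsg.Agent.Helper43.PrimeOrdO
import Cfsg.Agent.Helper98.OPar

/-! Piece CONJ of sub-CALL S88OE (helper43; row S5988). -/

set_option autoImplicit false

namespace Cfsg.Agent.Helper80.S88OE

open Module Polynomial Cfsg Cfsg.Geo Cfsg.Agent.Helper35.S88
open scoped MatrixGroups

universe u

section conc

variable {ι : Type} [Fintype ι] [DecidableEq ι] {F : Type u} [Field F]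

/-- an isometry of `Q` (in `GL`) maps an elliptic subspace to an elliptic subspace of the same
dimension (own copy of ELLMAP, fresh name) -/
theorem oe_conj_ell_map (Q : (ι → F) → F) (g : GL ι F) (hg : g ∈ Cfsg.isometryGroup F Q)
    (W : Submodule F (ι → F)) (hnd : IsNondegenerateOn (QuadraticMap.polar Q) W)
    (hminus : ¬ IsPlusTypeOn Q W) :
    IsNondegenerateOn (QuadraticMap.polar Q) (W.map (Matrix.toLin' (g : Matrix ι ι F))) ∧
      ¬ IsPlusTypeOn Q (W.map (Matrix.toLin' (g : Matrix ι ι F))) ∧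
      finrank F ↥(W.map (Matrix.toLin' (g : Matrix ι ι F))) = finrank F W := by
  have hgQ : ∀ v : ι → F, Q ((g : Matrix ι ι F).mulVec v) = Q v := fun v => hg v v
  have hleft : ∀ v : ι → F, ((g⁻¹ : GL ι F) : Matrix ι ι F).mulVec ((g : Matrix ι ι F).mulVec v) = v := by
    intro v
    rw [Matrix.mulVec_mulVec, ← Units.val_mul, inv_mul_cancel, Units.val_one, Matrix.one_mulVec]
  have hright : ∀ v : ι → F, (g : Matrix ι ι F).mulVec (((g⁻¹ : GL ι F) : Matrix ι ι F).mulVec v) = v := by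
    intro v
    rw [Matrix.mulVec_mulVec, ← Units.val_mul, mul_inv_cancel, Units.val_one, Matrix.one_mulVec]
  have hinj : Function.Injective (Matrix.toLin' (g : Matrix ι ι F)) := by
    intro a b hab
    rw [Matrix.toLin'_apply, Matrix.toLin'_apply] at hab
    rw [← hleft a, ← hleft b, hab]
  have hinj' : Function.Injective (Matrix.toLin' ((g⁻¹ : GL ι F) : Matrix ι ι F)) := by
    intro a b hab
    rw [Matrix.toLin'_apply, Matrix.toLin'_apply] at hab
    rw [← hright a, ← hright b, hab]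
  have hpol : ∀ u v : ι → F, QuadraticMap.polar Q ((g : Matrix ι ι F).mulVec u)
      ((g : Matrix ι ι F).mulVec v) = QuadraticMap.polar Q u v := by
    intro u v
    rw [QuadraticMap.polar, QuadraticMap.polar, ← Matrix.mulVec_add, hgQ, hgQ, hgQ]
  have hdim : finrank F ↥(W.map (Matrix.toLin' (g : Matrix ι ι F))) = finrank F W :=
    (Submodule.equivMapOfInjective _ hinj W).finrank_eq.symm
  refine ⟨?_, ?_, hdim⟩
  · rintro _ ⟨w, hw, rfl⟩ hw0
    have hw0' : w ≠ 0 := by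
      rintro rfl
      exact hw0 (map_zero _)
    obtain ⟨⟨a, ha, ha0⟩, ⟨b, hb, hb0⟩⟩ := hnd w hw hw0'
    refine ⟨⟨Matrix.toLin' (g : Matrix ι ι F) a, Submodule.mem_map_of_mem ha, ?_⟩,
      ⟨Matrix.toLin' (g : Matrix ι ι F) b, Submodule.mem_map_of_mem hb, ?_⟩⟩
    · rw [Matrix.toLin'_apply, Matrix.toLin'_apply, hpol]
      exact ha0
    · rw [Matrix.toLin'_apply, Matrix.toLin'_apply, hpol]
      exact hb0
  · rintro ⟨U, hUW, hUts, hUdim⟩
    apply hminus
    refine ⟨U.map (Matrix.toLin' ((g⁻¹ : GL ι F) : Matrix ι ι F)), ?_, ?_, ?_⟩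
    · rintro _ ⟨u, hu, rfl⟩
      obtain ⟨w, hw, hwu⟩ := hUW hu
      rw [← hwu, Matrix.toLin'_apply, Matrix.toLin'_apply, hleft]
      exact hw
    · rintro _ ⟨u, hu, rfl⟩
      have h1 := hgQ (Matrix.toLin' ((g⁻¹ : GL ι F) : Matrix ι ι F) u)
      rw [Matrix.toLin'_apply, hright] at h1
      rw [Matrix.toLin'_apply, ← h1]
      exact hUts u hu
    · rw [← (Submodule.equivMapOfInjective _ hinj' U).finrank_eq, hUdim, hdim]

end conc

section fin

variable {F : Type u} [Field F] [Fintype F]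

variable {ι : Type} [Fintype ι] [DecidableEq ι]

/-- CONJ [M] (uses ELLMAP, `Cfsg.Agent.Helper43.PrimeOrdO.isConj_of_charpoly`): isometries of order
`r` with the same characteristic polynomial fix elliptic subspaces of the same dimensions. -/
theorem oe_conj (p : ℕ) [Fact p.Prime] [CharP F p] (Q : (ι → F) → F)
    (hQ : IsNondegenerateQuadraticForm Q) (r : ℕ) [Fact r.Prime] (hr2 : 2 < r) (hrp : r ≠ p)
    (x y : GL ι F) (hx : x ∈ Cfsg.isometryGroup F Q) (hy : y ∈ Cfsg.isometryGroup F Q)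
    (hxr : x ^ r = 1) (hx1 : x ≠ 1) (hyr : y ^ r = 1) (hy1 : y ≠ 1)
    (hch : (x : Matrix ι ι F).charpoly = (y : Matrix ι ι F).charpoly) (k : ℕ)
    (h : InvEll Q (y : Matrix ι ι F) k) : InvEll Q (x : Matrix ι ι F) k := by
  have hrprime : r.Prime := Fact.out
  have hpprime : p.Prime := Fact.out
  have hcop : r.Coprime p := (Nat.coprime_primes hrprime hpprime).mpr hrp
  have hodd : Odd r := hrprime.odd_of_ne_two (by omega)
  obtain ⟨gx, hgx⟩ : ∃ gx : ↥(Cfsg.isometryGroup F ⇑(Cfsg.Agent.Helper98.op_qf Q hQ)),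
      (gx : GL ι F) = x := ⟨⟨x, hx⟩, rfl⟩
  obtain ⟨gy, hgy⟩ : ∃ gy : ↥(Cfsg.isometryGroup F ⇑(Cfsg.Agent.Helper98.op_qf Q hQ)),
      (gy : GL ι F) = y := ⟨⟨y, hy⟩, rfl⟩
  have hox : orderOf gx = r := by
    apply orderOf_eq_prime
    · apply Subtype.ext
      rw [Subgroup.coe_pow, hgx, hxr]
      rfl
    · intro h1
      apply hx1
      rw [← hgx, h1]
      rfl
  have hoy : orderOf gy = r := by
    apply orderOf_eq_prime
    · apply Subtype.ext
      rw [Subgroup.coe_pow, hgy, hyr]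
      rfl
    · intro h1
      apply hy1
      rw [← hgy, h1]
      rfl
  have hconj : IsConj gx gy := by
    apply Cfsg.Agent.Helper43.PrimeOrdO.isConj_of_charpoly (p := p) (Cfsg.Agent.Helper98.op_qf Q hQ)
      (Cfsg.Agent.Helper98.op_qf_nondeg Q hQ) gx gy
    · rw [hox]; exact hodd
    · rw [hox]; exact hcop
    · rw [hoy]; exact hcop
    · rw [hgx, hgy]; exact hch
  obtain ⟨c, hc⟩ := isConj_iff.mp hconj
  -- `c * gx * c⁻¹ = gy`; put `g := c⁻¹` in `GL`
  obtain ⟨g, hg⟩ : ∃ g : GL ι F, g = ((c⁻¹ : ↥(Cfsg.isometryGroup F ⇑(Cfsg.Agent.Helper98.op_qf Q hQ))) : GL ι F) :=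
    ⟨_, rfl⟩
  have hgmem : g ∈ Cfsg.isometryGroup F Q := by
    rw [hg]
    exact (c⁻¹).2
  have hxg : x * g = g * y := by
    have h1 : gx * c⁻¹ = c⁻¹ * gy := by
      rw [← hc]
      group
    have h2 := congrArg (fun z : ↥(Cfsg.isometryGroup F ⇑(Cfsg.Agent.Helper98.op_qf Q hQ)) => (z : GL ι F)) h1
    simp only [Subgroup.coe_mul] at h2
    rw [hgx, hgy] at h2
    rw [hg]
    exact h2
  obtain ⟨W, ⟨hWk, hWnd, hWm⟩, hWy⟩ := h
  obtain ⟨h1, h2, h3⟩ := oe_conj_ell_map Q g hgmem W hWnd hWm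
  refine ⟨W.map (Matrix.toLin' (g : Matrix ι ι F)), ⟨by rw [h3, hWk], h1, h2⟩, ?_⟩
  rintro _ ⟨_, ⟨w, hw, rfl⟩, rfl⟩
  have h4 : Matrix.toLin' (x : Matrix ι ι F) (Matrix.toLin' (g : Matrix ι ι F) w) =
      Matrix.toLin' (g : Matrix ι ι F) (Matrix.toLin' (y : Matrix ι ι F) w) := by
    rw [Matrix.toLin'_apply, Matrix.toLin'_apply, Matrix.toLin'_apply, Matrix.toLin'_apply,
      Matrix.mulVec_mulVec, Matrix.mulVec_mulVec, ← Units.val_mul, ← Units.val_mul, hxg]
  rw [h4]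
  exact Submodule.mem_map_of_mem (hWy (Submodule.mem_map_of_mem hw))

end fin

end Cfsg.Agent.Helper80.S88OE
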