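import Mathlib
import Cfsg.Prelude.Def_GeometricClasses
import Cfsg.Agent.Helper90.SFRDefs
import Cfsg.Agent.Helper51.SFRNECDIAG
import Cfsg.Agent.Helper80.SFRCount

/-!
# PIECE BADE1 of CALL S5965 (helper90): a homology `diag(μ, …, μ, μζ)` is not conjugate into the
subfield subgroup (helper80)
-/

set_option autoImplicit false
set_option linter.unusedVariables false

namespace Cfsg.Agent.Helper80

open Module Polynomial Cfsg.Agent.Helper90.SFR

section top
variable {F : Type*} [Field F] [Fintype F]

theorem bad_homology (F₀ : Subfield F) (q₀ : ℕ) (hF₀ : Nat.card ↥F₀ = q₀) (r : ℕ) [Fact r.Prime]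
    (hr : r ∣ Fintype.card F - 1) (hr0 : ¬ r ∣ q₀ - 1) (n : ℕ) (hn : 3 ≤ n)
    (hv : padicValNat r n < padicValNat r (Fintype.card F - 1)) : IsBad F₀ n r := by
  classical
  obtain ⟨μ, ζ, hμ0, hζr, hζ1, hμζ⟩ := SFRCount.sfr_exists_mu_zeta (F := F) r n (by omega) hv
  have hq₀ : 0 < q₀ := by
    rw [← hF₀]
    exact Nat.card_pos
  obtain ⟨i₀, hi₀⟩ : ∃ i₀ : Fin n, i₀ = ⟨0, by omega⟩ := ⟨_, rfl⟩
  obtain ⟨i₁, hi₁⟩ : ∃ i₁ : Fin n, i₁ = ⟨1, by omega⟩ := ⟨_, rfl⟩
  have hi₁₀ : i₁ ≠ i₀ := by
    rw [hi₀, hi₁]
    intro h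
    have := congrArg Fin.val h
    simp at this
  obtain ⟨d, hd⟩ : ∃ d : Fin n → F, d = fun i => μ * (if i = i₀ then ζ else 1) := ⟨_, rfl⟩
  have hdet : (Matrix.diagonal d).det = 1 := by
    rw [Matrix.det_diagonal, hd, Finset.prod_mul_distrib, Finset.prod_const, Finset.card_univ,
      Fintype.card_fin, Finset.prod_ite_eq' Finset.univ i₀ (fun _ => ζ)]
    simpa using hμζ
  obtain ⟨x, hx⟩ : ∃ x : Matrix.SpecialLinearGroup (Fin n) F,
      (x : Matrix (Fin n) (Fin n) F) = Matrix.diagonal d := ⟨⟨Matrix.diagonal d, hdet⟩, rfl⟩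
  refine ⟨x, ⟨μ ^ r, ?_⟩, ?_, ?_⟩
  · rw [Matrix.SpecialLinearGroup.coe_pow, hx, Matrix.diagonal_pow, Matrix.smul_one_eq_diagonal]
    congr 1
    funext i
    rw [hd]
    simp only [Pi.pow_apply, mul_pow]
    by_cases hi : i = i₀
    · rw [if_pos hi, hζr, mul_one]
    · rw [if_neg hi, one_pow, mul_one]
  · intro z hz
    have hz' : Matrix.diagonal d = z • (1 : Matrix (Fin n) (Fin n) F) := by rw [← hx]; exact hz
    have e0 := congrFun (congrFun hz' i₀) i₀
    have e1 := congrFun (congrFun hz' i₁) i₁
    simp only [Matrix.diagonal_apply_eq, Matrix.smul_apply, Matrix.one_apply_eq, smul_eq_mul,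
      mul_one] at e0 e1
    rw [hd] at e0 e1
    simp only [if_true, if_neg hi₁₀, mul_one] at e0 e1
    rw [← e1] at e0
    exact hζ1 (mul_left_cancel₀ hμ0 (by rw [e0, mul_one]))
  · intro hconj
    obtain ⟨c, hc, hM⟩ := Cfsg.Agent.Helper51.conj_diag_nec F₀ q₀ hF₀ n x d hx hconj
    obtain ⟨a, ha⟩ : ∃ a : F, a = c * μ := ⟨_, rfl⟩
    have ha0 : a ≠ 0 := by
      rw [ha]
      exact mul_ne_zero hc hμ0
    have hf : ∀ i, c * d i = if i = i₀ then a * ζ else a := by
      intro i
      rw [hd, ha]
      by_cases hi : i = i₀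
      · simp only [if_pos hi]
        ring
      · simp only [if_neg hi]
        ring
    have hab : a * ζ ≠ a := by
      intro h
      exact hζ1 (mul_left_cancel₀ ha0 (by rw [h, mul_one]))
    have hcount := SFRCount.sfr_count_eq (fun i : Fin n => c * d i) (fun i => (c * d i) ^ q₀) hM
    -- step 1
    have h1 : a ^ q₀ = a := by
      by_contra hne
      have hge : n - 1 ≤ (Finset.univ.filter fun i : Fin n => (c * d i) ^ q₀ = a ^ q₀).card := by
        have hsub : (Finset.univ.erase i₀) ⊆
            Finset.univ.filter (fun i : Fin n => (c * d i) ^ q₀ = a ^ q₀) := by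
          intro i hi
          rw [Finset.mem_erase] at hi
          rw [Finset.mem_filter, hf, if_neg hi.1]
          exact ⟨Finset.mem_univ _, rfl⟩
        have := Finset.card_le_card hsub
        rwa [Finset.card_erase_of_mem (Finset.mem_univ _), Finset.card_univ, Fintype.card_fin] at this
      have hle : (Finset.univ.filter fun i : Fin n => c * d i = a ^ q₀).card ≤ 1 := by
        have hsub : Finset.univ.filter (fun i : Fin n => c * d i = a ^ q₀) ⊆ {i₀} := by
          intro i hi
          rw [Finset.mem_filter] at hi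
          rw [Finset.mem_singleton]
          by_contra hi0
          rw [hf, if_neg hi0] at hi
          exact hne hi.2.symm
        simpa using Finset.card_le_card hsub
      rw [hcount] at hge
      omega
    -- step 2
    have h2 : (a * ζ) ^ q₀ ≠ a := by
      intro h
      have hall : (Finset.univ.filter fun i : Fin n => (c * d i) ^ q₀ = a).card = n := by
        rw [Finset.filter_true_of_mem, Finset.card_univ, Fintype.card_fin]
        intro i _
        rw [hf]
        by_cases hi : i = i₀
        · rw [if_pos hi]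
          exact h
        · rw [if_neg hi]
          exact h1
      have hcnt : (Finset.univ.filter fun i : Fin n => c * d i = a).card = n - 1 := by
        have : Finset.univ.filter (fun i : Fin n => c * d i = a) = Finset.univ.erase i₀ := by
          ext i
          rw [Finset.mem_filter, Finset.mem_erase, hf]
          by_cases hi : i = i₀
          · rw [if_pos hi]
            simp [hab, hi]
          · rw [if_neg hi]
            simp [hi]
        rw [this, Finset.card_erase_of_mem (Finset.mem_univ _), Finset.card_univ, Fintype.card_fin]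
      rw [hcount, hcnt] at hall
      omega
    -- step 3
    have h3 : (a * ζ) ^ q₀ = a * ζ := by
      have hpos : 0 < (Finset.univ.filter fun i : Fin n => (c * d i) ^ q₀ = (a * ζ) ^ q₀).card := by
        apply Finset.card_pos.mpr
        refine ⟨i₀, ?_⟩
        rw [Finset.mem_filter, hf, if_pos rfl]
        exact ⟨Finset.mem_univ _, rfl⟩
      rw [hcount] at hpos
      obtain ⟨i, hi⟩ := Finset.card_pos.mp hpos
      rw [Finset.mem_filter, hf] at hi
      by_cases hi0 : i = i₀
      · rw [if_pos hi0] at hi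
        exact hi.2.symm
      · rw [if_neg hi0] at hi
        exact absurd hi.2.symm h2
    have h4 : ζ ^ q₀ = ζ := by
      rw [mul_pow, h1] at h3
      exact mul_left_cancel₀ ha0 h3
    exact hr0 (SFRCount.sfr_zeta_dvd r ζ hζr hζ1 q₀ hq₀ h4)

end top

end Cfsg.Agent.Helper80
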