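import Mathlib
import Cfsg.Prelude.Def_GeometricClasses
import Cfsg.Agent.Helper90.SFRDefs
import Cfsg.Agent.Helper51.SFRNECDIAG
import Cfsg.Agent.Helper80.SFRCount

/-!
# PIECE BADE4 of CALL S5965 (helper90): `diag(ζ, ζ, ζ⁻², 1, …, 1)` is not conjugate into the
subfield subgroup (helper80)
-/

set_option autoImplicit false
set_option linter.unusedVariables false

namespace Cfsg.Agent.Helper80

open Module Polynomial Cfsg.Agent.Helper90.SFR

section top
variable {F : Type*} [Field F] [Fintype F]

theorem bad_three (F₀ : Subfield F) (q₀ : ℕ) (hF₀ : Nat.card ↥F₀ = q₀) (r : ℕ) [Fact r.Prime]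
    (hr2 : r ≠ 2) (hr : r ∣ Fintype.card F - 1) (hr0 : ¬ r ∣ q₀ - 1) (n : ℕ) (hn : 6 ≤ n)
    (hgap : ¬ (n = 6 ∧ r = 3)) : IsBad F₀ n r := by
  classical
  have hrp : r.Prime := Fact.out
  obtain ⟨ζ, hζr, hζ1⟩ := SFRCount.sfr_exists_zeta (F := F) r hr
  have hζ0 : ζ ≠ 0 := by
    rintro rfl
    rw [zero_pow hrp.ne_zero] at hζr
    exact zero_ne_one hζr
  have hoζ : orderOf ζ = r := orderOf_eq_prime hζr hζ1
  have hq₀ : 0 < q₀ := by
    rw [← hF₀]
    exact Nat.card_pos
  obtain ⟨i₁, hi₁⟩ : ∃ i : Fin n, i = ⟨0, by omega⟩ := ⟨_, rfl⟩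
  obtain ⟨i₂, hi₂⟩ : ∃ i : Fin n, i = ⟨1, by omega⟩ := ⟨_, rfl⟩
  obtain ⟨i₃, hi₃⟩ : ∃ i : Fin n, i = ⟨2, by omega⟩ := ⟨_, rfl⟩
  obtain ⟨i₄, hi₄⟩ : ∃ i : Fin n, i = ⟨3, by omega⟩ := ⟨_, rfl⟩
  have h12 : i₁ ≠ i₂ := by
    rw [hi₁, hi₂]; intro h; have := congrArg Fin.val h; simp at this
  have h13 : i₁ ≠ i₃ := by
    rw [hi₁, hi₃]; intro h; have := congrArg Fin.val h; simp at this
  have h23 : i₂ ≠ i₃ := by
    rw [hi₂, hi₃]; intro h; have := congrArg Fin.val h; simp at this
  have h41 : i₄ ≠ i₁ := by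
    rw [hi₁, hi₄]; intro h; have := congrArg Fin.val h; simp at this
  have h42 : i₄ ≠ i₂ := by
    rw [hi₂, hi₄]; intro h; have := congrArg Fin.val h; simp at this
  have h43 : i₄ ≠ i₃ := by
    rw [hi₃, hi₄]; intro h; have := congrArg Fin.val h; simp at this
  obtain ⟨d, hd⟩ : ∃ d : Fin n → F, d = fun i => (if i = i₁ then ζ else 1) *
      (if i = i₂ then ζ else 1) * (if i = i₃ then ζ⁻¹ ^ 2 else 1) := ⟨_, rfl⟩
  have hd1 : d i₁ = ζ := by
    rw [hd]; simp [h12, h13]
  have hd2 : d i₂ = ζ := by
    rw [hd]; simp [h12.symm, h23]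
  have hd3 : d i₃ = ζ⁻¹ ^ 2 := by
    rw [hd]; simp [h13.symm, h23.symm]
  have hdo : ∀ i, i ≠ i₁ → i ≠ i₂ → i ≠ i₃ → d i = 1 := by
    intro i a1 a2 a3
    rw [hd]; simp [a1, a2, a3]
  have hdet : (Matrix.diagonal d).det = 1 := by
    rw [Matrix.det_diagonal, hd, Finset.prod_mul_distrib, Finset.prod_mul_distrib,
      Finset.prod_ite_eq' Finset.univ i₁ (fun _ => ζ), Finset.prod_ite_eq' Finset.univ i₂ (fun _ => ζ),
      Finset.prod_ite_eq' Finset.univ i₃ (fun _ => ζ⁻¹ ^ 2)]
    simp only [Finset.mem_univ, if_true]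
    field_simp
  obtain ⟨x, hx⟩ : ∃ x : Matrix.SpecialLinearGroup (Fin n) F,
      (x : Matrix (Fin n) (Fin n) F) = Matrix.diagonal d := ⟨⟨Matrix.diagonal d, hdet⟩, rfl⟩
  refine ⟨x, ⟨1, ?_⟩, ?_, ?_⟩
  · rw [Matrix.SpecialLinearGroup.coe_pow, hx, Matrix.diagonal_pow, Matrix.smul_one_eq_diagonal]
    congr 1
    funext i
    rw [hd]
    simp only [Pi.pow_apply, mul_pow]
    have e1 : (if i = i₁ then ζ else 1) ^ r = 1 := by
      by_cases h : i = i₁
      · rw [if_pos h, hζr]
      · rw [if_neg h, one_pow]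
    have e2 : (if i = i₂ then ζ else 1) ^ r = 1 := by
      by_cases h : i = i₂
      · rw [if_pos h, hζr]
      · rw [if_neg h, one_pow]
    have e3 : (if i = i₃ then ζ⁻¹ ^ 2 else 1) ^ r = 1 := by
      by_cases h : i = i₃
      · rw [if_pos h, ← pow_mul, mul_comm, pow_mul, inv_pow, hζr, inv_one, one_pow]
      · rw [if_neg h, one_pow]
    rw [e1, e2, e3, mul_one, mul_one]
  · intro z hz
    have hz' : Matrix.diagonal d = z • (1 : Matrix (Fin n) (Fin n) F) := by rw [← hx]; exact hz
    have e0 := congrFun (congrFun hz' i₁) i₁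
    have e1 := congrFun (congrFun hz' i₄) i₄
    simp only [Matrix.diagonal_apply_eq, Matrix.smul_apply, Matrix.one_apply_eq, smul_eq_mul,
      mul_one] at e0 e1
    rw [hd1] at e0
    rw [hdo i₄ h41 h42 h43] at e1
    exact hζ1 (by rw [e0, ← e1])
  · intro hconj
    obtain ⟨c, hc, hM⟩ := Cfsg.Agent.Helper51.conj_diag_nec F₀ q₀ hF₀ n x d hx hconj
    have hcount := SFRCount.sfr_count_eq (fun i : Fin n => c * d i) (fun i => (c * d i) ^ q₀) hM
    obtain ⟨s, hs⟩ : ∃ s : Finset (Fin n), s = {i₁, i₂, i₃} := ⟨_, rfl⟩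
    have hscard : s.card = 3 := Finset.card_eq_three.mpr ⟨i₁, i₂, i₃, h12, h13, h23, hs⟩
    have hmem : ∀ i, i ∈ s ↔ i = i₁ ∨ i = i₂ ∨ i = i₃ := by
      intro i
      rw [hs]
      simp
    have hcompl : sᶜ.card = n - 3 := by
      rw [Finset.card_compl, hscard, Fintype.card_fin]
    have hfo : ∀ i, i ∉ s → c * d i = c := by
      intro i hi
      rw [hmem] at hi
      rw [hdo i (fun h => hi (Or.inl h)) (fun h => hi (Or.inr (Or.inl h)))
        (fun h => hi (Or.inr (Or.inr h))), mul_one]
    have hne1 : c * ζ ≠ c := by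
      intro h
      exact hζ1 (mul_left_cancel₀ hc (by rw [h, mul_one]))
    have hζ2 : ζ⁻¹ ^ 2 ≠ 1 := by
      intro h
      have h' : ζ ^ 2 = 1 := by
        rw [inv_pow] at h
        exact inv_eq_one.mp h
      have := orderOf_dvd_of_pow_eq_one h'
      rw [hoζ] at this
      exact hr2 ((Nat.prime_dvd_prime_iff_eq hrp Nat.prime_two).mp this)
    have hne3 : c * ζ⁻¹ ^ 2 ≠ c := by
      intro h
      exact hζ2 (mul_left_cancel₀ hc (by rw [h, mul_one]))
    have hfs : ∀ i, i ∈ s → c * d i ≠ c := by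
      intro i hi
      rw [hmem] at hi
      rcases hi with rfl | rfl | rfl
      · rw [hd1]; exact hne1
      · rw [hd2]; exact hne1
      · rw [hd3]; exact hne3
    -- claim 1
    have h1 : c ^ q₀ = c := by
      by_contra hne
      have hge : n - 3 ≤ (Finset.univ.filter fun i : Fin n => (c * d i) ^ q₀ = c ^ q₀).card := by
        have hsub : sᶜ ⊆ Finset.univ.filter (fun i : Fin n => (c * d i) ^ q₀ = c ^ q₀) := by
          intro i hi
          rw [Finset.mem_compl] at hi
          rw [Finset.mem_filter, hfo i hi]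
          exact ⟨Finset.mem_univ _, rfl⟩
        have := Finset.card_le_card hsub
        rwa [hcompl] at this
      have hsub2 : Finset.univ.filter (fun i : Fin n => c * d i = c ^ q₀) ⊆ s := by
        intro i hi
        rw [Finset.mem_filter] at hi
        by_contra his
        rw [hfo i his] at hi
        exact hne hi.2.symm
      have hle := Finset.card_le_card hsub2
      rw [hcount] at hge
      have hn6 : n = 6 := by omega
      have heq : Finset.univ.filter (fun i : Fin n => c * d i = c ^ q₀) = s :=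
        Finset.eq_of_subset_of_card_le hsub2 (by omega)
      have m1 : i₁ ∈ Finset.univ.filter (fun i : Fin n => c * d i = c ^ q₀) := by
        rw [heq, hmem]; exact Or.inl rfl
      have m3 : i₃ ∈ Finset.univ.filter (fun i : Fin n => c * d i = c ^ q₀) := by
        rw [heq, hmem]; exact Or.inr (Or.inr rfl)
      rw [Finset.mem_filter, hd1] at m1
      rw [Finset.mem_filter, hd3] at m3
      have e : ζ = ζ⁻¹ ^ 2 := mul_left_cancel₀ hc (m1.2.trans m3.2.symm)
      have e3 : ζ ^ 3 = 1 := by
        have : ζ ^ 3 = ζ * ζ ^ 2 := by ring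
        rw [this]
        nth_rewrite 1 [e]
        rw [inv_pow, inv_mul_cancel₀ (pow_ne_zero 2 hζ0)]
      have hdvd := orderOf_dvd_of_pow_eq_one e3
      rw [hoζ] at hdvd
      exact hgap ⟨hn6, (Nat.prime_dvd_prime_iff_eq hrp Nat.prime_three).mp hdvd⟩
    -- claim 2
    have h2 : (c * ζ) ^ q₀ ≠ c := by
      intro h
      have hge : n - 1 ≤ (Finset.univ.filter fun i : Fin n => (c * d i) ^ q₀ = c).card := by
        have hsub : Finset.univ.erase i₃ ⊆ Finset.univ.filter (fun i : Fin n => (c * d i) ^ q₀ = c) := by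
          intro i hi
          rw [Finset.mem_erase] at hi
          rw [Finset.mem_filter]
          refine ⟨Finset.mem_univ _, ?_⟩
          by_cases his : i ∈ s
          · rw [hmem] at his
            rcases his with rfl | rfl | rfl
            · rw [hd1]; exact h
            · rw [hd2]; exact h
            · exact absurd rfl hi.1
          · rw [hfo i his]; exact h1
        have := Finset.card_le_card hsub
        rwa [Finset.card_erase_of_mem (Finset.mem_univ _), Finset.card_univ, Fintype.card_fin] at this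
      have hle : (Finset.univ.filter fun i : Fin n => c * d i = c).card ≤ n - 3 := by
        have hsub : Finset.univ.filter (fun i : Fin n => c * d i = c) ⊆ sᶜ := by
          intro i hi
          rw [Finset.mem_filter] at hi
          rw [Finset.mem_compl]
          intro his
          exact hfs i his hi.2
        have := Finset.card_le_card hsub
        rwa [hcompl] at this
      rw [hcount] at hge
      omega
    -- claim 3
    have h3 : (c * ζ) ^ q₀ = c * ζ := by
      by_contra hne
      have hge : 2 ≤ (Finset.univ.filter fun i : Fin n => (c * d i) ^ q₀ = (c * ζ) ^ q₀).card := by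
        have hsub : ({i₁, i₂} : Finset (Fin n)) ⊆
            Finset.univ.filter (fun i : Fin n => (c * d i) ^ q₀ = (c * ζ) ^ q₀) := by
          intro i hi
          rw [Finset.mem_insert, Finset.mem_singleton] at hi
          rw [Finset.mem_filter]
          refine ⟨Finset.mem_univ _, ?_⟩
          rcases hi with rfl | rfl
          · rw [hd1]
          · rw [hd2]
        have := Finset.card_le_card hsub
        rwa [Finset.card_pair h12] at this
      have hle : (Finset.univ.filter fun i : Fin n => c * d i = (c * ζ) ^ q₀).card ≤ 1 := by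
        have hsub : Finset.univ.filter (fun i : Fin n => c * d i = (c * ζ) ^ q₀) ⊆ {i₃} := by
          intro i hi
          rw [Finset.mem_filter] at hi
          rw [Finset.mem_singleton]
          by_cases his : i ∈ s
          · rw [hmem] at his
            rcases his with rfl | rfl | rfl
            · rw [hd1] at hi; exact absurd hi.2.symm hne
            · rw [hd2] at hi; exact absurd hi.2.symm hne
            · rfl
          · rw [hfo i his] at hi
            exact absurd hi.2.symm h2
        simpa using Finset.card_le_card hsub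
      rw [hcount] at hge
      omega
    have h4 : ζ ^ q₀ = ζ := by
      rw [mul_pow, h1] at h3
      exact mul_left_cancel₀ hc h3
    exact hr0 (SFRCount.sfr_zeta_dvd r ζ hζr hζ1 q₀ hq₀ h4)

end top

end Cfsg.Agent.Helper80
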