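-- helper80: PIECE FA of CALL S5778 (helper64). The field-extension subgroup N(K) ∩ SU_3(q),
-- q = 3 or 5, contains an element of order 7 whose cyclic subgroup it normalises, and has
-- order at most 3 (q^2 - q + 1).  Adapted from Cfsg/Agent/Helper64/SU5Field.lean.
import Cfsg.Agent.Helper64.SU5Field
import Cfsg.Agent.Helper97.UPrimeDim

set_option autoImplicit false
open Cfsg Cfsg.Geo Matrix

namespace Cfsg.Agent.Helper80.SU3F

open Cfsg.Agent.Helper97 Cfsg.Agent.Helper98 Cfsg.Agent.Helper64.SU5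

variable {F : Type*} [Field F] [Fintype F]

omit [Fintype F] in
/-- Adjoint-closed subalgebras are closed under the conjugate transpose. -/
theorem su3_adj_mem {q : ℕ} {σ : F ≃+* F} (hσ : IsSigma q σ)
    {K : Subalgebra F (Matrix (Fin 3) (Fin 3) F)}
    (hadj : IsAdjointClosedFor (hermForm 3 F q) K) : ∀ k ∈ K, (k.map σ)ᵀ ∈ K := by
  intro k hk
  obtain ⟨k', hk', h⟩ := hadj k hk
  have hS := hσ.isSesq (n := 3)
  have e : (k.map σ)ᵀ = k' := by
    apply Cfsg.Agent.Helper98.matrix_ext_mulVec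
    intro v
    by_contra hne
    have hne' : (k.map σ)ᵀ *ᵥ v - k' *ᵥ v ≠ 0 := sub_ne_zero.mpr hne
    obtain ⟨⟨x, hx⟩, -⟩ := hσ.isUnitaryForm.nondegenerate _ hne'
    apply hx
    have h1 : hermForm 3 F q x ((k.map σ)ᵀ *ᵥ v) = hermForm 3 F q x (k' *ᵥ v) := by
      rw [← hσ.herm_adj, h]
    have h2 : hermForm 3 F q x ((k.map σ)ᵀ *ᵥ v - k' *ᵥ v)
        = hermForm 3 F q x ((k.map σ)ᵀ *ᵥ v) - hermForm 3 F q x (k' *ᵥ v) := by
      rw [sub_eq_add_neg, hS.add_right, ← neg_one_smul F (k' *ᵥ v), hS.smul_right, map_neg,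
        map_one]
      ring
    rw [h2, h1, sub_self]
  rw [e]
  exact hk'

theorem su3_cardK' (K : Subalgebra F (Matrix (Fin 3) (Fin 3) F))
    (hK : IsFieldSubalgebra 3 K) : Nat.card ↥K = Fintype.card F ^ 3 := by
  rw [Module.natCard_eq_pow_finrank (K := F) (V := ↥K), hK.finrank_eq, Nat.card_eq_fintype_card]

theorem su3_cardK {q : ℕ} (hF : Fintype.card F = q ^ 2)
    (K : Subalgebra F (Matrix (Fin 3) (Fin 3) F))
    (hK : IsFieldSubalgebra 3 K) : Nat.card ↥K = q ^ 6 := by
  rw [su3_cardK' K hK, hF, ← pow_mul]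

/-- the inclusion of the units of a subalgebra of matrices into `GL`. -/
def su3Incl (K : Subalgebra F (Matrix (Fin 3) (Fin 3) F)) : (↥K)ˣ →* GL (Fin 3) F :=
  Units.map (K.val : ↥K →ₐ[F] Matrix (Fin 3) (Fin 3) F).toRingHom.toMonoidHom

omit [Fintype F] in
theorem su3Incl_val (K : Subalgebra F (Matrix (Fin 3) (Fin 3) F)) (u : (↥K)ˣ) :
    ((su3Incl K u : GL (Fin 3) F) : Matrix (Fin 3) (Fin 3) F)
      = ((u : ↥K) : Matrix (Fin 3) (Fin 3) F) := rfl

omit [Fintype F] in
theorem su3Incl_injective (K : Subalgebra F (Matrix (Fin 3) (Fin 3) F)) :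
    Function.Injective (su3Incl K) := by
  intro a b hab
  apply Units.ext
  apply Subtype.ext
  have := congrArg (fun g : GL (Fin 3) F => (g : Matrix (Fin 3) (Fin 3) F)) hab
  simpa only [su3Incl_val] using this

omit [Fintype F] in
theorem su3_adj_pow {σ : F ≃+* F} (X : Matrix (Fin 3) (Fin 3) F) (n : ℕ) :
    ((X ^ n).map σ)ᵀ = ((X.map σ)ᵀ) ^ n := by
  induction n with
  | zero =>
    rw [pow_zero, pow_zero, Matrix.map_one σ (map_zero σ) (map_one σ), Matrix.transpose_one]
  | succ n ih => rw [pow_succ, IsSigma.adj_mul, ih, ← pow_succ']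

omit [Fintype F] in
/-- In the field with `q ^ 6` elements (`q = 3, 5`), a multiplicatively closed additive subgroup
containing `1` and an element of order 7 is everything. -/
theorem su3_key {K : Type*} [Field K] [Finite K] {q : ℕ} (hq : q = 3 ∨ q = 5)
    (hcard : Nat.card K = q ^ 6) (u : Kˣ)
    (hu : orderOf u = 7) (A : AddSubgroup K) (h1 : (1 : K) ∈ A)
    (hmul : ∀ a ∈ A, ∀ b ∈ A, a * b ∈ A) (huA : (u : K) ∈ A) : A = ⊤ := by
  classical
  have hpow : ∀ a ∈ A, ∀ n : ℕ, a ^ n ∈ A := by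
    intro a ha n
    induction n with
    | zero => simpa using h1
    | succ n ih =>
      rw [pow_succ]
      exact hmul _ ih _ ha
  have hq6 : 2 ≤ q ^ 6 := by rcases hq with rfl | rfl <;> norm_num
  have hcardU : Nat.card Kˣ = q ^ 6 - 1 := by rw [Nat.card_units, hcard]
  let S : Subgroup Kˣ :=
    { carrier := {v | (v : K) ∈ A}
      mul_mem' := fun {a b} ha hb => by
        show ((a * b : Kˣ) : K) ∈ A
        rw [Units.val_mul]
        exact hmul _ ha _ hb
      one_mem' := by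
        show ((1 : Kˣ) : K) ∈ A
        rw [Units.val_one]
        exact h1
      inv_mem' := fun {a} ha => by
        show ((a⁻¹ : Kˣ) : K) ∈ A
        have h2 : a ^ (q ^ 6 - 1) = 1 := by
          rw [← hcardU]
          exact pow_card_eq_one'
        have h : a⁻¹ = a ^ (q ^ 6 - 2) := by
          rw [inv_eq_iff_mul_eq_one, ← pow_succ']
          have e : q ^ 6 - 2 + 1 = q ^ 6 - 1 := by omega
          rw [e]
          exact h2
        rw [h, Units.val_pow_eq_pow_val]
        exact hpow _ ha _ }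
  have hS1 : Nat.card S + 1 = Nat.card A := by
    have e1 : Nat.card S = (Units.val '' (S : Set Kˣ)).ncard := by
      rw [Set.ncard_image_of_injective _ Units.val_injective]
      rfl
    have e2 : Units.val '' (S : Set Kˣ) = (A : Set K) \ {0} := by
      ext a
      constructor
      · rintro ⟨v, hv, rfl⟩
        exact ⟨hv, v.ne_zero⟩
      · rintro ⟨ha, ha0⟩
        exact ⟨Units.mk0 a ha0, ha, rfl⟩
    rw [e1, e2, Set.ncard_sdiff_singleton_add_one (A.zero_mem) (Set.toFinite _)]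
    rfl
  have h7 : 7 ∣ Nat.card S := by
    have h := orderOf_dvd_natCard (⟨u, huA⟩ : S)
    rw [← Subgroup.orderOf_coe] at h
    have h' : orderOf u ∣ Nat.card S := h
    rwa [hu] at h'
  have hprime : q.Prime := by rcases hq with rfl | rfl <;> norm_num
  have hdvd : Nat.card A ∣ q ^ 6 := by
    have := AddSubgroup.card_addSubgroup_dvd_card A
    rw [hcard] at this
    exact this
  obtain ⟨j, hj, hjA⟩ := (Nat.dvd_prime_pow hprime).mp hdvd
  have hSpos : 0 < Nat.card S := Nat.card_pos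
  have hj6 : j = 6 := by
    rw [hjA] at hS1
    obtain ⟨m, hm⟩ := h7
    rcases hq with rfl | rfl <;> interval_cases j <;> omega
  subst hj6
  apply AddSubgroup.eq_top_of_card_eq
  rw [hjA, hcard]

/-- An element of order 7 of the field `K` is unitary. -/
theorem su3_unitary {q : ℕ} (hq : q = 3 ∨ q = 5) {σ : F ≃+* F} (hσ : IsSigma q σ)
    (hF : Fintype.card F = q ^ 2)
    (K : Subalgebra F (Matrix (Fin 3) (Fin 3) F)) (hK : IsFieldSubalgebra 3 K)
    (hadj : ∀ k ∈ K, (k.map σ)ᵀ ∈ K) (u : (↥K)ˣ) (hu : orderOf u = 7) :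
    ((u : ↥K) : Matrix (Fin 3) (Fin 3) F)
      * (((u : ↥K) : Matrix (Fin 3) (Fin 3) F).map σ)ᵀ = 1 := by
  classical
  letI := (IsFS.of hK).field
  obtain ⟨X, hX⟩ : ∃ X : Matrix (Fin 3) (Fin 3) F, X = ((u : ↥K) : Matrix (Fin 3) (Fin 3) F) :=
    ⟨_, rfl⟩
  rw [← hX]
  have hXK : X ∈ K := by rw [hX]; exact (u : ↥K).2
  have hX7 : X ^ 7 = 1 := by
    have h1 : u ^ 7 = 1 := by rw [← hu]; exact pow_orderOf_eq_one u
    have h2 := congrArg (fun v : (↥K)ˣ => ((v : ↥K) : Matrix (Fin 3) (Fin 3) F)) h1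
    simp only [Units.val_pow_eq_pow_val, Subalgebra.coe_pow, Units.val_one, Subalgebra.coe_one] at h2
    rw [hX]
    exact h2
  obtain ⟨Xd, hXd⟩ : ∃ Xd : Matrix (Fin 3) (Fin 3) F, Xd = (X.map σ)ᵀ := ⟨_, rfl⟩
  rw [← hXd]
  have hXdK : Xd ∈ K := by rw [hXd]; exact hadj X hXK
  have hcomm : Commute X Xd := hK.comm X hXK Xd hXdK
  have hXd7 : Xd ^ 7 = 1 := by
    rw [hXd, ← su3_adj_pow, hX7, Matrix.map_one σ (map_zero σ) (map_one σ), Matrix.transpose_one]
  have hWK : X * Xd ∈ K := K.mul_mem hXK hXdK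
  have hWfix : ((X * Xd).map σ)ᵀ = X * Xd := by
    rw [IsSigma.adj_mul, ← hXd]
    have : (Xd.map σ)ᵀ = X := by rw [hXd]; exact hσ.adj_adj X
    rw [this]
  have hW7 : (X * Xd) ^ 7 = 1 := by rw [hcomm.mul_pow, hX7, hXd7, one_mul]
  by_contra hne
  let wK : ↥K := ⟨X * Xd, hWK⟩
  have hwK7 : wK ^ 7 = 1 := Subtype.ext (by
    rw [Subalgebra.coe_pow, Subalgebra.coe_one]
    exact hW7)
  let w : (↥K)ˣ := Units.ofPowEqOne wK 7 hwK7 (by norm_num)
  have hw7 : w ^ 7 = 1 := Units.pow_ofPowEqOne hwK7 (by norm_num)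
  have hw1 : w ≠ 1 := by
    intro h
    apply hne
    have h2 := congrArg (fun v : (↥K)ˣ => ((v : ↥K) : Matrix (Fin 3) (Fin 3) F)) h
    exact h2
  haveI : Fact (Nat.Prime 7) := ⟨by norm_num⟩
  have how : orderOf w = 7 := orderOf_eq_prime hw7 hw1
  let A : AddSubgroup ↥K :=
    { carrier := {k | ((k : Matrix (Fin 3) (Fin 3) F).map σ)ᵀ = (k : Matrix (Fin 3) (Fin 3) F)}
      add_mem' := by
        intro a b ha hb
        show (((a + b : ↥K) : Matrix (Fin 3) (Fin 3) F).map σ)ᵀ = ((a + b : ↥K) : Matrix (Fin 3) (Fin 3) F)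
        have ha' : ((a : Matrix (Fin 3) (Fin 3) F).map σ)ᵀ = (a : Matrix (Fin 3) (Fin 3) F) := ha
        have hb' : ((b : Matrix (Fin 3) (Fin 3) F).map σ)ᵀ = (b : Matrix (Fin 3) (Fin 3) F) := hb
        rw [Subalgebra.coe_add]
        ext i j
        have h1 := congrFun (congrFun ha' i) j
        have h2 := congrFun (congrFun hb' i) j
        simp only [Matrix.transpose_apply, Matrix.map_apply, Matrix.add_apply, map_add] at h1 h2 ⊢
        rw [h1, h2]
      zero_mem' := by
        show (((0 : ↥K) : Matrix (Fin 3) (Fin 3) F).map σ)ᵀ = ((0 : ↥K) : Matrix (Fin 3) (Fin 3) F)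
        rw [Subalgebra.coe_zero, Matrix.map_zero σ (map_zero σ), Matrix.transpose_zero]
      neg_mem' := by
        intro a ha
        show (((-a : ↥K) : Matrix (Fin 3) (Fin 3) F).map σ)ᵀ = ((-a : ↥K) : Matrix (Fin 3) (Fin 3) F)
        have ha' : ((a : Matrix (Fin 3) (Fin 3) F).map σ)ᵀ = (a : Matrix (Fin 3) (Fin 3) F) := ha
        rw [Subalgebra.coe_neg]
        ext i j
        have := congrFun (congrFun ha' i) j
        simp only [Matrix.transpose_apply, Matrix.map_apply, Matrix.neg_apply, map_neg] at this ⊢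
        rw [this] }
  have hA1 : (1 : ↥K) ∈ A := by
    show (((1 : ↥K) : Matrix (Fin 3) (Fin 3) F).map σ)ᵀ = ((1 : ↥K) : Matrix (Fin 3) (Fin 3) F)
    rw [Subalgebra.coe_one, Matrix.map_one σ (map_zero σ) (map_one σ), Matrix.transpose_one]
  have hAmul : ∀ a ∈ A, ∀ b ∈ A, a * b ∈ A := by
    intro a ha b hb
    have ha' : ((a : Matrix (Fin 3) (Fin 3) F).map σ)ᵀ = (a : Matrix (Fin 3) (Fin 3) F) := ha
    have hb' : ((b : Matrix (Fin 3) (Fin 3) F).map σ)ᵀ = (b : Matrix (Fin 3) (Fin 3) F) := hb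
    show (((a * b : ↥K) : Matrix (Fin 3) (Fin 3) F).map σ)ᵀ = ((a * b : ↥K) : Matrix (Fin 3) (Fin 3) F)
    rw [Subalgebra.coe_mul, IsSigma.adj_mul, ha', hb']
    exact hK.comm _ b.2 _ a.2
  have hwA : ((w : (↥K)ˣ) : ↥K) ∈ A := hWfix
  haveI : Finite ↥K := Nat.finite_of_card_ne_zero (by
    rw [su3_cardK hF K hK]; rcases hq with rfl | rfl <;> norm_num)
  have hAtop := su3_key hq (su3_cardK hF K hK) w how A hA1 hAmul hwA
  obtain ⟨d, hd⟩ := hσ.exists_ne
  have hdA : algebraMap F ↥K d ∈ A := by rw [hAtop]; trivial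
  have hdA' : (((algebraMap F ↥K d : ↥K) : Matrix (Fin 3) (Fin 3) F).map σ)ᵀ
      = ((algebraMap F ↥K d : ↥K) : Matrix (Fin 3) (Fin 3) F) := hdA
  have h00 := congrFun (congrFun hdA' 0) 0
  rw [Subalgebra.coe_algebraMap] at h00
  simp only [Matrix.transpose_apply, Matrix.map_apply, Matrix.algebraMap_matrix_apply, if_true,
    Algebra.algebraMap_self, RingHom.id_apply] at h00
  exact hd h00

omit [Fintype F] in
/-- An element of `GL` lying in `K` whose `n`-th power is one is the image of a unit of `K`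
whose `n`-th power is one. -/
theorem su3_exists_unit (K : Subalgebra F (Matrix (Fin 3) (Fin 3) F)) (n : ℕ) (hn : n ≠ 0)
    (Y : GL (Fin 3) F) (hYK : (Y : Matrix (Fin 3) (Fin 3) F) ∈ K) (hY : Y ^ n = 1) :
    ∃ y : (↥K)ˣ, su3Incl K y = Y ∧ y ^ n = 1 := by
  let yK : ↥K := ⟨(Y : Matrix (Fin 3) (Fin 3) F), hYK⟩
  have hyKn : yK ^ n = 1 := Subtype.ext (by
    rw [Subalgebra.coe_pow, Subalgebra.coe_one]
    have h2 := congrArg (fun g : GL (Fin 3) F => (g : Matrix (Fin 3) (Fin 3) F)) hY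
    simpa only [Units.val_pow_eq_pow_val, Units.val_one] using h2)
  refine ⟨Units.ofPowEqOne yK n hyKn hn, ?_, Units.pow_ofPowEqOne hyKn hn⟩
  apply Units.ext
  rfl

/-- An element of `GL` lying in `K` whose 7-th power is one lies in the subgroup generated by an
element of order 7 of `K`. -/
theorem su3_mem_zpowers_incl
    (K : Subalgebra F (Matrix (Fin 3) (Fin 3) F)) (hK : IsFieldSubalgebra 3 K)
    (u : (↥K)ˣ) (hu : orderOf u = 7) (Y : GL (Fin 3) F)
    (hYK : (Y : Matrix (Fin 3) (Fin 3) F) ∈ K) (hY : Y ^ 7 = 1) :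
    Y ∈ Subgroup.zpowers (su3Incl K u) := by
  classical
  letI := (IsFS.of hK).field
  haveI : Finite ↥K := Nat.finite_of_card_ne_zero (by
    rw [su3_cardK' K hK]; exact pow_ne_zero _ Fintype.card_ne_zero)
  obtain ⟨y, hyY, hy7⟩ := su3_exists_unit K 7 (by norm_num) Y hYK hY
  have hmem := su5_mem_zpowers_of_pow 7 (by norm_num) u y hu hy7
  obtain ⟨k, hk⟩ := Subgroup.mem_zpowers_iff.mp hmem
  rw [Subgroup.mem_zpowers_iff]
  refine ⟨k, ?_⟩
  rw [← map_zpow, hk, hyY]

/-- A matrix commuting with the field `K` of degree 3 lies in `K`. -/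
theorem su3_mem_of_commute
    (K : Subalgebra F (Matrix (Fin 3) (Fin 3) F)) (hK : IsFieldSubalgebra 3 K)
    (c : Matrix (Fin 3) (Fin 3) F) (hc : ∀ k ∈ K, c * k = k * c) : c ∈ K := by
  classical
  have hFS := IsFS.of hK
  let e₀ : Fin 3 → F := Pi.single 0 1
  have he₀ : e₀ ≠ 0 := by
    intro h
    have := congrFun h 0
    simp [e₀] at this
  let φ : ↥K → (Fin 3 → F) := fun k => (k : Matrix (Fin 3) (Fin 3) F) *ᵥ e₀
  have hinj : Function.Injective φ := by
    intro a b hab
    by_contra hne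
    have h1 : ((a : Matrix (Fin 3) (Fin 3) F) - (b : Matrix (Fin 3) (Fin 3) F)) *ᵥ e₀ = 0 := by
      rw [Matrix.sub_mulVec]
      exact sub_eq_zero.mpr hab
    have h2 : (a : Matrix (Fin 3) (Fin 3) F) - (b : Matrix (Fin 3) (Fin 3) F) ≠ 0 := by
      intro h
      exact hne (Subtype.ext (sub_eq_zero.mp h))
    exact he₀ (hFS.mulVec_eq_zero (K.sub_mem a.2 b.2) h2 h1)
  have hcardV : Nat.card (Fin 3 → F) = Fintype.card F ^ 3 := by
    rw [Nat.card_eq_fintype_card, Fintype.card_fun, Fintype.card_fin]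
  have hbij : Function.Bijective φ :=
    hinj.bijective_of_nat_card_le (by rw [hcardV, su3_cardK' K hK])
  obtain ⟨k₀, hk₀⟩ := hbij.2 (c *ᵥ e₀)
  have hk₀' : (k₀ : Matrix (Fin 3) (Fin 3) F) *ᵥ e₀ = c *ᵥ e₀ := hk₀
  have hEq : c = (k₀ : Matrix (Fin 3) (Fin 3) F) := by
    apply Cfsg.Agent.Helper98.matrix_ext_mulVec
    intro v
    obtain ⟨k, hk⟩ := hbij.2 v
    have hk' : (k : Matrix (Fin 3) (Fin 3) F) *ᵥ e₀ = v := hk
    rw [← hk', Matrix.mulVec_mulVec, Matrix.mulVec_mulVec, hc _ k.2, ← Matrix.mulVec_mulVec,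
      ← hk₀', Matrix.mulVec_mulVec, hK.comm _ k.2 _ k₀.2]
  rw [hEq]
  exact k₀.2

theorem su3_card_GU {q : ℕ} (hq : q = 3 ∨ q = 5) (hF : Fintype.card F = q ^ 2) :
    Nat.card (GU 3 F q) = if q = 3 then 24192 else 2268000 := by
  rw [Cfsg.Agent.Helper5.card_GU hF 3]
  rcases hq with rfl | rfl
  · simp [Finset.prod_range_succ]
  · simp [Finset.prod_range_succ]

/-- Frobenius and evaluation of polynomials over the finite field `F`. -/
theorem su3_aeval_pow {K : Type*} [Field K] [Algebra F K] (p : Polynomial F) (r : K) :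
    Polynomial.aeval (r ^ Fintype.card F) p = (Polynomial.aeval r p) ^ Fintype.card F := by
  rw [← Polynomial.expand_aeval, FiniteField.expand_card, map_pow]

omit [Fintype F] in
theorem su3_vieta {K : Type*} [Field K] (a0 a1 a2 c c' c'' : K)
    (h1 : a0 + a1 * c + a2 * c ^ 2 + c ^ 3 = 0)
    (h2 : a0 + a1 * c' + a2 * c' ^ 2 + c' ^ 3 = 0)
    (h3 : a0 + a1 * c'' + a2 * c'' ^ 2 + c'' ^ 3 = 0)
    (h12 : c ≠ c') (h13 : c ≠ c'') (h23 : c' ≠ c'') : -a0 = c * c' * c'' := by
  have key : (c - c') * (c - c'') * (c' - c'') * (c * c' * c'' + a0) = 0 := by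
    linear_combination (c' * c'' * (c' - c'')) * h1 - (c * c'' * (c - c'')) * h2
      + (c * c' * (c - c')) * h3
  have hne : (c - c') * (c - c'') * (c' - c'') ≠ 0 :=
    mul_ne_zero (mul_ne_zero (sub_ne_zero.mpr h12) (sub_ne_zero.mpr h13)) (sub_ne_zero.mpr h23)
  have := (mul_eq_zero.mp key).resolve_left hne
  linear_combination -this

/-- The determinant of an element of the cubic field `K` is its norm. -/
theorem su3_norm (K : Subalgebra F (Matrix (Fin 3) (Fin 3) F)) (hK : IsFieldSubalgebra 3 K)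
    (C : Matrix (Fin 3) (Fin 3) F) (hC : C ∈ K) (hdet : C.det = 1) :
    C * C ^ Fintype.card F * (C ^ Fintype.card F) ^ Fintype.card F = 1 := by
  classical
  letI := (IsFS.of hK).field
  haveI : Finite ↥K := Nat.finite_of_card_ne_zero (by
    rw [su3_cardK' K hK]; exact pow_ne_zero _ Fintype.card_ne_zero)
  have hN0 : Fintype.card F ≠ 0 := Fintype.card_ne_zero
  obtain ⟨c, hc⟩ : ∃ c : ↥K, (c : Matrix (Fin 3) (Fin 3) F) = C := ⟨⟨C, hC⟩, rfl⟩
  obtain ⟨p, hp⟩ : ∃ p : Polynomial F, p = C.charpoly := ⟨_, rfl⟩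
  have hpm : p.Monic := by rw [hp]; exact Matrix.charpoly_monic C
  have hpd : p.natDegree = 3 := by
    rw [hp, Matrix.charpoly_natDegree_eq_dim, Fintype.card_fin]
  have hroot : Polynomial.aeval c p = 0 := by
    apply Subtype.ext
    have h1 := Polynomial.aeval_algHom_apply K.val c p
    have h2 : Polynomial.aeval C p = 0 := by rw [hp]; exact Matrix.aeval_self_charpoly C
    have h3 : (K.val c : Matrix (Fin 3) (Fin 3) F) = C := hc
    rw [h3] at h1
    exact h1.symm.trans h2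
  have hroot' : Polynomial.aeval (c ^ Fintype.card F) p = 0 := by
    rw [su3_aeval_pow, hroot, zero_pow hN0]
  have hroot'' : Polynomial.aeval ((c ^ Fintype.card F) ^ Fintype.card F) p = 0 := by
    rw [su3_aeval_pow, hroot', zero_pow hN0]
  have hexp : ∀ r : ↥K, Polynomial.aeval r p = algebraMap F ↥K (p.coeff 0)
      + algebraMap F ↥K (p.coeff 1) * r + algebraMap F ↥K (p.coeff 2) * r ^ 2 + r ^ 3 := by
    intro r
    have h3 : p.coeff 3 = 1 := by rw [← hpd]; exact hpm.coeff_natDegree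
    rw [Polynomial.aeval_eq_sum_range, hpd]
    simp only [Finset.sum_range_succ, Finset.sum_range_zero, zero_add, pow_zero, pow_one,
      Algebra.smul_def, mul_one, h3, map_one, one_mul]
  have hdet0 : p.coeff 0 = -1 := by
    have := Matrix.det_eq_sign_charpoly_coeff C
    rw [hdet, Fintype.card_fin, ← hp] at this
    linear_combination this
  have hcK : c ^ (Fintype.card F ^ 3) = c := by
    haveI := Fintype.ofFinite ↥K
    have := FiniteField.pow_card c
    rwa [← Nat.card_eq_fintype_card, su3_cardK' K hK] at this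
  have hmain : c * c ^ Fintype.card F * (c ^ Fintype.card F) ^ Fintype.card F = 1 := by
    by_cases h12 : c = c ^ Fintype.card F
    · obtain ⟨a, ha⟩ := su5_scalar_of_pow (F := F) (K := ↥K) c h12.symm
      have ha' : C = a • (1 : Matrix (Fin 3) (Fin 3) F) := by
        have h := congrArg Subtype.val ha
        rw [Subalgebra.coe_algebraMap, Algebra.algebraMap_eq_smul_one] at h
        rw [← hc]
        exact h
      have ha3 : a * a * a = 1 := by
        have h := congrArg Matrix.det ha'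
        rw [hdet, Matrix.det_smul, Matrix.det_one, mul_one, Fintype.card_fin] at h
        rw [h]; ring
      rw [← h12, ← h12, ha, ← map_mul, ← map_mul, ha3, map_one]
    · by_cases h13 : c = (c ^ Fintype.card F) ^ Fintype.card F
      · exfalso
        apply h12
        calc c = c ^ (Fintype.card F ^ 3) := hcK.symm
          _ = ((c ^ Fintype.card F) ^ Fintype.card F) ^ Fintype.card F := by
            rw [← pow_mul, ← pow_mul]; congr 1; ring
          _ = c ^ Fintype.card F := by rw [← h13]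
      · by_cases h23 : c ^ Fintype.card F = (c ^ Fintype.card F) ^ Fintype.card F
        · exfalso
          apply h12
          calc c = c ^ (Fintype.card F ^ 3) := hcK.symm
            _ = ((c ^ Fintype.card F) ^ Fintype.card F) ^ Fintype.card F := by
              rw [← pow_mul, ← pow_mul]; congr 1; ring
            _ = c ^ Fintype.card F := by rw [← h23, ← h23]
        · have hv := su3_vieta _ _ _ c (c ^ Fintype.card F)
            ((c ^ Fintype.card F) ^ Fintype.card F) (by rw [← hexp]; exact hroot)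
            (by rw [← hexp]; exact hroot') (by rw [← hexp]; exact hroot'') h12 h13 h23
          rw [← hv, hdet0, map_neg, map_one, neg_neg]
  have := congrArg Subtype.val hmain
  simp only [Subalgebra.coe_mul, Subalgebra.coe_pow, Subalgebra.coe_one, hc] at this
  exact this

theorem su3_mem_SL_of_pow {q : ℕ} (hF : Fintype.card F = q ^ 2) (g : GL (Fin 3) F) (n : ℕ)
    (hn : Nat.Coprime n (q ^ 2 - 1)) (hg : g ^ n = 1) : g ∈ specialLinear (Fin 3) F := by
  classical
  rw [specialLinear, MonoidHom.mem_ker]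
  set d : Fˣ := Matrix.GeneralLinearGroup.det g with hd
  have h1 : d ^ n = 1 := by rw [hd, ← map_pow, hg, map_one]
  have h3 : d ^ (q ^ 2 - 1) = 1 := by
    have := pow_card_eq_one (x := d)
    rw [Fintype.card_units, hF] at this
    exact this
  have h4 : orderOf d ∣ Nat.gcd n (q ^ 2 - 1) :=
    Nat.dvd_gcd (orderOf_dvd_of_pow_eq_one h1) (orderOf_dvd_of_pow_eq_one h3)
  rw [Nat.Coprime] at hn
  rw [hn, Nat.dvd_one] at h4
  exact orderOf_eq_one_iff.mp h4

/-- The centraliser in `SU_3(q)` of an element of order 7 of `K` consists of elements of `K` of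
order dividing `q ^ 2 - q + 1`. -/
theorem su3_centralizer {q : ℕ} (hq : q = 3 ∨ q = 5) (hF : Fintype.card F = q ^ 2)
    (K : Subalgebra F (Matrix (Fin 3) (Fin 3) F)) (hK : IsFieldSubalgebra 3 K)
    (u : (↥K)ˣ) (hu : orderOf u = 7) (c : GL (Fin 3) F)
    (hcG : c ∈ GU 3 F q ⊓ specialLinear (Fin 3) F)
    (hcx : c * su3Incl K u = su3Incl K u * c) :
    ∃ y : (↥K)ˣ, su3Incl K y = c ∧ y ^ (q ^ 2 - q + 1) = 1 := by
  classical
  letI := (IsFS.of hK).field
  haveI : Finite ↥K := Nat.finite_of_card_ne_zero (by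
    rw [su3_cardK' K hK]; exact pow_ne_zero _ Fintype.card_ne_zero)
  obtain ⟨C, hC⟩ : ∃ C : Matrix (Fin 3) (Fin 3) F, C = (c : Matrix (Fin 3) (Fin 3) F) := ⟨_, rfl⟩
  have hcxm : C * ((u : ↥K) : Matrix (Fin 3) (Fin 3) F)
      = ((u : ↥K) : Matrix (Fin 3) (Fin 3) F) * C := by
    have := congrArg (fun g : GL (Fin 3) F => (g : Matrix (Fin 3) (Fin 3) F)) hcx
    rw [hC]
    simpa only [Units.val_mul, su3Incl_val] using this
  -- Step 1: `c` commutes with `K`
  let A : AddSubgroup ↥K :=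
    { carrier := {k | C * (k : Matrix (Fin 3) (Fin 3) F) = (k : Matrix (Fin 3) (Fin 3) F) * C}
      add_mem' := by
        intro a b ha hb
        have ha' : C * (a : Matrix (Fin 3) (Fin 3) F) = (a : Matrix (Fin 3) (Fin 3) F) * C := ha
        have hb' : C * (b : Matrix (Fin 3) (Fin 3) F) = (b : Matrix (Fin 3) (Fin 3) F) * C := hb
        show C * ((a + b : ↥K) : Matrix (Fin 3) (Fin 3) F)
          = ((a + b : ↥K) : Matrix (Fin 3) (Fin 3) F) * C
        rw [Subalgebra.coe_add, mul_add, add_mul, ha', hb']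
      zero_mem' := by
        show C * ((0 : ↥K) : Matrix (Fin 3) (Fin 3) F) = ((0 : ↥K) : Matrix (Fin 3) (Fin 3) F) * C
        rw [Subalgebra.coe_zero, mul_zero, zero_mul]
      neg_mem' := by
        intro a ha
        have ha' : C * (a : Matrix (Fin 3) (Fin 3) F) = (a : Matrix (Fin 3) (Fin 3) F) * C := ha
        show C * ((-a : ↥K) : Matrix (Fin 3) (Fin 3) F) = ((-a : ↥K) : Matrix (Fin 3) (Fin 3) F) * C
        rw [Subalgebra.coe_neg, mul_neg, neg_mul, ha'] }
  have hA1 : (1 : ↥K) ∈ A := by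
    show C * ((1 : ↥K) : Matrix (Fin 3) (Fin 3) F) = ((1 : ↥K) : Matrix (Fin 3) (Fin 3) F) * C
    rw [Subalgebra.coe_one, mul_one, one_mul]
  have hAmul : ∀ a ∈ A, ∀ b ∈ A, a * b ∈ A := by
    intro a ha b hb
    have ha' : C * (a : Matrix (Fin 3) (Fin 3) F) = (a : Matrix (Fin 3) (Fin 3) F) * C := ha
    have hb' : C * (b : Matrix (Fin 3) (Fin 3) F) = (b : Matrix (Fin 3) (Fin 3) F) * C := hb
    show C * ((a * b : ↥K) : Matrix (Fin 3) (Fin 3) F)
      = ((a * b : ↥K) : Matrix (Fin 3) (Fin 3) F) * C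
    rw [Subalgebra.coe_mul, ← mul_assoc, ha', mul_assoc, hb', mul_assoc]
  have huA : ((u : (↥K)ˣ) : ↥K) ∈ A := hcxm
  have hAtop := su3_key hq (su3_cardK hF K hK) u hu A hA1 hAmul huA
  have hcK : ∀ k ∈ K, C * k = k * C := by
    intro k hk
    have : (⟨k, hk⟩ : ↥K) ∈ A := by rw [hAtop]; trivial
    exact this
  -- Step 2: `c` lies in `K`
  have hcmem : C ∈ K := su3_mem_of_commute K hK _ hcK
  -- Step 3: orders
  have hGU : c ^ Nat.card (GU 3 F q) = 1 := by
    have h := pow_card_eq_one' (G := ↥(GU 3 F q)) (x := ⟨c, (Subgroup.mem_inf.mp hcG).1⟩)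
    have h2 := congrArg (Subtype.val) h
    simp only [Subgroup.coe_pow, Subgroup.coe_one] at h2
    exact h2
  have hdet : C.det = 1 := by
    have h : c ∈ specialLinear (Fin 3) F := (Subgroup.mem_inf.mp hcG).2
    rw [specialLinear, MonoidHom.mem_ker] at h
    have h2 := congrArg Units.val h
    rw [hC]
    simpa using h2
  have hnorm : c ^ (1 + q ^ 2 + q ^ 4) = 1 := by
    have h := su3_norm K hK C hcmem hdet
    apply Units.ext
    rw [Units.val_pow_eq_pow_val, Units.val_one, ← hC]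
    have e : 1 + q ^ 2 + q ^ 4 = 1 + Fintype.card F + Fintype.card F * Fintype.card F := by
      rw [hF]; ring
    rw [e, pow_add, pow_add, pow_one, pow_mul]
    exact h
  have hm : c ^ (q ^ 2 - q + 1) = 1 := by
    have h := orderOf_dvd_of_pow_eq_one hGU
    have h' := orderOf_dvd_of_pow_eq_one hnorm
    have hg := Nat.dvd_gcd h h'
    have e : Nat.gcd (Nat.card (GU 3 F q)) (1 + q ^ 2 + q ^ 4) = q ^ 2 - q + 1 := by
      rw [su3_card_GU hq hF]
      rcases hq with rfl | rfl <;> norm_num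
    rw [e] at hg
    exact orderOf_dvd_iff_pow_eq_one.mp hg
  have hm0 : q ^ 2 - q + 1 ≠ 0 := by omega
  exact su3_exists_unit K _ hm0 c (hC ▸ hcmem) hm

/-- A counting lemma: if the elements of `H` take at most 3 values under `f`, with fibres inside
translates of a set with at most `m` elements, then `|H| ≤ 3 m`. -/
theorem su3_card_le {G β : Type*} [Group G] [Finite G] (H : Subgroup G) (m : ℕ)
    (T : Finset G) (hT : T.card ≤ m) (f : H → β) (R : Finset β) (hR : R.card ≤ 3)
    (hf : ∀ h, f h ∈ R)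
    (hfib : ∀ h1 h2 : H, f h1 = f h2 → (h2 : G)⁻¹ * (h1 : G) ∈ T) :
    Nat.card H ≤ 3 * m := by
  classical
  haveI := Fintype.ofFinite H
  have h1 := Finset.card_le_mul_card_image (f := f) (Finset.univ : Finset H) m (by
    intro b hb
    obtain ⟨h2, -, rfl⟩ := Finset.mem_image.mp hb
    refine le_trans ?_ hT
    apply Finset.card_le_card_of_injOn (fun h : H => (h2 : G)⁻¹ * (h : G))
    · intro h hh
      simp only [Finset.coe_filter, Finset.mem_univ, true_and, Set.mem_ofPred_eq] at hh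
      exact Finset.mem_coe.mpr (hfib h h2 hh)
    · intro a _ b _ hab
      exact Subtype.ext (mul_left_cancel hab))
  have h2 : (Finset.univ.image f).card ≤ R.card := Finset.card_le_card (by
    intro b hb
    obtain ⟨h, -, rfl⟩ := Finset.mem_image.mp hb
    exact hf h)
  rw [Nat.card_eq_fintype_card, ← Finset.card_univ]
  calc (Finset.univ : Finset H).card ≤ m * (Finset.univ.image f).card := h1
    _ ≤ m * 3 := Nat.mul_le_mul_left _ (h2.trans hR)
    _ = 3 * m := by ring

/-- PIECE FA of CALL S5778. The field-extension subgroup of `SU_3(q)`, `q = 3, 5`: it contains an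
element `x` of order 7 whose cyclic subgroup it normalises, and it has order at most
`3 (q^2 - q + 1)`. -/
theorem su3_field_case {q : ℕ} (hq : q = 3 ∨ q = 5) (hF : Fintype.card F = q ^ 2)
    (K : Subalgebra F (Matrix (Fin 3) (Fin 3) F)) (hK : IsFieldSubalgebra 3 K)
    (hadj : IsAdjointClosedFor (hermForm 3 F q) K) :
    ∃ x : GL (Fin 3) F, x ∈ subalgebraNormalizer K ⊓ (GU 3 F q ⊓ specialLinear (Fin 3) F) ∧
      orderOf x = 7 ∧
      (∀ g ∈ subalgebraNormalizer K ⊓ (GU 3 F q ⊓ specialLinear (Fin 3) F),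
        g * x * g⁻¹ ∈ Subgroup.zpowers x) ∧
      Nat.card ↥(subalgebraNormalizer K ⊓ (GU 3 F q ⊓ specialLinear (Fin 3) F))
        ≤ 3 * (q ^ 2 - q + 1) := by
  classical
  obtain ⟨σ, hσ⟩ := exists_sigma hF
  have hadj' := su3_adj_mem hσ hadj
  letI := (IsFS.of hK).field
  haveI : Finite ↥K := Nat.finite_of_card_ne_zero (by
    rw [su3_cardK' K hK]; exact pow_ne_zero _ Fintype.card_ne_zero)
  have hcU : Nat.card (↥K)ˣ = q ^ 6 - 1 := by rw [Nat.card_units, su3_cardK hF K hK]
  haveI : Fact (Nat.Prime 7) := ⟨by norm_num⟩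
  obtain ⟨u, hu⟩ := exists_prime_orderOf_dvd_card' (G := (↥K)ˣ) 7 (by
    rw [hcU]; rcases hq with rfl | rfl <;> norm_num)
  obtain ⟨x, hx⟩ : ∃ x : GL (Fin 3) F, x = su3Incl K u := ⟨_, rfl⟩
  have hox : orderOf x = 7 := by
    rw [hx, orderOf_injective (su3Incl K) (su3Incl_injective K) u, hu]
  have hx7 : x ^ 7 = 1 := by
    rw [← hox]
    exact pow_orderOf_eq_one x
  have hxval : (x : Matrix (Fin 3) (Fin 3) F) = ((u : ↥K) : Matrix (Fin 3) (Fin 3) F) := by
    rw [hx, su3Incl_val]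
  have hxK : (x : Matrix (Fin 3) (Fin 3) F) ∈ K := by
    rw [hxval]
    exact (u : ↥K).2
  have hxN : x ∈ subalgebraNormalizer K :=
    Cfsg.Agent.Helper98.mem_normalizer_of_commute K x (fun k hk => hK.comm _ hxK k hk)
  have hxGU : x ∈ GU 3 F q := by
    have h1 := su3_unitary hq hσ hF K hK hadj' u hu
    rw [← hxval] at h1
    have h2 : ((x : Matrix (Fin 3) (Fin 3) F).map σ) * (x : Matrix (Fin 3) (Fin 3) F)ᵀ = 1 := by
      have h := congrArg Matrix.transpose h1
      rw [Matrix.transpose_mul, Matrix.transpose_transpose, Matrix.transpose_one] at h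
      exact h
    have h3 : (x : Matrix (Fin 3) (Fin 3) F)ᵀ * ((x : Matrix (Fin 3) (Fin 3) F).map σ) = 1 :=
      mul_eq_one_comm.mp h2
    intro a b
    have h4 := hσ.isSesq.similar_of_gram (x : Matrix (Fin 3) (Fin 3) F) 1
      (by rw [hσ.gram_herm, mul_one, one_smul]; exact h3) a b
    rw [one_mul] at h4
    exact h4
  have hxSL : x ∈ specialLinear (Fin 3) F := su3_mem_SL_of_pow hF x 7 (by
    rcases hq with rfl | rfl <;> norm_num) hx7
  have hconjK : ∀ g ∈ subalgebraNormalizer K,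
      ((g * x * g⁻¹ : GL (Fin 3) F) : Matrix (Fin 3) (Fin 3) F) ∈ K := by
    intro g hg
    rw [Units.val_mul, Units.val_mul]
    exact (hg _).mp hxK
  have hconj7 : ∀ g : GL (Fin 3) F, (g * x * g⁻¹) ^ 7 = 1 := by
    intro g
    rw [conj_pow, hx7, mul_one, mul_inv_cancel]
  refine ⟨x, Subgroup.mem_inf.mpr ⟨hxN, Subgroup.mem_inf.mpr ⟨hxGU, hxSL⟩⟩, hox, ?_, ?_⟩
  · intro g hg
    rw [hx]
    rw [hx] at hconjK hconj7
    exact su3_mem_zpowers_incl K hK u hu _ (hconjK g (Subgroup.mem_inf.mp hg).1) (hconj7 g)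
  · let p : Polynomial F := (x : Matrix (Fin 3) (Fin 3) F).charpoly
    let p' : Polynomial ↥K := p.map (algebraMap F ↥K)
    have hp'0 : p' ≠ 0 := ((Matrix.charpoly_monic _).map _).ne_zero
    let R : Finset ↥K := p'.roots.toFinset
    have hR : R.card ≤ 3 := by
      calc R.card ≤ Multiset.card p'.roots := Multiset.toFinset_card_le _
        _ ≤ p'.natDegree := Polynomial.card_roots' _
        _ ≤ p.natDegree := Polynomial.natDegree_map_le
        _ = 3 := by rw [Matrix.charpoly_natDegree_eq_dim, Fintype.card_fin]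
    let f : ↥(subalgebraNormalizer K ⊓ (GU 3 F q ⊓ specialLinear (Fin 3) F)) → ↥K := fun h =>
      ⟨(((h : GL (Fin 3) F) * x * (h : GL (Fin 3) F)⁻¹ : GL (Fin 3) F) :
        Matrix (Fin 3) (Fin 3) F), hconjK _ (Subgroup.mem_inf.mp h.2).1⟩
    haveI : Fintype (↥K)ˣ := Fintype.ofFinite _
    have hm0 : 0 < q ^ 2 - q + 1 := by omega
    let T : Finset (GL (Fin 3) F) :=
      (Finset.univ.filter (fun v : (↥K)ˣ => v ^ (q ^ 2 - q + 1) = 1)).image (su3Incl K)
    have hT : T.card ≤ q ^ 2 - q + 1 :=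
      le_trans Finset.card_image_le (IsCyclic.card_pow_eq_one_le (α := (↥K)ˣ) hm0)
    refine su3_card_le _ (q ^ 2 - q + 1) T hT f R hR ?_ ?_
    · intro h
      show f h ∈ p'.roots.toFinset
      rw [Multiset.mem_toFinset, Polynomial.mem_roots hp'0, Polynomial.IsRoot.def,
        Polynomial.eval_map, ← Polynomial.aeval_def]
      apply Subtype.ext
      have h1 := Polynomial.aeval_algHom_apply K.val (f h) p
      have hcp : (((h : GL (Fin 3) F) * x * (h : GL (Fin 3) F)⁻¹ : GL (Fin 3) F) :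
          Matrix (Fin 3) (Fin 3) F).charpoly = p := by
        rw [Units.val_mul, Units.val_mul, Matrix.coe_units_inv]
        exact Matrix.charpoly_units_conj _ _
      have h2 : Polynomial.aeval (((h : GL (Fin 3) F) * x * (h : GL (Fin 3) F)⁻¹ : GL (Fin 3) F) :
          Matrix (Fin 3) (Fin 3) F) p = 0 := by
        rw [← hcp]
        exact Matrix.aeval_self_charpoly _
      exact h1.symm.trans h2
    · intro h1 h2 h12
      have hEq : (h1 : GL (Fin 3) F) * x * (h1 : GL (Fin 3) F)⁻¹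
          = (h2 : GL (Fin 3) F) * x * (h2 : GL (Fin 3) F)⁻¹ := by
        apply Units.ext
        exact congrArg Subtype.val h12
      obtain ⟨y, hy, hym⟩ := su3_centralizer hq hF K hK u hu
        ((h2 : GL (Fin 3) F)⁻¹ * (h1 : GL (Fin 3) F))
        (Subgroup.mem_inf.mp (Subgroup.mul_mem _ (Subgroup.inv_mem _ h2.2) h1.2)).2 (by
          rw [← hx]
          calc (h2 : GL (Fin 3) F)⁻¹ * (h1 : GL (Fin 3) F) * x
              = (h2 : GL (Fin 3) F)⁻¹ * ((h1 : GL (Fin 3) F) * x * (h1 : GL (Fin 3) F)⁻¹)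
                * (h1 : GL (Fin 3) F) := by group
            _ = (h2 : GL (Fin 3) F)⁻¹ * ((h2 : GL (Fin 3) F) * x * (h2 : GL (Fin 3) F)⁻¹)
                * (h1 : GL (Fin 3) F) := by rw [hEq]
            _ = x * ((h2 : GL (Fin 3) F)⁻¹ * (h1 : GL (Fin 3) F)) := by group)
      rw [Finset.mem_image]
      exact ⟨y, by simp [hym], hy⟩

end Cfsg.Agent.Helper80.SU3F
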