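import Mathlib
import Cfsg.Agent.Helper98.OPar

/-!
# PIECE FIN of CALL S2414 (helper97): two generators of `Ω` give two generators of `PΩ` (helper80)
-/

set_option autoImplicit false

universe u

namespace Cfsg.Agent.Helper80

open Cfsg Matrix Cfsg.Agent.Helper45 Cfsg.Agent.Helper98

section generic

variable {ι : Type} [Fintype ι] [DecidableEq ι] {F : Type u} [Field F]
  (Q : QuadraticForm F (ι → F))

theorem tg_final (Q' : (ι → F) → F) (a b : ↥(isometryGroup F Q')) (ha : a ∈ Omega F Q')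
    (hb : b ∈ Omega F Q') (h : Omega F Q' ≤ Subgroup.closure {a, b}) :
    ∃ a' b' : POmega F Q', Subgroup.closure ({a', b'} : Set (POmega F Q')) = ⊤ := by
  have hmap : Subgroup.map (Omega F Q').subtype
      (Subgroup.closure ({⟨a, ha⟩, ⟨b, hb⟩} : Set ↥(Omega F Q'))) = Subgroup.closure {a, b} := by
    rw [MonoidHom.map_closure, Set.image_pair]
    rfl
  have htop : Subgroup.closure ({⟨a, ha⟩, ⟨b, hb⟩} : Set ↥(Omega F Q')) = ⊤ := by
    rw [eq_top_iff]
    intro w _
    have hw : (w : ↥(isometryGroup F Q')) ∈ Subgroup.closure {a, b} := h w.2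
    rw [← hmap] at hw
    obtain ⟨v, hv, hvw⟩ := Subgroup.mem_map.mp hw
    have : v = w := Subtype.ext hvw
    rw [← this]
    exact hv
  refine ⟨QuotientGroup.mk (⟨a, ha⟩ : ↥(Omega F Q')), QuotientGroup.mk (⟨b, hb⟩ : ↥(Omega F Q')),
    ?_⟩
  have h1 : Subgroup.map (QuotientGroup.mk' (Subgroup.center ↥(Omega F Q')))
      (Subgroup.closure ({⟨a, ha⟩, ⟨b, hb⟩} : Set ↥(Omega F Q'))) = ⊤ := by
    rw [htop]
    exact Subgroup.map_top_of_surjective _ (QuotientGroup.mk'_surjective _)
  rw [MonoidHom.map_closure, Set.image_pair] at h1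
  exact h1

end generic

end Cfsg.Agent.Helper80
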