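import Mathlib
import Cfsg.Agent.Helper97.TGDefs

/-!
# PIECE S33 of CALL S2414 (helper97): `s3 a b` has order dividing three in characteristic two
(helper80)
-/

set_option autoImplicit false
set_option linter.unusedSimpArgs false

universe u

namespace Cfsg.Agent.Helper80

open Cfsg Matrix Cfsg.Agent.Helper45 Cfsg.Agent.Helper98 Cfsg.Agent.Helper97.TG

section plus

variable {m : ℕ} {F : Type u} [Field F]

theorem tgs33_inl (a b : Fin m) (hab : a ≠ b) (x : Fin m ⊕ Fin m → F) (k : Fin m) :
    mv ⇑(QP m F) (s3 a b) x (Sum.inl k) =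
      if k = a then x (Sum.inr b) else if k = b then -x (Sum.inr a) else x (Sum.inl k) := by
  have hba : b ≠ a := fun h => hab h.symm
  unfold s3
  rw [mv_mul, mv_eichO, mv_eichO]
  simp only [Helper44.eich, QP_eV, QP_fV, zero_mul, sub_zero, polar_eV_left, polar_fV_left,
    Pi.add_apply, Pi.sub_apply, Pi.smul_apply, eV_inl, eV_inr, fV_inl, fV_inr, smul_eq_mul,
    mul_zero, add_zero]
  by_cases hka : k = a
  · subst hka
    simp [hab, hba]
  · by_cases hkb : k = b
    · subst hkb
      simp [hab, hba]
    · simp [hka, hkb]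

theorem tgs33_inr (a b : Fin m) (hab : a ≠ b) (x : Fin m ⊕ Fin m → F) (k : Fin m) :
    mv ⇑(QP m F) (s3 a b) x (Sum.inr k) =
      if k = a then x (Sum.inr a) + x (Sum.inl b) else
        if k = b then x (Sum.inr b) - x (Sum.inl a) else x (Sum.inr k) := by
  have hba : b ≠ a := fun h => hab h.symm
  unfold s3
  rw [mv_mul, mv_eichO, mv_eichO]
  simp only [Helper44.eich, QP_eV, QP_fV, zero_mul, sub_zero, polar_eV_left, polar_fV_left,
    Pi.add_apply, Pi.sub_apply, Pi.smul_apply, eV_inl, eV_inr, fV_inl, fV_inr, smul_eq_mul,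
    mul_zero, add_zero]
  by_cases hka : k = a
  · subst hka
    simp [hab, hba]
  · by_cases hkb : k = b
    · subst hkb
      simp [hab, hba]
    · simp [hka, hkb]

theorem tg_s3_pow [CharP F 2] (a b : Fin m) (hab : a ≠ b) : (s3 (F := F) a b) ^ 3 = 1 := by
  have hba : b ≠ a := fun h => hab h.symm
  have h2 : (2 : F) = 0 := CharTwo.two_eq_zero
  apply ext_mv
  intro x
  rw [mv_one, pow_succ, pow_succ, pow_one, mv_mul, mv_mul]
  funext k
  rcases k with k | k
  · by_cases hka : k = a
    · subst hka
      simp only [tgs33_inl _ _ hab, tgs33_inr _ _ hab, if_true, if_neg hba]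
      linear_combination (-(x (Sum.inl k))) * h2
    · by_cases hkb : k = b
      · subst hkb
        simp only [tgs33_inl _ _ hab, tgs33_inr _ _ hab, if_true, if_neg hab, if_neg hka]
        linear_combination (-(x (Sum.inl k))) * h2
      · simp only [tgs33_inl _ _ hab, if_neg hka, if_neg hkb]
  · by_cases hka : k = a
    · subst hka
      simp only [tgs33_inl _ _ hab, tgs33_inr _ _ hab, if_true, if_neg hba]
      linear_combination (-(x (Sum.inr k))) * h2
    · by_cases hkb : k = b
      · subst hkb
        simp only [tgs33_inl _ _ hab, tgs33_inr _ _ hab, if_true, if_neg hab, if_neg hka]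
        linear_combination (-(x (Sum.inr k))) * h2
      · simp only [tgs33_inr _ _ hab, if_neg hka, if_neg hkb]

end plus

end Cfsg.Agent.Helper80
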