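import Mathlib

/-!
# PIECE WDET of CALL S2414 (helper97): the determinant of the cyclic monomial matrix (helper80)
-/

set_option autoImplicit false

namespace Cfsg.Agent.Helper80

theorem tg_cycW_det {K : Type*} [Field K] (n : ℕ) :
    (Matrix.of (fun i j : Fin (n + 1) => if j.val = i.val + 1 then (1 : K) else
      if i.val = n ∧ j.val = 0 then (-1) ^ n else 0)).det = 1 := by
  have hM : (Matrix.of (fun i j : Fin (n + 1) => if j.val = i.val + 1 then (1 : K) else
      if i.val = n ∧ j.val = 0 then (-1) ^ n else 0)) =
      Matrix.diagonal (fun i : Fin (n + 1) => if i = Fin.last n then ((-1 : K)) ^ n else 1) *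
        (finRotate (n + 1)).permMatrix K := by
    ext i j
    rw [Matrix.diagonal_mul, Matrix.of_apply, Equiv.Perm.permMatrix, PEquiv.toMatrix_apply,
      Equiv.toPEquiv_apply]
    simp only [Option.mem_def, Option.some.injEq]
    by_cases hi : i = Fin.last n
    · subst hi
      rw [finRotate_last]
      have h1 : ¬ (j.val = (Fin.last n).val + 1) := by
        have := j.isLt
        simp only [Fin.val_last]
        omega
      rw [if_neg h1, if_pos rfl]
      by_cases hj : j = 0
      · subst hj
        simp
      · have hj' : ¬ ((0 : Fin (n + 1)) = j) := fun h => hj h.symm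
        have hj'' : ¬ (j.val = 0) := fun h => hj (Fin.ext h)
        simp [hj', hj'']
    · have hin : i.val ≠ n := fun h => hi (Fin.ext h)
      rw [if_neg hi, one_mul]
      have hσ : ((finRotate (n + 1)) i : ℕ) = i.val + 1 := coe_finRotate_of_ne_last hi
      by_cases hj : j.val = i.val + 1
      · have : finRotate (n + 1) i = j := Fin.ext (by rw [hσ, hj])
        rw [if_pos hj, if_pos this]
      · have : ¬ (finRotate (n + 1) i = j) := fun h => hj (by rw [← h, hσ])
        rw [if_neg hj, if_neg this, if_neg (fun h => hin h.1)]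
  rw [hM, Matrix.det_mul, Matrix.det_diagonal, Matrix.det_permutation, sign_finRotate,
    Finset.prod_ite_eq' Finset.univ (Fin.last n) (fun _ => ((-1 : K)) ^ n)]
  simp only [Finset.mem_univ, if_true, Nat.add_sub_cancel]
  have : ((((-1 : ℤˣ) ^ n : ℤˣ) : ℤ) : K) = (-1 : K) ^ n := by
    simp
  rw [this, ← mul_pow]
  simp

end Cfsg.Agent.Helper80
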