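import Mathlib

set_option autoImplicit false
open Matrix Polynomial

/-! Piece MUEX of CALL S5981 (helper98). -/

namespace Cfsg.Agent.Helper80.THMUEX

variable {F : Type*} [Field F] [Fintype F]

/-- MUEX -/
theorem exists_mu {n : ℕ} (hn : 0 < n) (r : ℕ) (hr : r.Prime)
    (hv : padicValNat r n < padicValNat r (Fintype.card F - 1)) :
    ∃ μ : F, μ ^ (n * r) = 1 ∧ μ ^ n ≠ 1 := by
  classical
  haveI : Fact r.Prime := ⟨hr⟩
  obtain ⟨v, hvdef⟩ : ∃ v : ℕ, v = padicValNat r n := ⟨_, rfl⟩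
  rw [← hvdef] at hv
  have hq0 : Fintype.card F - 1 ≠ 0 := by
    intro h
    rw [h, padicValNat_zero_right] at hv
    exact Nat.not_lt_zero _ hv
  have hdvd : r ^ (v + 1) ∣ Fintype.card F - 1 :=
    (padicValNat_dvd_iff_le hq0).mpr hv
  obtain ⟨g, hg⟩ := IsCyclic.exists_ofOrder_eq_natCard (α := Fˣ)
  have hcard : Nat.card Fˣ = Fintype.card F - 1 := by
    rw [Nat.card_eq_fintype_card, Fintype.card_units]
  rw [hcard] at hg
  obtain ⟨k, hk⟩ := hdvd
  have hk0 : k ≠ 0 := by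
    rintro rfl
    rw [mul_zero] at hk
    exact hq0 hk
  have hord : orderOf (g ^ k) = r ^ (v + 1) := by
    rw [orderOf_pow_of_dvd hk0 (by rw [hg, hk]; exact dvd_mul_left k _), hg, hk]
    exact Nat.mul_div_cancel _ (Nat.pos_of_ne_zero hk0)
  have hrvn : r ^ v ∣ n := by
    rw [hvdef]
    exact pow_padicValNat_dvd
  refine ⟨((g ^ k : Fˣ) : F), ?_, ?_⟩
  · have h1 : (g ^ k) ^ (n * r) = 1 := by
      apply orderOf_dvd_iff_pow_eq_one.mp
      rw [hord, pow_succ]
      exact mul_dvd_mul_right hrvn r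
    have h2 := congrArg (fun w : Fˣ => (w : F)) h1
    simpa using h2
  · intro h
    have h1 : (g ^ k) ^ n = 1 := by
      apply Units.ext
      simpa using h
    have h2 := orderOf_dvd_of_pow_eq_one h1
    rw [hord, hvdef] at h2
    exact pow_succ_padicValNat_not_dvd hn.ne' h2

end Cfsg.Agent.Helper80.THMUEX
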