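import Mathlib

set_option autoImplicit false
open Matrix Polynomial

/-! Piece SYMM of CALL S5981 (helper98). -/

namespace Cfsg.Agent.Helper80.THSYMM

variable {F : Type*} [Field F] [Fintype F]

/-- SYMM -/
theorem sim_rank_symm {n : ℕ} (G : Matrix (Fin n) (Fin n) F) (hG : G.det ≠ 0)
    (y : Matrix (Fin n) (Fin n) F) (c : F) (hc : c ≠ 0) (hy : yᵀ * G * y = c • G) (l : F) (hl : l ≠ 0) :
    (y - l • (1 : Matrix (Fin n) (Fin n) F)).rank = (y - (c / l) • (1 : Matrix (Fin n) (Fin n) F)).rank := by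
  have hydet : y.det ≠ 0 := by
    intro h0
    have h := congrArg Matrix.det hy
    rw [Matrix.det_mul, Matrix.det_mul, h0, mul_zero, Matrix.det_smul] at h
    exact mul_ne_zero (pow_ne_zero _ hc) hG h.symm
  have hGy : IsUnit (G * y).det := by
    rw [Matrix.det_mul]
    exact isUnit_iff_ne_zero.mpr (mul_ne_zero hG hydet)
  have hlG : IsUnit ((-l) • G).det := by
    rw [Matrix.det_smul]
    exact isUnit_iff_ne_zero.mpr (mul_ne_zero (pow_ne_zero _ (neg_ne_zero.mpr hl)) hG)
  have key : (y - l • (1 : Matrix (Fin n) (Fin n) F))ᵀ * (G * y)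
      = ((-l) • G) * (y - (c / l) • (1 : Matrix (Fin n) (Fin n) F)) := by
    rw [Matrix.transpose_sub, Matrix.transpose_smul, Matrix.transpose_one, Matrix.sub_mul,
      ← Matrix.mul_assoc, hy, Matrix.mul_sub, Matrix.smul_mul, Matrix.one_mul, Matrix.smul_mul,
      Matrix.mul_smul, Matrix.mul_one, smul_smul]
    have e : c / l * -l = -c := by
      field_simp
    rw [e, neg_smul, neg_smul, sub_neg_eq_add]
    abel
  calc (y - l • (1 : Matrix (Fin n) (Fin n) F)).rank
      = ((y - l • (1 : Matrix (Fin n) (Fin n) F))ᵀ).rank := (Matrix.rank_transpose _).symm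
    _ = ((y - l • (1 : Matrix (Fin n) (Fin n) F))ᵀ * (G * y)).rank :=
        (Matrix.rank_mul_eq_left_of_isUnit_det _ _ hGy).symm
    _ = (((-l) • G) * (y - (c / l) • (1 : Matrix (Fin n) (Fin n) F))).rank := by rw [key]
    _ = (y - (c / l) • (1 : Matrix (Fin n) (Fin n) F)).rank :=
        Matrix.rank_mul_eq_right_of_isUnit_det _ _ hlG

end Cfsg.Agent.Helper80.THSYMM
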