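import Mathlib
import Cfsg.Agent.Helper97.TNDefs

set_option autoImplicit false

/-! Piece PULL of CALL S2413 (helper97). -/

universe u

namespace Cfsg.Agent.Helper80

open Cfsg Matrix Cfsg.Agent.Helper45 Cfsg.Agent.Helper98 Cfsg.Agent.Helper97.TM
  Cfsg.Agent.Helper97.TN

section generic

variable {ι : Type} [Fintype ι] [DecidableEq ι] {F : Type u} [Field F]
  (Q : QuadraticForm F (ι → F))

theorem tn_pull_eichO_congr {u u' b b' : ι → F} (hu : Q u = 0)
    (hub : QuadraticMap.polar ⇑Q u b = 0) (hu' : Q u' = 0)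
    (hub' : QuadraticMap.polar ⇑Q u' b' = 0) (e1 : u = u') (e2 : b = b') :
    eichO Q u b hu hub = eichO Q u' b' hu' hub' := by
  subst e1
  subst e2
  rfl

/-- PULL -/
theorem tn_tD_pull (M : Subgroup ↥(isometryGroup F ⇑Q)) (g : ↥(isometryGroup F ⇑Q)) (hg : g ∈ M)
    (u u' : ι → F) (hu : Q u = 0) (hu' : Q u' = 0) (s : F) (hs : s ≠ 0)
    (hgu : mv ⇑Q g u' = s • u) (y y' : ι → F) (hgy : mv ⇑Q g y' = y)
    (hy : y ∈ tD Q M u hu) : y' ∈ tD Q M u' hu' := by
  obtain ⟨hy0, hyM⟩ := hy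
  have h1 : QuadraticMap.polar ⇑Q u' y' = 0 := by
    rw [← mv_polar Q g u' y', hgu, hgy, QuadraticMap.polar_smul_left, hy0, smul_zero]
  refine ⟨h1, fun c => ?_⟩
  have hcy' : QuadraticMap.polar ⇑Q u' (c • y') = 0 := by
    rw [QuadraticMap.polar_smul_right, h1, smul_zero]
  have hgu0 : Q (mv ⇑Q g u') = 0 := by
    rw [mv_quad ⇑Q g u']
    exact hu'
  have hgub : QuadraticMap.polar ⇑Q (mv ⇑Q g u') (mv ⇑Q g (c • y')) = 0 := by
    rw [mv_polar, hcy']
  have e := conj_eichO Q g u' (c • y') hu' hcy' hgu0 hgub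
  have hsu : Q (s • u) = 0 := by
    rw [← hgu]
    exact hgu0
  have hsub : QuadraticMap.polar ⇑Q (s • u) (c • y) = 0 := by
    rw [QuadraticMap.polar_smul_left, QuadraticMap.polar_smul_right, hy0, smul_zero, smul_zero]
  have e2 : eichO Q (mv ⇑Q g u') (mv ⇑Q g (c • y')) hgu0 hgub
      = eichO Q (s • u) (c • y) hsu hsub := by
    apply tn_pull_eichO_congr Q hgu0 hgub hsu hsub hgu
    rw [mv_smul, hgy]
  have hub' : QuadraticMap.polar ⇑Q u (s • (c • y)) = 0 := by
    rw [QuadraticMap.polar_smul_right, QuadraticMap.polar_smul_right, hy0, smul_zero, smul_zero]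
  have e3 := eichO_smul_left Q s u (c • y) hu hsu hsub hub'
  have hsc : QuadraticMap.polar ⇑Q u ((s * c) • y) = 0 := by
    rw [QuadraticMap.polar_smul_right, hy0, smul_zero]
  have e4 : eichO Q u (s • (c • y)) hu hub' = eichO Q u ((s * c) • y) hu hsc :=
    eichO_congr Q hu hub' hsc (smul_smul s c y)
  have hmem : g * eichO Q u' (c • y') hu' hcy' * g⁻¹ ∈ M := by
    rw [e, e2, e3, e4]
    exact hyM (s * c)
  have e5 : eichO Q u' (c • y') hu' hcy'
      = g⁻¹ * (g * eichO Q u' (c • y') hu' hcy' * g⁻¹) * g := by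
    group
  rw [e5]
  exact M.mul_mem (M.mul_mem (M.inv_mem hg) hmem) hg

end generic

end Cfsg.Agent.Helper80
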